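import Mathlib
import Cfsg.Agent.H63.BG11Defs
import Cfsg.Agent.H54.BG11T
import Cfsg.Agent.Lib.Helper30.CoprimeIface

set_option autoImplicit false

/-!
# B&G §11, piece X: a subgroup `X ≤ A` of order `p` fixed by some `g ∉ M` with `A ≤ g M g⁻¹`
has no fixed points on `M_σ` (helper32, for helper63)
-/

namespace Cfsg.Agent.H32.BG11

open Cfsg Subgroup Cfsg.Agent.H58.BG10 Cfsg.Agent.H63.BG11

universe u

variable {G : Type u} [Group G]

theorem mem_normalizer_inf {H K : Subgroup G} {a : G} (h1 : a ∈ normalizer (H : Set G))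
    (h2 : a ∈ normalizer (K : Set G)) : a ∈ normalizer ((H ⊓ K : Subgroup G) : Set G) := by
  rw [Subgroup.mem_normalizer_iff] at h1 h2 ⊢
  intro x
  exact ⟨fun hx => ⟨(h1 x).mp hx.1, (h2 x).mp hx.2⟩,
    fun hx => ⟨(h1 x).mpr hx.1, (h2 x).mpr hx.2⟩⟩

theorem excFix [Finite G] (hG : IsMinSimpleOddOrder G) (h350 : St1350 G) (hC : StExcCore G) :
    StExcFix G := by
  intro M A A₀ p _ hE g hg hA X hXA hXcard hXg
  by_contra hY
  have hp : p.Prime := Fact.out
  obtain ⟨hHallM, -, -⟩ := h350 M hE.coatom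
  obtain ⟨hSM, hSprime, hSidx⟩ := hHallM
  -- `A` centralizes `X`
  have hAC : A ≤ centralizer (X : Set G) := by
    intro a ha x hx
    exact congrArg Subtype.val (hE.elem.1.is_comm.comm ⟨x, hXA hx⟩ ⟨a, ha⟩)
  have hANC : A ≤ normalizer ((centralizer (X : Set G) : Subgroup G) : Set G) :=
    hAC.trans Subgroup.le_normalizer
  have hAS : A ≤ normalizer (sigmaCore M : Set G) :=
    hE.le.trans (Cfsg.Agent.H54.BG11.le_normalizer_sigmaCore M)
  have hSgn : M.map (MulAut.conj g).toMonoidHom ≤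
      normalizer (((sigmaCore M).map (MulAut.conj g).toMonoidHom : Subgroup G) : Set G) :=
    (Subgroup.map_mono (Cfsg.Agent.H54.BG11.le_normalizer_sigmaCore M)).trans
      (Subgroup.le_normalizer_map _)
  have hASg : A ≤ normalizer (((sigmaCore M).map (MulAut.conj g).toMonoidHom : Subgroup G) :
      Set G) := hA.trans hSgn
  have hAY1 : A ≤ normalizer ((sigmaCore M ⊓ centralizer (X : Set G) : Subgroup G) : Set G) :=
    fun a ha => mem_normalizer_inf (hAS ha) (hANC ha)
  have hAY2 : A ≤ normalizer (((sigmaCore M).map (MulAut.conj g).toMonoidHom ⊓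
      centralizer (X : Set G) : Subgroup G) : Set G) :=
    fun a ha => mem_normalizer_inf (hASg ha) (hANC ha)
  -- `g Y₁ g⁻¹ ≤ Y₂`
  have hmap : (sigmaCore M ⊓ centralizer (X : Set G)).map (MulAut.conj g).toMonoidHom ≤
      (sigmaCore M).map (MulAut.conj g).toMonoidHom ⊓ centralizer (X : Set G) := by
    rintro _ ⟨y, hy, rfl⟩
    refine ⟨Subgroup.mem_map_of_mem _ hy.1, ?_⟩
    intro x hx
    rw [← hXg] at hx
    obtain ⟨x', hx', rfl⟩ := hx
    have h1 : x' * y = y * x' := hy.2 x' hx'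
    show g * x' * g⁻¹ * (g * y * g⁻¹) = g * y * g⁻¹ * (g * x' * g⁻¹)
    have h2 : g * x' * g⁻¹ * (g * y * g⁻¹) = g * (x' * y) * g⁻¹ := by group
    have h3 : g * y * g⁻¹ * (g * x' * g⁻¹) = g * (y * x') * g⁻¹ := by group
    rw [h2, h3, h1]
  have hcard12 : Nat.card ↥(sigmaCore M ⊓ centralizer (X : Set G)) ∣
      Nat.card ↥((sigmaCore M).map (MulAut.conj g).toMonoidHom ⊓ centralizer (X : Set G)) := by
    have h1 := Subgroup.card_dvd_of_le hmap
    rwa [Subgroup.card_map_of_injective (MulAut.conj g).injective] at h1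
  -- coprimality
  have hcardY1 : Nat.card ↥(sigmaCore M ⊓ centralizer (X : Set G)) ∣ Nat.card (sigmaCore M) :=
    Subgroup.card_dvd_of_le inf_le_left
  have hcardY2 : Nat.card ↥((sigmaCore M).map (MulAut.conj g).toMonoidHom ⊓
      centralizer (X : Set G)) ∣ Nat.card (sigmaCore M) := by
    have h1 : Nat.card ↥((sigmaCore M).map (MulAut.conj g).toMonoidHom ⊓
        centralizer (X : Set G)) ∣ Nat.card ↥((sigmaCore M).map (MulAut.conj g).toMonoidHom) :=
      Subgroup.card_dvd_of_le inf_le_left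
    rwa [Subgroup.card_map_of_injective (MulAut.conj g).injective] at h1
  have hpS : ¬ p ∣ Nat.card (sigmaCore M) := fun h => hE.nsig (hSprime p hp h)
  have hcop1 : (Nat.card A).Coprime (Nat.card ↥(sigmaCore M ⊓ centralizer (X : Set G))) := by
    rw [hE.card]
    exact Nat.Coprime.pow_left 2
      ((Nat.Prime.coprime_iff_not_dvd hp).mpr (fun h => hpS (h.trans hcardY1)))
  have hcop2 : (Nat.card A).Coprime (Nat.card ↥((sigmaCore M).map (MulAut.conj g).toMonoidHom ⊓
      centralizer (X : Set G))) := by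
    rw [hE.card]
    exact Nat.Coprime.pow_left 2
      ((Nat.Prime.coprime_iff_not_dvd hp).mpr (fun h => hpS (h.trans hcardY2)))
  have hsolvA : Group.IsSolvable A := by
    have hpg : IsPGroup p A := IsPGroup.of_card hE.card
    have := hpg.isNilpotent
    infer_instance
  -- a prime `q` dividing `|Y₁|`
  have hcard1 : Nat.card ↥(sigmaCore M ⊓ centralizer (X : Set G)) ≠ 1 :=
    fun h1 => hY (Subgroup.eq_bot_of_card_eq _ h1)
  obtain ⟨q, hq, hqY⟩ := Nat.exists_prime_and_dvd hcard1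
  have : Fact q.Prime := ⟨hq⟩
  obtain ⟨Q₁, hQ₁⟩ := Cfsg.Agent.Lib.Helper30.coprime_exists_invariant_sylow A
    (sigmaCore M ⊓ centralizer (X : Set G)) hAY1 hcop1 (Or.inl hsolvA) q
  obtain ⟨Q₂, hQ₂⟩ := Cfsg.Agent.Lib.Helper30.coprime_exists_invariant_sylow A
    ((sigmaCore M).map (MulAut.conj g).toMonoidHom ⊓ centralizer (X : Set G)) hAY2 hcop2
    (Or.inl hsolvA) q
  have hU1Y : (Q₁ : Subgroup ↥(sigmaCore M ⊓ centralizer (X : Set G))).map
      (sigmaCore M ⊓ centralizer (X : Set G)).subtype ≤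
      sigmaCore M ⊓ centralizer (X : Set G) := Subgroup.map_subtype_le _
  have hU2Y : (Q₂ : Subgroup ↥((sigmaCore M).map (MulAut.conj g).toMonoidHom ⊓
      centralizer (X : Set G))).map
      ((sigmaCore M).map (MulAut.conj g).toMonoidHom ⊓ centralizer (X : Set G)).subtype ≤
      (sigmaCore M).map (MulAut.conj g).toMonoidHom ⊓ centralizer (X : Set G) :=
    Subgroup.map_subtype_le _
  have hU1p : IsPGroup q ↥((Q₁ : Subgroup ↥(sigmaCore M ⊓ centralizer (X : Set G))).map
      (sigmaCore M ⊓ centralizer (X : Set G)).subtype) := Q₁.isPGroup'.map _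
  have hU2p : IsPGroup q ↥((Q₂ : Subgroup ↥((sigmaCore M).map (MulAut.conj g).toMonoidHom ⊓
      centralizer (X : Set G))).map
      ((sigmaCore M).map (MulAut.conj g).toMonoidHom ⊓ centralizer (X : Set G)).subtype) :=
    Q₂.isPGroup'.map _
  have hU1ne : (Q₁ : Subgroup ↥(sigmaCore M ⊓ centralizer (X : Set G))).map
      (sigmaCore M ⊓ centralizer (X : Set G)).subtype ≠ ⊥ := by
    intro h
    rw [Subgroup.map_eq_bot_iff_of_injective _ (Subgroup.subtype_injective _)] at h
    exact Q₁.ne_bot_of_dvd_card hqY h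
  have hU2ne : (Q₂ : Subgroup ↥((sigmaCore M).map (MulAut.conj g).toMonoidHom ⊓
      centralizer (X : Set G))).map
      ((sigmaCore M).map (MulAut.conj g).toMonoidHom ⊓ centralizer (X : Set G)).subtype ≠ ⊥ := by
    intro h
    rw [Subgroup.map_eq_bot_iff_of_injective _ (Subgroup.subtype_injective _)] at h
    exact Q₂.ne_bot_of_dvd_card (hqY.trans hcard12) h
  -- `N(X)` is proper
  have hX1 : X ≠ ⊥ := by
    intro h
    rw [h, Subgroup.card_bot] at hXcard
    exact hp.one_lt.ne hXcard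
  have hH : normalizer (X : Set G) ≠ ⊤ := by
    intro htop
    have hXn : X.Normal := Subgroup.normalizer_eq_top_iff.mp htop
    have := hG.2.1
    rcases hXn.eq_bot_or_eq_top with h | h
    · exact hX1 h
    · have hMtop : M = ⊤ := top_le_iff.mp (h ▸ (hXA.trans hE.le))
      exact hE.coatom.1 hMtop
  have hCN : centralizer (X : Set G) ≤ normalizer (X : Set G) :=
    Subgroup.centralizer_le_normalizer _
  exact hC M A A₀ p hE g hg hA q _ _ (normalizer (X : Set G)) (hU1Y.trans inf_le_left)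
    (hU2Y.trans inf_le_left) hU1p hU2p hU1ne hU2ne hQ₁ hQ₂ hH (hAC.trans hCN)
    (hU1Y.trans (inf_le_right.trans hCN)) (hU2Y.trans (inf_le_right.trans hCN))

end Cfsg.Agent.H32.BG11
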