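import Cfsg.Agent.H52.SrDefs
import Cfsg.Agent.H63.SnIfV
import Cfsg.Agent.H53.POf

/-!
# SR-VNG (piece of the `S₃^r` picture for S2951 / S2952)

`V = Ω₁(Z(O₂(L)))` is normalized by `L`, has exponent 2, lies in `O₂(L) ≤ L`, and `O₂(L)` is a
2-group.
-/

set_option autoImplicit false
open Cfsg

namespace Cfsg.Agent.H32.Sr

universe u

/-- Conjugation by an element normalizing `X` preserves `Ω₁(Z(X))`. -/
theorem omegaCenterOf_conj_mem {G : Type u} [Group G] (X : Subgroup G) {g v : G}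
    (hg : ∀ x ∈ X, g * x * g⁻¹ ∈ X) (hg' : ∀ x ∈ X, g⁻¹ * x * g ∈ X)
    (hv : v ∈ omegaCenterOf X) : g * v * g⁻¹ ∈ omegaCenterOf X := by
  obtain ⟨h1, h2, h3⟩ := Cfsg.Agent.H63.Sn.mem_omegaCenterOf _ hv
  refine Cfsg.Agent.H63.Sn.omegaCenterOf_mem _ (hg v h1) ?_ ?_
  · rw [Subgroup.mem_centralizer_iff]
    intro q hq
    have hc := (Subgroup.mem_centralizer_iff.mp h2) _ (hg' q hq)
    calc q * (g * v * g⁻¹) = g * ((g⁻¹ * q * g) * v) * g⁻¹ := by group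
      _ = g * (v * (g⁻¹ * q * g)) * g⁻¹ := by rw [hc]
      _ = g * v * g⁻¹ * q := by group
  · rw [conj_pow, h3, mul_one, mul_inv_cancel]

/-- Elements of `L` conjugate `Ω₁(Z(O₂(L)))` into itself. -/
theorem conj_mem_omegaCenterOf_pCoreOf {G : Type u} [Group G] (L : Subgroup G) {l v : G}
    (hl : l ∈ L) (hv : v ∈ omegaCenterOf (pCoreOf 2 L)) :
    l * v * l⁻¹ ∈ omegaCenterOf (pCoreOf 2 L) := by
  refine omegaCenterOf_conj_mem (pCoreOf 2 L) ?_ ?_ hv
  · intro x hx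
    exact Cfsg.Agent.H63.Sn.pCoreOf_conj L hl hx
  · intro x hx
    have := Cfsg.Agent.H63.Sn.pCoreOf_conj L (L.inv_mem hl) hx
    simpa using this

/-- SR-VNG. -/
theorem vng : Cfsg.Agent.H52.Sr.StVNG.{u} := by
  intro G _ _ L
  refine ⟨?_, ?_, ?_, Cfsg.Agent.H63.Sn.pCoreOf_le L, Cfsg.Agent.H53.pCoreOf_isPGroup 2 L⟩
  · intro l hl
    rw [Subgroup.mem_normalizer_iff]
    intro v
    constructor
    · intro hv
      exact conj_mem_omegaCenterOf_pCoreOf L hl hv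
    · intro hv
      have h := conj_mem_omegaCenterOf_pCoreOf L (L.inv_mem hl) hv
      have e : l⁻¹ * (l * v * l⁻¹) * l⁻¹⁻¹ = v := by group
      rw [e] at h
      exact h
  · intro v hv
    have h := (Cfsg.Agent.H63.Sn.mem_omegaCenterOf _ hv).2.2
    rw [pow_two] at h
    exact h
  · intro v hv
    exact (Cfsg.Agent.H63.Sn.mem_omegaCenterOf _ hv).1

example : Cfsg.Agent.H52.Sr.StVNG.{u} := vng

end Cfsg.Agent.H32.Sr
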