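import Cfsg.Agent.H59.JzKillDefs
import Cfsg.Agent.H63.SnIfV

/-!
# K-EXP (sub-piece of JZ-KILL, S2951 / S2952): `Ω₁Z(X)` has exponent 2
-/

set_option autoImplicit false
open Cfsg

namespace Cfsg.Agent.H32.JzK

universe u

/-- K-EXP. -/
theorem kExp : Cfsg.Agent.H59.JzK.StKExp.{u} := by
  intro G _ _ X v hv
  have h := (Cfsg.Agent.H63.Sn.mem_omegaCenterOf X hv).2.2
  rw [pow_two] at h
  exact h

example : Cfsg.Agent.H59.JzK.StKExp.{u} := kExp

end Cfsg.Agent.H32.JzK
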