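import Mathlib
import Cfsg.Agent.H63.BG11Defs
import Cfsg.Agent.H70.BG10D
import Cfsg.Agent.S1396

set_option autoImplicit false

/-!
# B&G §11, piece F: the immediate consequences of Hypothesis 11.1 (helper32, for helper63)
-/

namespace Cfsg.Agent.H32.BG11

open Cfsg Subgroup Cfsg.Agent.H58.BG10 Cfsg.Agent.H63.BG11

universe u

variable {G : Type u} [Group G]

theorem excFacts [Finite G] (hG : IsMinSimpleOddOrder G) (h105 : St1408 G) (h106 : St1409 G)
    (h107a : St1410 G) : StExcFacts G := by
  intro M A A₀ p _ hE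
  have hpp : p.Prime := Fact.out
  obtain ⟨⟨rk2, rk1⟩, _, _⟩ := h106 M hE.coatom p hE.nsig A₀ hE.card₀ hE.norm
  have hmax : ∀ B : Subgroup G, IsElementaryAbelian p B → A ≤ B → B = A :=
    (h105 M hE.coatom p hE.nsig rk2 rk1).2 A hE.le hE.elem hE.card
  have homega : ∀ x ∈ centralizer (A : Set G), x ^ p = 1 ↔ x ∈ A := by
    intro x hx
    constructor
    · intro hxp
      have hcomm : ∀ b ∈ A, x * b = b * x := fun b hb => (hx b hb).symm
      have h1 := Cfsg.Agent.H70.BG10.sup_zpowers_elementary hE.elem hcomm hxp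
      have h2 := hmax _ h1 le_sup_left
      rw [← h2]
      exact le_sup_right (a := A) (mem_zpowers x)
    · intro hxA
      exact hE.elem.2 x hxA
  have hpG : p ∣ Nat.card G := by
    have h1 : Nat.card A ∣ Nat.card G := Subgroup.card_subgroup_dvd_card A
    rw [hE.card] at h1
    exact (dvd_pow_self p two_ne_zero).trans h1
  have hAp : IsPGroup p A := IsPGroup.of_card hE.card
  refine ⟨rk2, rk1, hmax, homega, ?_, ?_⟩
  · exact Cfsg.Agent.S1396.result hG p hpG A hAp hE.elem.1
      (Or.inl ⟨homega, fun H hH => h107a p H hH⟩)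
  · intro x hx
    apply hE.norm
    have hx0 : x ∈ centralizer (A₀ : Set G) := Subgroup.centralizer_le hE.le₀ hx
    rw [Subgroup.mem_normalizer_iff]
    intro h
    have hc : ∀ y ∈ A₀, x * y * x⁻¹ = y := by
      intro y hy
      have := hx0 y hy
      rw [← this]; group
    constructor
    · intro hh
      rw [hc h hh]; exact hh
    · intro hh
      have h3 : x * h * x⁻¹ * x = x * (x * h * x⁻¹) := hx0 _ hh
      have h4 : h = x * h * x⁻¹ := by
        have h5 : x * h = x * (x * h * x⁻¹) := by
          rw [← h3]; group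
        exact mul_left_cancel h5
      rw [h4]; exact hh

end Cfsg.Agent.H32.BG11
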