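import Cfsg.Agent.H59.JzKillDefs

/-!
# K-FIX (sub-piece of JZ-KILL, S2951 / S2952)

An involution `b` normalizing a group `V` of exponent 2 and order at least 16 centralizes two
distinct nontrivial elements of `V`: the endomorphism `v ↦ v · b v b⁻¹` of `V` has kernel and
image inside `C_V(b)`, so `|C_V(b)|² ≥ |V| ≥ 16`.
-/

set_option autoImplicit false
open Cfsg

namespace Cfsg.Agent.H32.JzK

universe u

/-- In a group of exponent 2 any two elements commute. -/
theorem comm_of_exp_two {G : Type u} [Group G] (V : Subgroup G) (hexp : ∀ v ∈ V, v * v = 1)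
    {v w : G} (hv : v ∈ V) (hw : w ∈ V) : v * w = w * v := by
  calc v * w = v * w * (w * v * (w * v)) := by rw [hexp (w * v) (V.mul_mem hw hv), mul_one]
    _ = v * (w * w) * v * (w * v) := by group
    _ = (v * v) * (w * v) := by rw [hexp w hw]; group
    _ = w * v := by rw [hexp v hv, one_mul]

/-- The number of fixed points of an involution `b` on `V` (exponent 2) squared is at least
`|V|`. -/
theorem card_le_fix_sq {G : Type u} [Group G] [Finite G] (V : Subgroup G)
    (hexp : ∀ v ∈ V, v * v = 1) {b : G} (hb : b ∈ Subgroup.normalizer (V : Set G))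
    (hbb : b * b = 1) :
    Nat.card ↥V ≤ Nat.card {v : ↥V // b * (v : G) = (v : G) * b} *
      Nat.card {v : ↥V // b * (v : G) = (v : G) * b} := by
  classical
  have hbinv : b⁻¹ = b := inv_eq_of_mul_eq_one_left hbb
  have hconj : ∀ v ∈ V, b * v * b⁻¹ ∈ V := fun v hv =>
    (Subgroup.mem_normalizer_iff.mp hb v).mp hv
  -- the endomorphism
  let φ : ↥V →* ↥V :=
    { toFun := fun v => ⟨(v : G) * (b * (v : G) * b⁻¹), V.mul_mem v.2 (hconj _ v.2)⟩
      map_one' := by
        apply Subtype.ext
        show (1 : G) * (b * 1 * b⁻¹) = 1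
        group
      map_mul' := by
        intro v w
        apply Subtype.ext
        show ((v : G) * (w : G)) * (b * ((v : G) * (w : G)) * b⁻¹) =
          ((v : G) * (b * (v : G) * b⁻¹)) * ((w : G) * (b * (w : G) * b⁻¹))
        have hc := comm_of_exp_two V hexp w.2 (hconj _ v.2)
        calc ((v : G) * (w : G)) * (b * ((v : G) * (w : G)) * b⁻¹)
            = (v : G) * ((w : G) * (b * (v : G) * b⁻¹)) * (b * (w : G) * b⁻¹) := by group
          _ = (v : G) * ((b * (v : G) * b⁻¹) * (w : G)) * (b * (w : G) * b⁻¹) := by rw [hc]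
          _ = ((v : G) * (b * (v : G) * b⁻¹)) * ((w : G) * (b * (w : G) * b⁻¹)) := by group }
  have hφ : ∀ v : ↥V, ((φ v : ↥V) : G) = (v : G) * (b * (v : G) * b⁻¹) := fun v => rfl
  -- kernel inside the fixed points
  have hker : ∀ v : ↥V, v ∈ φ.ker → b * (v : G) = (v : G) * b := by
    intro v hv
    have h1 : (v : G) * (b * (v : G) * b⁻¹) = 1 := by
      have := congrArg Subtype.val (MonoidHom.mem_ker.mp hv)
      rw [hφ] at this
      exact this
    have h2 : b * (v : G) * b⁻¹ = (v : G) := by
      have h3 : b * (v : G) * b⁻¹ = (v : G)⁻¹ := (inv_eq_of_mul_eq_one_right h1).symm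
      rw [h3]
      exact inv_eq_of_mul_eq_one_left (hexp _ v.2)
    calc b * (v : G) = (b * (v : G) * b⁻¹) * b := by group
      _ = (v : G) * b := by rw [h2]
  -- range inside the fixed points
  have hrange : ∀ u : ↥V, u ∈ φ.range → b * (u : G) = (u : G) * b := by
    rintro u ⟨v, rfl⟩
    rw [hφ]
    have hc := comm_of_exp_two V hexp (hconj _ v.2) v.2
    have h4 : b * (b * (v : G) * b⁻¹) * b⁻¹ = (v : G) := by
      rw [hbinv]
      calc b * (b * (v : G) * b) * b = (b * b) * (v : G) * (b * b) := by group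
        _ = (v : G) := by rw [hbb, one_mul, mul_one]
    calc b * ((v : G) * (b * (v : G) * b⁻¹))
        = (b * (v : G) * b⁻¹) * (b * (b * (v : G) * b⁻¹) * b⁻¹) * b := by group
      _ = (b * (v : G) * b⁻¹) * (v : G) * b := by rw [h4]
      _ = (v : G) * (b * (v : G) * b⁻¹) * b := by rw [hc]
  have h1 : Nat.card φ.ker ≤ Nat.card {v : ↥V // b * (v : G) = (v : G) * b} := by
    apply Nat.card_le_card_of_injective
      (fun v : φ.ker => (⟨v.1, hker v.1 v.2⟩ : {v : ↥V // b * (v : G) = (v : G) * b}))
    intro x y hxy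
    apply Subtype.ext
    have h := congrArg (fun z : {v : ↥V // b * (v : G) = (v : G) * b} => z.1) hxy
    exact h
  have h2 : Nat.card φ.range ≤ Nat.card {v : ↥V // b * (v : G) = (v : G) * b} := by
    apply Nat.card_le_card_of_injective
      (fun v : φ.range => (⟨v.1, hrange v.1 v.2⟩ : {v : ↥V // b * (v : G) = (v : G) * b}))
    intro x y hxy
    apply Subtype.ext
    have h := congrArg (fun z : {v : ↥V // b * (v : G) = (v : G) * b} => z.1) hxy
    exact h
  have h3 : Nat.card φ.ker * Nat.card φ.range = Nat.card ↥V := by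
    rw [← Subgroup.index_ker φ]
    exact Subgroup.card_mul_index φ.ker
  calc Nat.card ↥V = Nat.card φ.ker * Nat.card φ.range := h3.symm
    _ ≤ _ := Nat.mul_le_mul h1 h2

/-- K-FIX. -/
theorem kFix : Cfsg.Agent.H59.JzK.StKFix.{u} := by
  classical
  intro G _ _ V hexp hcard b hb hbb
  have hle := card_le_fix_sq V hexp hb hbb
  set c := Nat.card {v : ↥V // b * (v : G) = (v : G) * b} with hc
  have hc4 : 4 ≤ c := by
    by_contra hcon
    push Not at hcon
    have : c * c ≤ 3 * 3 := Nat.mul_le_mul (by omega) (by omega)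
    omega
  letI : Fintype {v : ↥V // b * (v : G) = (v : G) * b} := Fintype.ofFinite _
  let one' : {v : ↥V // b * (v : G) = (v : G) * b} := ⟨1, by simp⟩
  have hs : 1 < (Finset.univ.erase one').card := by
    rw [Finset.card_erase_of_mem (Finset.mem_univ _), Finset.card_univ,
      ← Nat.card_eq_fintype_card]
    omega
  obtain ⟨x, hx, y, hy, hxy⟩ := Finset.one_lt_card.mp hs
  have hx1 : x ≠ one' := Finset.ne_of_mem_erase hx
  have hy1 : y ≠ one' := Finset.ne_of_mem_erase hy
  refine ⟨(x.1 : G), x.1.2, (y.1 : G), y.1.2, ?_, ?_, ?_, x.2, y.2⟩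
  · intro h
    apply hx1
    apply Subtype.ext
    apply Subtype.ext
    exact h
  · intro h
    apply hy1
    apply Subtype.ext
    apply Subtype.ext
    exact h
  · intro h
    apply hxy
    apply Subtype.ext
    apply Subtype.ext
    exact h

example : Cfsg.Agent.H59.JzK.StKFix.{u} := kFix

end Cfsg.Agent.H32.JzK
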