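import Mathlib
import Cfsg.Agent.H42.SqDefs
import Cfsg.Agent.H52.Subnormal
import Cfsg.Agent.H63.SnIfV
import Cfsg.Agent.H75.SoWid
import Cfsg.Agent.H3.Critical

/-!
# SQ-V (piece of S2945): `V = Ω₁(Z(O₂(K ⊔ J)))`

`H = K ⊔ J`, `K` subnormal in `H`, generated by its odd-order elements, `O₂(K)` of index 3,
`W = W_K` a four-group.  Then `O₂(K) ≤ Q = O₂(H)`, `Q` normalizes `K`, `W ≤ Z(Q)` (a nontrivial
element of `W ∩ Z(Q)` centralized by `K` would force `[W, K]` to have order at most 2), and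
`[V, K] = W` by helper75's `core`.
-/

set_option autoImplicit false
open Cfsg

namespace Cfsg.Agent.H32.Sq

open Cfsg.Agent.H42.Sq
open scoped commutatorElement

universe u

/-- Conjugation by an element normalizing `X` preserves `Ω₁(Z(X))`. -/
theorem omegaCenterOf_conj {G : Type u} [Group G] (X : Subgroup G) {g u : G}
    (hg : ∀ x ∈ X, g * x * g⁻¹ ∈ X) (hg' : ∀ x ∈ X, g⁻¹ * x * g ∈ X)
    (hu : u ∈ omegaCenterOf X) : g * u * g⁻¹ ∈ omegaCenterOf X := by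
  obtain ⟨h1, h2, h3⟩ := Cfsg.Agent.H63.Sn.mem_omegaCenterOf _ hu
  refine Cfsg.Agent.H63.Sn.omegaCenterOf_mem _ (hg u h1) ?_ ?_
  · rw [Subgroup.mem_centralizer_iff]
    intro q hq
    have hc := (Subgroup.mem_centralizer_iff.mp h2) _ (hg' q hq)
    calc q * (g * u * g⁻¹) = g * ((g⁻¹ * q * g) * u) * g⁻¹ := by group
      _ = g * (u * (g⁻¹ * q * g)) * g⁻¹ := by rw [hc]
      _ = g * u * g⁻¹ * q := by group
  · rw [conj_pow, h3, mul_one, mul_inv_cancel]

/-- An element normalizing `K` normalizes `O₂(K)`. -/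
theorem pCoreOf_conj_of_norm {G : Type u} [Group G] (K : Subgroup G) {g x : G}
    (hg : ∀ k ∈ K, g * k * g⁻¹ ∈ K) (hg' : ∀ k ∈ K, g⁻¹ * k * g ∈ K)
    (hx : x ∈ pCoreOf 2 K) : g * x * g⁻¹ ∈ pCoreOf 2 K := by
  haveI := Cfsg.Agent.H53.pCore_characteristic 2 ↥K
  have hgN : g ∈ Subgroup.normalizer (K : Set G) := by
    rw [Subgroup.mem_normalizer_iff]
    intro k
    constructor
    · exact hg k
    · intro h
      have := hg' _ h
      simpa [mul_assoc] using this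
  exact Cfsg.Agent.H52.conj_mem_map_of_characteristic (pCore 2 ↥K) hgN hx

/-- SQ-V. -/
theorem v : StV.{u} := by
  intro G _ _ K J hgen h3 hW4 hW2 hsn
  haveI : Fact (Nat.Prime 2) := ⟨Nat.prime_two⟩
  have hKH : K ≤ K ⊔ J := le_sup_left
  have hPK : pCoreOf 2 K ≤ K := Cfsg.Agent.H63.Sn.pCoreOf_le K
  have hQH : pCoreOf 2 (K ⊔ J) ≤ K ⊔ J := Cfsg.Agent.H63.Sn.pCoreOf_le _
  have hVmem := fun {x : G} (hx : x ∈ omegaCenterOf (pCoreOf 2 (K ⊔ J))) =>
    Cfsg.Agent.H63.Sn.mem_omegaCenterOf (pCoreOf 2 (K ⊔ J)) hx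
  have hUmem := fun {x : G} (hx : x ∈ omegaCenterOf (pCoreOf 2 K)) =>
    Cfsg.Agent.H63.Sn.mem_omegaCenterOf (pCoreOf 2 K) hx
  have hP2 : IsPGroup 2 ↥(pCoreOf 2 K) := (Cfsg.Agent.H53.pCore_isPGroup 2 ↥K).map K.subtype
  have hQ2 : IsPGroup 2 ↥(pCoreOf 2 (K ⊔ J)) :=
    (Cfsg.Agent.H53.pCore_isPGroup 2 ↥(K ⊔ J)).map (K ⊔ J).subtype
  -- `O₂(K) ≤ O₂(H)`
  have hPQ : pCoreOf 2 K ≤ pCoreOf 2 (K ⊔ J) := by
    intro x hx
    have hxH : x ∈ K ⊔ J := hKH (hPK hx)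
    have hle : (pCoreOf 2 K).subgroupOf (K ⊔ J) ≤ Cfsg.pCore 2 ↥(K ⊔ J) := by
      apply Cfsg.Agent.H52.le_pCore_of_normalized_of_subnormal hsn
      · intro y hy
        exact Subgroup.mem_subgroupOf.mpr (hPK (Subgroup.mem_subgroupOf.mp hy))
      · intro k hk a ha
        rw [Subgroup.mem_subgroupOf] at hk ha ⊢
        simpa using Cfsg.Agent.H63.Sn.pCoreOf_conj K hk ha
      · exact hP2.comap_subtype
    exact (Cfsg.Agent.H63.Sn.mem_pCoreOf _).mpr ⟨hxH, hle (Subgroup.mem_subgroupOf.mpr hx)⟩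
  -- `O₂(H)` normalizes `K`
  have hQK : ∀ q ∈ pCoreOf 2 (K ⊔ J), ∀ k ∈ K, q * k * q⁻¹ ∈ K := by
    have hle : Cfsg.pCore 2 ↥(K ⊔ J) ≤
        Subgroup.normalizer ((K.subgroupOf (K ⊔ J) : Subgroup ↥(K ⊔ J)) : Set ↥(K ⊔ J)) := by
      apply Cfsg.Agent.H52.pCore_le_normalizer_of_subnormal_aux hsn _ le_rfl
      · intro k hk b hb
        exact mul_mem (mul_mem hk hb) (inv_mem hk)
      · have hmap : (Subgroup.closure {x : ↥(K ⊔ J) | x ∈ K.subgroupOf (K ⊔ J) ∧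
            (orderOf x).Coprime 2}).map (K ⊔ J).subtype = K := by
          rw [MonoidHom.map_closure]
          conv_rhs => rw [← hgen]
          congr 1
          ext y
          constructor
          · rintro ⟨g, ⟨hg1, hg2⟩, rfl⟩
            refine ⟨Subgroup.mem_subgroupOf.mp hg1, ?_⟩
            rw [Subgroup.coe_subtype, Subgroup.orderOf_coe]
            exact Nat.coprime_two_right.mp hg2
          · rintro ⟨hyK, hodd⟩
            refine ⟨⟨y, hKH hyK⟩, ⟨Subgroup.mem_subgroupOf.mpr hyK, ?_⟩, rfl⟩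
            rw [← Subgroup.orderOf_coe]
            exact Nat.coprime_two_right.mpr hodd
        intro x hx
        have hxK : (x : G) ∈ K := Subgroup.mem_subgroupOf.mp hx
        obtain ⟨y, hy, hyx⟩ := hmap.ge hxK
        have hyx' : y = x := Subtype.ext hyx
        rw [← hyx']; exact hy
    intro q hq k hk
    obtain ⟨hqH, hq'⟩ := (Cfsg.Agent.H63.Sn.mem_pCoreOf _).mp hq
    have h1 := hle hq'
    rw [Subgroup.mem_normalizer_iff] at h1
    have h2 : (⟨k, hKH hk⟩ : ↥(K ⊔ J)) ∈ K.subgroupOf (K ⊔ J) := Subgroup.mem_subgroupOf.mpr hk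
    exact Subgroup.mem_subgroupOf.mp ((h1 _).mp h2)
  have hQK' : ∀ q ∈ pCoreOf 2 (K ⊔ J), ∀ k ∈ K, q⁻¹ * k * q ∈ K := by
    intro q hq k hk
    have := hQK q⁻¹ (inv_mem hq) k hk
    simpa using this
  -- `K` normalizes `U = Ω₁(Z(O₂(K)))`
  have hKU : ∀ k ∈ K, ∀ u ∈ omegaCenterOf (pCoreOf 2 K),
      k * u * k⁻¹ ∈ omegaCenterOf (pCoreOf 2 K) := by
    intro k hk u hu
    refine omegaCenterOf_conj _ (fun x hx => Cfsg.Agent.H63.Sn.pCoreOf_conj K hk hx) ?_ hu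
    intro x hx
    have := Cfsg.Agent.H63.Sn.pCoreOf_conj K (inv_mem hk) hx
    simpa using this
  -- `Q` normalizes `U`
  have hQU : ∀ q ∈ pCoreOf 2 (K ⊔ J), ∀ u ∈ omegaCenterOf (pCoreOf 2 K),
      q * u * q⁻¹ ∈ omegaCenterOf (pCoreOf 2 K) := by
    intro q hq u hu
    refine omegaCenterOf_conj _
      (fun x hx => pCoreOf_conj_of_norm K (hQK q hq) (hQK' q hq) hx) ?_ hu
    intro x hx
    have := pCoreOf_conj_of_norm K (hQK q⁻¹ (inv_mem hq)) (hQK' q⁻¹ (inv_mem hq)) hx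
    simpa using this
  have hKnU : K ≤ Subgroup.normalizer ((omegaCenterOf (pCoreOf 2 K) : Subgroup G) : Set G) :=
    Cfsg.Agent.H52.le_normalizer_of_conj_mem hKU
  have hQnU : pCoreOf 2 (K ⊔ J) ≤
      Subgroup.normalizer ((omegaCenterOf (pCoreOf 2 K) : Subgroup G) : Set G) :=
    Cfsg.Agent.H52.le_normalizer_of_conj_mem hQU
  have hQnK : pCoreOf 2 (K ⊔ J) ≤ Subgroup.normalizer (K : Set G) :=
    Cfsg.Agent.H52.le_normalizer_of_conj_mem hQK
  -- `K` and `Q` normalize `W`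
  have hKW : ∀ k ∈ K, ∀ w ∈ wOf K, k * w * k⁻¹ ∈ wOf K := by
    intro k hk w hw
    exact Cfsg.Agent.H52.conj_mem_commutator_of_mem_normalizer (hKnU hk)
      (Subgroup.le_normalizer hk) hw
  have hQW : ∀ q ∈ pCoreOf 2 (K ⊔ J), ∀ w ∈ wOf K, q * w * q⁻¹ ∈ wOf K := by
    intro q hq w hw
    exact Cfsg.Agent.H52.conj_mem_commutator_of_mem_normalizer (hQnU hq) (hQnK hq) hw
  -- `U`, `V` elementary abelian
  have hUab : ∀ a ∈ omegaCenterOf (pCoreOf 2 K), ∀ b ∈ omegaCenterOf (pCoreOf 2 K),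
      a * b = b * a := by
    intro a ha b hb
    exact (Subgroup.mem_centralizer_iff.mp (hUmem hb).2.1) a (hUmem ha).1
  have hU2 : ∀ a ∈ omegaCenterOf (pCoreOf 2 K), a * a = 1 := by
    intro a ha
    have := (hUmem ha).2.2
    rwa [pow_two] at this
  have hVab : ∀ a ∈ omegaCenterOf (pCoreOf 2 (K ⊔ J)), ∀ b ∈ omegaCenterOf (pCoreOf 2 (K ⊔ J)),
      a * b = b * a := by
    intro a ha b hb
    exact (Subgroup.mem_centralizer_iff.mp (hVmem hb).2.1) a (hVmem ha).1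
  have hV2 : ∀ a ∈ omegaCenterOf (pCoreOf 2 (K ⊔ J)), a * a = 1 := by
    intro a ha
    have := (hVmem ha).2.2
    rwa [pow_two] at this
  -- `H` normalizes `V`
  have hHV : ∀ h ∈ K ⊔ J, ∀ v ∈ omegaCenterOf (pCoreOf 2 (K ⊔ J)),
      h * v * h⁻¹ ∈ omegaCenterOf (pCoreOf 2 (K ⊔ J)) := by
    intro h hh v hv
    refine omegaCenterOf_conj _ (fun x hx => Cfsg.Agent.H63.Sn.pCoreOf_conj _ hh hx) ?_ hv
    intro x hx
    have := Cfsg.Agent.H63.Sn.pCoreOf_conj _ (inv_mem hh) hx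
    simpa using this
  -- cubes
  have hk3O : ∀ k ∈ K, k ^ 3 ∈ pCoreOf 2 K := by
    intro k hk
    have e : (pCoreOf 2 K).subgroupOf K = pCore 2 ↥K := by
      unfold pCoreOf Subgroup.subgroupOf
      exact Subgroup.comap_map_eq_self_of_injective (Subtype.coe_injective) _
    have h3' := h3
    rw [Subgroup.relIndex, e] at h3'
    have : (pCore 2 ↥K).Normal := Cfsg.Agent.H53.pCore_normal 2 ↥K
    have h4 := Subgroup.pow_index_mem (pCore 2 ↥K) (⟨k, hk⟩ : ↥K)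
    rw [h3'] at h4
    exact (Cfsg.Agent.H63.Sn.mem_pCoreOf K).mpr ⟨pow_mem hk 3, h4⟩
  have hk3U : ∀ k ∈ K, ∀ u ∈ omegaCenterOf (pCoreOf 2 K), k ^ 3 * u = u * k ^ 3 := by
    intro k hk u hu
    exact (Subgroup.mem_centralizer_iff.mp (hUmem hu).2.1) _ (hk3O k hk)
  have hk3 : ∀ k ∈ K, ∀ v ∈ omegaCenterOf (pCoreOf 2 (K ⊔ J)), k ^ 3 * v = v * k ^ 3 := by
    intro k hk v hv
    exact (Subgroup.mem_centralizer_iff.mp (hVmem hv).2.1) _ (hPQ (hk3O k hk))
  -- `V ⊓ K ≤ U`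
  have hZ : omegaCenterOf (pCoreOf 2 (K ⊔ J)) ⊓ K ≤ omegaCenterOf (pCoreOf 2 K) := by
    intro x hx
    obtain ⟨hxV, hxK⟩ := Subgroup.mem_inf.mp hx
    refine Cfsg.Agent.H63.Sn.omegaCenterOf_mem _ ?_ ?_ (hVmem hxV).2.2
    · have hN : ((omegaCenterOf (pCoreOf 2 (K ⊔ J)) ⊓ K).subgroupOf K).Normal := by
        refine ⟨fun n hn g => ?_⟩
        rw [Subgroup.mem_subgroupOf] at hn ⊢
        obtain ⟨h1, h2⟩ := Subgroup.mem_inf.mp hn
        refine Subgroup.mem_inf.mpr ⟨?_, ?_⟩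
        · simpa using hHV g (hKH g.2) n h1
        · exact (g * n * g⁻¹).2
      have hP : IsPGroup 2 ↥((omegaCenterOf (pCoreOf 2 (K ⊔ J)) ⊓ K).subgroupOf K) := by
        intro g
        refine ⟨1, ?_⟩
        have hg : ((g : ↥K) : G) ∈ omegaCenterOf (pCoreOf 2 (K ⊔ J)) ⊓ K :=
          Subgroup.mem_subgroupOf.mp g.2
        have h2 := hV2 _ (Subgroup.mem_inf.mp hg).1
        apply Subtype.ext
        apply Subtype.ext
        simpa [pow_two] using h2
      have hle := Cfsg.Agent.H53.le_pCore hN hP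
      have : (⟨x, hxK⟩ : ↥K) ∈ (omegaCenterOf (pCoreOf 2 (K ⊔ J)) ⊓ K).subgroupOf K :=
        Subgroup.mem_subgroupOf.mpr hx
      exact (Cfsg.Agent.H63.Sn.mem_pCoreOf K).mpr ⟨hxK, hle this⟩
    · rw [Subgroup.mem_centralizer_iff]
      intro o ho
      exact (Subgroup.mem_centralizer_iff.mp (hVmem hxV).2.1) o (hPQ ho)
  -- `K` does not centralize `V`
  have hne : ¬ K ≤ Subgroup.centralizer
      ((omegaCenterOf (pCoreOf 2 (K ⊔ J)) : Subgroup G) : Set G) := by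
    intro hcen
    have hWU : wOf K ≤ omegaCenterOf (pCoreOf 2 K) := by
      unfold wOf
      rw [Subgroup.commutator_le]
      intro u hu k hk
      have : ⁅u, k⁆ = u * (k * u⁻¹ * k⁻¹) := by simp only [commutatorElement_def]; group
      rw [this]
      exact mul_mem hu (hKU k hk _ (inv_mem hu))
    have hWQ : wOf K ≤ pCoreOf 2 (K ⊔ J) := fun w hw => hPQ (hUmem (hWU hw)).1
    have hWne : wOf K ≠ ⊥ := by
      intro h
      rw [h] at hW4
      simp at hW4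
    haveI hNn : ((wOf K).subgroupOf (pCoreOf 2 (K ⊔ J))).Normal := by
      refine ⟨fun n hn g => ?_⟩
      rw [Subgroup.mem_subgroupOf] at hn ⊢
      have := hQW g g.2 n hn
      simpa using this
    have hNne : (wOf K).subgroupOf (pCoreOf 2 (K ⊔ J)) ≠ ⊥ := by
      intro h
      apply hWne
      rw [eq_bot_iff]
      intro w hw
      have h1 : (⟨w, hWQ hw⟩ : ↥(pCoreOf 2 (K ⊔ J))) ∈
          (wOf K).subgroupOf (pCoreOf 2 (K ⊔ J)) := Subgroup.mem_subgroupOf.mpr hw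
      rw [h, Subgroup.mem_bot] at h1
      rw [Subgroup.mem_bot]
      exact congrArg Subtype.val h1
    obtain ⟨z, hzN, hzc, hz1⟩ := Cfsg.Agent.H3.normal_inf_center_ne_bot hQ2 _ hNne
    have hcW : (z : G) ∈ wOf K := Subgroup.mem_subgroupOf.mp hzN
    have hc1 : (z : G) ≠ 1 := fun h => hz1 (Subtype.ext h)
    have hcQ : (z : G) ∈ Subgroup.centralizer ((pCoreOf 2 (K ⊔ J) : Subgroup G) : Set G) := by
      rw [Subgroup.mem_centralizer_iff]
      intro q hq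
      have := Subgroup.mem_center_iff.mp hzc ⟨q, hq⟩
      exact congrArg Subtype.val this
    have hc2 : (z : G) ^ 2 = 1 := by rw [pow_two]; exact hW2 _ hcW
    have hcV : (z : G) ∈ omegaCenterOf (pCoreOf 2 (K ⊔ J)) :=
      Cfsg.Agent.H63.Sn.omegaCenterOf_mem _ z.2 hcQ hc2
    have hKc : ∀ k ∈ K, Commute k (z : G) := by
      intro k hk
      exact ((Subgroup.mem_centralizer_iff.mp (hcen hk)) _ hcV).symm
    have hcentD : ∀ k ∈ K, ∀ d ∈ Subgroup.zpowers (z : G), k * d * k⁻¹ = d := by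
      intro k hk d hd
      obtain ⟨n, rfl⟩ := Subgroup.mem_zpowers_iff.mp hd
      have := ((hKc k hk).zpow_right n).eq
      rw [this, mul_inv_cancel_right]
    have hWW : wOf K ≤ ⁅wOf K, K⁆ := by
      unfold wOf
      rw [Subgroup.commutator_le]
      intro u hu k hk
      have hkU' : ∀ x ∈ omegaCenterOf (pCoreOf 2 K),
          k⁻¹ * x * k ∈ omegaCenterOf (pCoreOf 2 K) := by
        intro x hx
        have := hKU k⁻¹ (inv_mem hk) x hx
        simpa using this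
      rw [← Cfsg.Agent.H75.SoW.comm_id _ hUab hU2 k u hu (hKU k hk) hkU' (hk3U k hk u hu)]
      exact Subgroup.commutator_mem_commutator
        (Subgroup.commutator_mem_commutator (hkU' u hu) hk) (pow_mem hk 2)
    have hDW : Subgroup.zpowers (z : G) ≤ wOf K := Subgroup.zpowers_le.mpr hcW
    have hcardD : Nat.card ↥(Subgroup.zpowers (z : G)) = 2 := by
      rw [Nat.card_zpowers]
      exact orderOf_eq_prime hc2 hc1
    have hidx : ((Subgroup.zpowers (z : G)).subgroupOf (wOf K)).index = 2 := by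
      have h1 := Subgroup.relIndex_mul_relIndex ⊥ (Subgroup.zpowers (z : G)) (wOf K) bot_le hDW
      rw [Subgroup.relIndex_bot_left, Subgroup.relIndex_bot_left, hcardD, hW4] at h1
      show (Subgroup.zpowers (z : G)).relIndex (wOf K) = 2
      omega
    have hD : ⁅wOf K, K⁆ ≤ Subgroup.zpowers (z : G) := by
      rw [Subgroup.commutator_le]
      intro w hw k hk
      have hform : ⁅w, k⁆ = w * (k * w⁻¹ * k⁻¹) := by
        simp only [commutatorElement_def]; group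
      rw [hform]
      have hw' : k * w⁻¹ * k⁻¹ ∈ wOf K := hKW k hk _ (inv_mem hw)
      have key := Subgroup.mul_mem_iff_of_index_two hidx (a := (⟨w, hw⟩ : ↥(wOf K)))
        (b := (⟨k * w⁻¹ * k⁻¹, hw'⟩ : ↥(wOf K)))
      have hmem : ((⟨w, hw⟩ : ↥(wOf K)) * ⟨k * w⁻¹ * k⁻¹, hw'⟩) ∈
          (Subgroup.zpowers (z : G)).subgroupOf (wOf K) := by
        rw [key]
        simp only [Subgroup.mem_subgroupOf]
        constructor
        · intro h
          have e : k * w⁻¹ * k⁻¹ = w⁻¹ := hcentD k hk _ (inv_mem h)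
          rw [e]; exact inv_mem h
        · intro h
          have e := hcentD k⁻¹ (inv_mem hk) _ h
          have e2 : w⁻¹ = k * w⁻¹ * k⁻¹ := by
            rw [← e]; group
          rw [← e2] at h
          simpa using h
      exact Subgroup.mem_subgroupOf.mp hmem
    have hle := Subgroup.card_le_of_le (hWW.trans hD)
    rw [hW4, hcardD] at hle
    omega
  refine ⟨⟨⟨⟨fun a b => Subtype.ext (hVab a a.2 b b.2)⟩⟩, fun a ha => (hVmem ha).2.2⟩,
    fun x hx => hQH (hVmem hx).1, Cfsg.Agent.H52.le_normalizer_of_conj_mem hHV, ?_, ?_⟩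
  · intro x hx
    rw [Subgroup.mem_centralizer_iff]
    intro v hv
    exact ((Subgroup.mem_centralizer_iff.mp (hVmem hv).2.1) x (hPQ hx)).symm
  · have hVK : ∀ v ∈ omegaCenterOf (pCoreOf 2 (K ⊔ J)), ∀ k ∈ K, v * k * v⁻¹ ∈ K :=
      fun v hv k hk => hQK v (hVmem hv).1 k hk
    exact Cfsg.Agent.H75.SoW.core _ K _ hVab hV2 (fun k hk v hv => hHV k (hKH hk) v hv) hVK hk3 hZ
      hW4 hne

end Cfsg.Agent.H32.Sq

universe u in
example : Cfsg.Agent.H42.Sq.StV.{u} := Cfsg.Agent.H32.Sq.v.{u}
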