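import Mathlib
import Cfsg.Agent.Lib.Helper30.BG134Defs
import Cfsg.Agent.H92.BG123
import Cfsg.Agent.H70.BG10D
import Cfsg.Agent.H38.BG10C

set_option autoImplicit false

/-!
# BG134-AB (piece of B&G Theorem 13.4 = S1428, for helper30), helper32

`L ≠ M` maximal, `q ∈ σ(L) ∖ α(L)`, `S ≤ L` a `q`-subgroup with `N_G(S) ≤ M` ⇒ `α(L) ⊆ β(L)`.
-/

namespace Cfsg.Agent.H32.BG134

open Cfsg Subgroup Cfsg.Agent.H58.BG10 Cfsg.Agent.H47.BG12 Cfsg.Agent.Lib.Helper30.BG134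
open scoped Pointwise commutatorElement

universe u

variable {G : Type u} [Group G]

/-- A `q`-element of a group lies in every normal subgroup whose index is a power of a prime
`s ≠ q`. -/
theorem mem_normal_of_index_pow {X : Type*} [Group X] [Finite X] (N : Subgroup X) [N.Normal]
    {q s k : ℕ} (hq : q.Prime) (hs : s.Prime) (hqs : q ≠ s) (hidx : N.index = s ^ k) {x : X}
    (hx : ∃ a : ℕ, x ^ q ^ a = 1) : x ∈ N := by
  obtain ⟨a, ha⟩ := hx
  have h1 : x ^ N.index ∈ N := Subgroup.pow_index_mem N x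
  have hcop : (N.index).Coprime (orderOf x) := by
    rw [hidx]
    have h2 : orderOf x ∣ q ^ a := orderOf_dvd_of_pow_eq_one ha
    refine Nat.Coprime.coprime_dvd_right h2 ?_
    exact Nat.Coprime.pow _ _ ((Nat.coprime_primes hs hq).mpr (Ne.symm hqs))
  obtain ⟨m, hm⟩ := exists_pow_eq_self_of_coprime hcop
  rw [← hm]
  exact N.pow_mem h1 m

theorem aB [Finite G] (hG : IsMinSimpleOddOrder G) (h50 : St1350 G) (h05 : St1405 G)
    (h06 : St1406 G) (h14 : St1414 G) (hSC : StSigComm G) : StAB G := by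
  intro L M S q hL hM hLM hqσ hqα hSq hSL hNS s hsα
  by_contra hsβ
  obtain ⟨hs, hsrank⟩ := id hsα
  obtain ⟨hq, -, -⟩ := id hqσ
  have : Fact s.Prime := ⟨hs⟩
  have : Fact q.Prime := ⟨hq⟩
  have hqs : q ≠ s := fun h => hqα (h ▸ hsα)
  -- `s ∣ |L|`
  have hsL : s ∣ Nat.card L := by
    by_contra h
    exact hsrank (Cfsg.Agent.H38.BG10C.pRankLE_of_not_dvd hs h)
  -- the normal `s`-complement of `L'`
  obtain ⟨⟨P, N, hNn, hNP⟩, -, -⟩ := (h14 L hL).2.2.2.2 s hs hsL hsβ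
  have hcardNP : Nat.card N * Nat.card (P : Subgroup ↥⁅L, L⁆) = Nat.card ↥⁅L, L⁆ := hNP.card_mul
  obtain ⟨k, hk⟩ := IsPGroup.iff_card.mp P.isPGroup'
  have hNidx : N.index = s ^ k := by
    have h1 : Nat.card N * N.index = Nat.card ↥⁅L, L⁆ := N.card_mul_index
    have h2 : Nat.card N * N.index = Nat.card N * s ^ k := by rw [h1, ← hcardNP, hk]
    exact Nat.eq_of_mul_eq_mul_left Nat.card_pos h2
  have hsN : ¬ s ∣ Nat.card N := by
    intro h
    obtain ⟨x, hx⟩ := exists_prime_orderOf_dvd_card' s h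
    have hxP : ∃ g : ↥⁅L, L⁆, g⁻¹ * (x : ↥⁅L, L⁆) * g ∈ (P : Subgroup ↥⁅L, L⁆) := by
      have hxp : IsPGroup s (zpowers (x : ↥⁅L, L⁆)) := by
        apply IsPGroup.of_card (n := 1)
        rw [Nat.card_zpowers, Subgroup.orderOf_coe, hx, pow_one]
      obtain ⟨Q, hQ⟩ := hxp.exists_le_sylow
      obtain ⟨g, hg⟩ := MulAction.exists_smul_eq ↥⁅L, L⁆ P Q
      refine ⟨g, ?_⟩
      have h1 : (x : ↥⁅L, L⁆) ∈ (Q : Subgroup ↥⁅L, L⁆) := hQ (mem_zpowers _)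
      rw [← hg, Sylow.coe_subgroup_smul, Subgroup.mem_pointwise_smul_iff_inv_smul_mem,
        MulAut.smul_def, ← map_inv, MulAut.conj_apply, inv_inv] at h1
      exact h1
    obtain ⟨g, hg⟩ := hxP
    have hgN : g⁻¹ * (x : ↥⁅L, L⁆) * g ∈ N := by
      have := hNn.conj_mem (x : ↥⁅L, L⁆) x.2 g⁻¹
      simpa using this
    have h1 : g⁻¹ * (x : ↥⁅L, L⁆) * g ∈ N ⊓ (P : Subgroup ↥⁅L, L⁆) := ⟨hgN, hg⟩
    rw [hNP.disjoint.eq_bot, Subgroup.mem_bot] at h1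
    have h2 : (x : ↥⁅L, L⁆) = 1 := by
      have : (x : ↥⁅L, L⁆) = g * (g⁻¹ * (x : ↥⁅L, L⁆) * g) * g⁻¹ := by group
      rw [this, h1]; group
    have h3 : orderOf (x : ↥⁅L, L⁆) = 1 := by rw [h2, orderOf_one]
    rw [Subgroup.orderOf_coe, hx] at h3
    exact hs.one_lt.ne' h3
  -- `S ≤ L_σ ≤ L'`
  have hSσ : S ≤ sigmaCore L := Cfsg.Agent.H92.BG12.le_sigmaCore_of_mem h50 hL hqσ hSq hSL
  have hσL' : sigmaCore L ≤ ⁅L, L⁆ := Cfsg.Agent.H76.BG10.sigmaCore_le_commutator hSC L hL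
  have hSL' : S ≤ ⁅L, L⁆ := hSσ.trans hσL'
  -- `S ≤ N`
  have hSN : ∀ x (hx : x ∈ S), (⟨x, hSL' hx⟩ : ↥⁅L, L⁆) ∈ N := by
    intro x hx
    apply mem_normal_of_index_pow N hq hs hqs hNidx
    obtain ⟨a, ha⟩ := hSq ⟨x, hx⟩
    refine ⟨a, ?_⟩
    apply Subtype.ext
    simpa using congrArg Subtype.val ha
  -- an `S`-invariant Sylow `s`-subgroup of `L_α`
  have hαL : alphaCore L ≤ L := (h05 L hL).1.1
  have hSα : S ≤ normalizer (alphaCore L : Set G) :=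
    hSL.trans (Cfsg.Agent.Lib.Helper30.le_normalizer_piCoreOf (alpha L) L)
  have hqα' : ¬ q ∣ Nat.card (alphaCore L) := fun h => hqα ((h05 L hL).1.2.1 q hq h)
  have hcop : (Nat.card S).Coprime (Nat.card (alphaCore L)) :=
    Cfsg.Agent.H31.BG8.coprime_of_isPGroup hSq hqα'
  have hLtop : L ≠ ⊤ := hL.1
  have hSsolv : Group.IsSolvable S := by
    have hStop : S ≠ ⊤ := fun h => hLtop (top_le_iff.mp (h ▸ hSL))
    exact Cfsg.Agent.Lib.Helper30.minSimple_solvable_of_ne_top hG hStop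
  obtain ⟨PT, hPT⟩ := Cfsg.Agent.Lib.Helper30.coprime_exists_invariant_sylow S (alphaCore L) hSα
    hcop (Or.inl hSsolv) s
  obtain ⟨T, hTdef⟩ : ∃ T : Subgroup G, T = (PT : Subgroup ↥(alphaCore L)).map
    (alphaCore L).subtype := ⟨_, rfl⟩
  rw [← hTdef] at hPT
  have hTα : T ≤ alphaCore L := by rw [hTdef]; exact Subgroup.map_subtype_le _
  have hTL' : T ≤ ⁅L, L⁆ := hTα.trans ((h05 L hL).2.2.1.trans hσL')
  have hTs : IsPGroup s T := by rw [hTdef]; exact PT.isPGroup'.map _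
  -- `S` centralizes `T`
  have hTS : T ≤ centralizer (S : Set G) := by
    intro t ht
    rw [mem_centralizer_iff]
    intro x hx
    have hxT : x * t * x⁻¹ ∈ T := (mem_normalizer_iff.mp (hPT hx) t).mp ht
    have h1 : x * t * x⁻¹ * t⁻¹ ∈ T := T.mul_mem hxT (T.inv_mem ht)
    have h2 : (⟨x * t * x⁻¹ * t⁻¹, hTL' h1⟩ : ↥⁅L, L⁆) ∈ N := by
      have hxN := hSN x hx
      have hc := hNn.conj_mem _ (N.inv_mem hxN) ⟨t, hTL' ht⟩
      have := N.mul_mem hxN hc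
      have e : (⟨x * t * x⁻¹ * t⁻¹, hTL' h1⟩ : ↥⁅L, L⁆) =
          ⟨x, hSL' hx⟩ * (⟨t, hTL' ht⟩ * (⟨x, hSL' hx⟩)⁻¹ * (⟨t, hTL' ht⟩)⁻¹) := by
        apply Subtype.ext
        simp [mul_assoc]
      rw [e]; exact this
    -- an element of `T ∩ N` is trivial
    have h3 : x * t * x⁻¹ * t⁻¹ = 1 := by
      obtain ⟨a, ha⟩ := hTs ⟨_, h1⟩
      have ha' : (x * t * x⁻¹ * t⁻¹) ^ s ^ a = 1 := by simpa using congrArg Subtype.val ha
      have hord : orderOf (⟨x * t * x⁻¹ * t⁻¹, hTL' h1⟩ : ↥⁅L, L⁆) ∣ s ^ a := by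
        apply orderOf_dvd_of_pow_eq_one
        apply Subtype.ext
        simpa using ha'
      have hord2 : orderOf (⟨x * t * x⁻¹ * t⁻¹, hTL' h1⟩ : ↥⁅L, L⁆) ∣ Nat.card N := by
        have := orderOf_dvd_natCard (⟨_, h2⟩ : N)
        rwa [Subgroup.orderOf_mk] at this
      have hcop' : (s ^ a).Coprime (Nat.card N) :=
        Nat.Coprime.pow_left a ((Nat.Prime.coprime_iff_not_dvd hs).mpr hsN)
      have h4 : orderOf (⟨x * t * x⁻¹ * t⁻¹, hTL' h1⟩ : ↥⁅L, L⁆) = 1 :=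
        Nat.eq_one_of_dvd_coprimes hcop' hord hord2
      have h5 := orderOf_eq_one_iff.mp h4
      simpa using congrArg Subtype.val h5
    have h6 : x * t = t * x := by
      have : x * t = (x * t * x⁻¹ * t⁻¹) * (t * x) := by group
      rw [this, h3, one_mul]
    exact h6
  -- rank
  have hidx : ¬ s ∣ (alphaCore L).relIndex L := (h05 L hL).1.2.2 s hs hsα
  have hTrank : ¬ PRankLE s 2 ↥T := by
    rw [hTdef]
    exact Cfsg.Agent.H70.BG10.not_pRankLE_sylow_of_hall hαL hidx PT 2 hsrank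
  obtain ⟨B, hBT, hBc, hBp, hBcard⟩ := Cfsg.Agent.H31.T2.exists_elementary_of_not_pRankLE hTrank
  have hBe : IsElementaryAbelian s B := ⟨⟨⟨fun a b => Subtype.ext (hBc a a.2 b b.2)⟩⟩, hBp⟩
  have hBle : B ≤ alphaCore L ⊓ centralizer (S : Set G) := hBT.trans (le_inf hTα hTS)
  have hcard1 : s ^ 1 < Nat.card B :=
    lt_of_le_of_lt (Nat.pow_le_pow_right hs.pos (by norm_num)) hBcard
  have hr1 : ¬ RankLE 1 ↥(alphaCore L ⊓ centralizer (S : Set G)) :=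
    not_rankLE_of_not_pRankLE hs (Cfsg.Agent.H31.BG8.not_pRankLE_of_le hBle hBe hcard1)
  have hSα' : ∀ p : ℕ, p.Prime → p ∣ Nat.card S → p ∉ alpha L := by
    intro p hp hpS
    obtain ⟨n, hn⟩ := IsPGroup.iff_card.mp hSq
    rw [hn] at hpS
    have := (Nat.prime_dvd_prime_iff_eq hp hq).mp (hp.dvd_of_dvd_pow hpS)
    rw [this]; exact hqα
  have huniq := h06 L hL S hSL hSα' hr1
  have hCM : L ⊓ centralizer (S : Set G) ≤ M :=
    inf_le_right.trans ((Subgroup.centralizer_le_normalizer _).trans hNS)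
  exact hLM (eq_of_inUniqueMaximal huniq hM hCM hL inf_le_left)

end Cfsg.Agent.H32.BG134
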