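import Mathlib
import Cfsg.Prelude.Def_Characters
import Cfsg.Agent.H4.Frob

set_option autoImplicit false
set_option linter.unusedSectionVars false
set_option linter.style.haveILetI false

namespace Cfsg.Agent.H32

open Module Representation Cfsg Cfsg.Agent.H4

universe u

open scoped ComplexConjugate

section SelfCent

variable {G : Type u} [Group G]

/-- If no element outside the normal subgroup `K` commutes with a non-identity element of `K`, a non-principal irreducible character of the kernel is not fixed by
conjugation with an element outside the kernel. -/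
theorem selfcent_conj_ne [Finite G] (K : Subgroup G) [K.Normal]
    (hcm : ∀ x : G, x ∉ K → ∀ k ∈ K, x * k = k * x → k = 1)
    (τ : K → ℂ) (hτ : IsIrrCharacter K τ) (hτ1 : τ ≠ fun _ => 1) (x : G) (hx : x ∉ K) :
    (fun k : K => τ (MulAut.conjNormal x k)) ≠ τ := by
  classical
  haveI : Fintype K := Fintype.ofFinite K
  intro hfix
  let σ : IrrCharacter K → IrrCharacter K := fun χ =>
    ⟨fun k => χ.1 (MulAut.conjNormal x k),
      isIrrCharacter_comp_surjective (MulAut.conjNormal x : K ≃* K).toMonoidHom
        (MulEquiv.surjective _) χ.2⟩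
  have hbp := brauer_permutation (G := K) (fun k => MulAut.conjNormal x k) σ (fun χ g => rfl)
  have hsum : ∑ h : K, (Nat.card {c : K // c * (MulAut.conjNormal x h) * c⁻¹ = h} : ℂ) =
      (Nat.card K : ℂ) := by
    rw [Finset.sum_eq_single (1 : K)]
    · congr 1
      have h1 : ∀ c : K, c * (MulAut.conjNormal x (1 : K)) * c⁻¹ = 1 := by intro c; simp
      exact Nat.card_congr (Equiv.subtypeUnivEquiv h1)
    · intro h _ hne
      have hemp : IsEmpty {c : K // c * (MulAut.conjNormal x h) * c⁻¹ = h} := by
        constructor
        rintro ⟨c, hc⟩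
        apply hne
        have hc' : (c : G) * (x * h * x⁻¹) * (c : G)⁻¹ = h := by
          have := congrArg Subtype.val hc
          simpa [MulAut.conjNormal_apply] using this
        have hcx : (c : G) * x ∉ K := fun hmem => hx (by
          have := K.mul_mem (K.inv_mem c.2) hmem
          simpa using this)
        have hcomm : ((c : G) * x) * h = h * ((c : G) * x) := by
          calc ((c : G) * x) * h = (c : G) * (x * h * x⁻¹) * (c : G)⁻¹ * ((c : G) * x) := by group
            _ = h * ((c : G) * x) := by rw [hc']
        exact Subtype.ext (hcm _ hcx h h.2 hcomm)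
      rw [Nat.card_of_isEmpty]; simp
    · intro h; exact absurd (Finset.mem_univ _) h
  rw [hsum] at hbp
  have hN : (Nat.card K : ℂ) ≠ 0 := (neZero_card_complex K).out
  have h1 : (Nat.card {χ : IrrCharacter K // σ χ = χ} : ℂ) = 1 := by
    have := mul_left_cancel₀ hN (hbp.trans (mul_one _).symm)
    exact this
  have h1' : Nat.card {χ : IrrCharacter K // σ χ = χ} = 1 := by exact_mod_cast h1
  have hsub := (Nat.card_eq_one_iff_unique.mp h1').1
  have e : (⟨trivialIrr K, Subtype.ext rfl⟩ : {χ : IrrCharacter K // σ χ = χ}) =
      ⟨⟨τ, hτ⟩, Subtype.ext hfix⟩ := Subsingleton.elim _ _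
  apply hτ1
  have := congrArg (fun z => z.1.1) e
  exact this.symm

/-- If no element outside the normal subgroup `K` commutes with a non-identity element of `K`, every non-principal irreducible character of `K`
induces to an irreducible character. -/
theorem selfcent_indFun_irreducible [Fintype G] (K : Subgroup G) [K.Normal]
    (hcm : ∀ x : G, x ∉ K → ∀ k ∈ K, x * k = k * x → k = 1)
    (τ : K → ℂ) (hτ : IsIrrCharacter K τ) (hτ1 : τ ≠ fun _ => 1) :
    IsIrrCharacter G (indFun K τ) := by
  classical
  haveI : Fintype K := Fintype.ofFinite K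
  refine isIrrCharacter_of_norm_one
    (isCharacter_indFun K τ (isCharacter_of_isIrrCharacter hτ)) ?_
  rw [frobenius_reciprocity K τ (indFun K τ) (indFun_isClassFunction K τ)]
  have hres : (fun k : K => indFun K τ k) =
      (Nat.card K : ℂ)⁻¹ • ∑ x : G, (fun k : K => τ (MulAut.conjNormal x⁻¹ k)) := by
    funext k
    rw [indFun_apply, Pi.smul_apply, Finset.sum_apply, smul_eq_mul]
    congr 1
    refine Finset.sum_congr rfl fun x _ => ?_
    have : x⁻¹ * (k : G) * x = (MulAut.conjNormal x⁻¹ k : K) := by
      rw [MulAut.conjNormal_apply, inv_inv]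
    rw [this, extendByZero_coe]
  rw [hres, classInner_smul_right, classInner_sum_right]
  have hterm : ∀ x : G, classInner τ (fun k : K => τ (MulAut.conjNormal x⁻¹ k)) =
      if x ∈ K then 1 else 0 := by
    intro x
    split_ifs with hx
    · have : (fun k : K => τ (MulAut.conjNormal x⁻¹ k)) = τ := by
        funext k
        have hcl := irr_isClassFunction (⟨τ, hτ⟩ : IrrCharacter K)
        have := hcl k ⟨x⁻¹, K.inv_mem hx⟩
        convert this using 2
        apply Subtype.ext
        rw [MulAut.conjNormal_apply]; simp
      rw [this]; exact irr_inner_self ⟨τ, hτ⟩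
    · have hx' : x⁻¹ ∉ K := fun h => hx (by simpa using K.inv_mem h)
      have hne := selfcent_conj_ne K hcm τ hτ hτ1 x⁻¹ hx'
      let τ' : IrrCharacter K := ⟨fun k => τ (MulAut.conjNormal x⁻¹ k),
        isIrrCharacter_comp_surjective (MulAut.conjNormal x⁻¹ : K ≃* K).toMonoidHom
          (MulEquiv.surjective _) hτ⟩
      exact irr_inner_ne (χ := ⟨τ, hτ⟩) (ψ := τ') (fun h => hne (congrArg Subtype.val h).symm)
  simp only [hterm]
  rw [Finset.sum_boole]
  have hcard : ((Finset.univ.filter fun x : G => x ∈ K).card : ℂ) = (Nat.card K : ℂ) := by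
    congr 1
    rw [Nat.card_eq_fintype_card, Fintype.card_subtype]
  rw [hcard, map_inv₀, Complex.conj_natCast]
  exact inv_mul_cancel₀ (neZero_card_complex K).out

end SelfCent

end Cfsg.Agent.H32
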