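import Mathlib
import Cfsg.Agent.H42.TiDefs
import Cfsg.Agent.H45.IsoConj

/-!
# helper32: piece SPI-ANTI of S5955 (helper42's project)

Two orthogonal nondegenerate invariant subspaces `L₁`, `L₂` of dimension `deg φ` inside
`ker φ(T)`, `φ` irreducible: an anti-isometry `e : L₁ ≃ L₂` commuting with `T` (helper45's
`isoConj_of_charpoly_eq` for `B` on `L₁` and `-B` on `L₂`) has a totally isotropic graph.
-/

set_option autoImplicit false

namespace Cfsg.Agent.H32.Ti

open Cfsg.Agent.H45 Cfsg.Agent.H42.Spd Cfsg.Agent.H42.Spn Cfsg.Agent.H42.Ti Module Polynomial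

universe u v

section

variable {F : Type u} [Field F] {V : Type v} [AddCommGroup V] [Module F V]

theorem restrict_pow_val (T : Module.End F V) (W : Submodule F V) (hinv : W ∈ T.invtSubmodule)
    (k : ℕ) (x : W) : ((((T.restrict hinv) ^ k) x : W) : V) = (T ^ k) (x : V) := by
  induction k generalizing x with
  | zero => simp
  | succ k ih =>
    rw [pow_succ, Module.End.mul_apply, ih, pow_succ, Module.End.mul_apply]
    rfl

theorem aeval_restrict_val (T : Module.End F V) (W : Submodule F V) (hinv : W ∈ T.invtSubmodule)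
    (φ : F[X]) (x : W) : ((aeval (T.restrict hinv) φ x : W) : V) = aeval T φ (x : V) := by
  rw [Polynomial.aeval_eq_sum_range, Polynomial.aeval_eq_sum_range, LinearMap.sum_apply,
    LinearMap.sum_apply, Submodule.coe_sum]
  apply Finset.sum_congr rfl
  intro i _
  rw [LinearMap.smul_apply, LinearMap.smul_apply, Submodule.coe_smul, restrict_pow_val]

/-- The characteristic polynomial of `T` on an invariant subspace of dimension `deg φ` killed
by the irreducible polynomial `φ`. -/
theorem charpoly_restrict_eq [FiniteDimensional F V] (T : Module.End F V) (φ : F[X])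
    (hφ : Irreducible φ) (L : Submodule F V) (hL : L ∈ T.invtSubmodule)
    (hLφ : L ≤ LinearMap.ker (aeval T φ)) (hfr : Module.finrank F L = φ.natDegree) :
    (T.restrict hL).charpoly = φ * C φ.leadingCoeff⁻¹ := by
  have h0 : aeval (T.restrict hL) φ = 0 := by
    apply LinearMap.ext
    intro x
    apply Subtype.ext
    rw [aeval_restrict_val]
    exact LinearMap.mem_ker.mp (hLφ x.2)
  have hmin_dvd : minpoly F (T.restrict hL) ∣ φ := minpoly.dvd F _ h0
  have hfr_pos : 0 < Module.finrank F L := by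
    rw [hfr]
    exact hφ.natDegree_pos
  have hnt : Nontrivial L := Module.nontrivial_of_finrank_pos hfr_pos
  have hnu : ¬ IsUnit (minpoly F (T.restrict hL)) := minpoly.not_isUnit F _
  obtain ⟨u, hu⟩ := hmin_dvd
  have huu : IsUnit u := (hφ.isUnit_or_isUnit hu).resolve_left hnu
  obtain ⟨c, hc, rfl⟩ := Polynomial.isUnit_iff.mp huu
  have hmonic : (minpoly F (T.restrict hL)).Monic :=
    minpoly.monic (Algebra.IsIntegral.isIntegral _)
  have hdeg : (minpoly F (T.restrict hL)).natDegree = φ.natDegree := by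
    rw [hu, natDegree_mul_C hc.ne_zero]
  have hchar : (T.restrict hL).charpoly = minpoly F (T.restrict hL) :=
    eq_of_monic_of_dvd_of_natDegree_le hmonic (LinearMap.charpoly_monic _)
      (LinearMap.minpoly_dvd_charpoly _) (by rw [LinearMap.charpoly_natDegree, hfr, hdeg])
  have hlc : φ.leadingCoeff = c := by
    rw [hu, leadingCoeff_mul, hmonic.leadingCoeff, one_mul, leadingCoeff_C]
  rw [hchar, hlc]
  conv_rhs => rw [hu, mul_assoc, ← C_mul, mul_inv_cancel₀ hc.ne_zero, C_1, mul_one]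

end

theorem tiAnti : StTiAnti.{u, v} := by
  intro F _ _ V _ _ _ r B T hctx φ hφ L₁ L₂ hL₁ hL₂ hL₁φ hL₂φ hperp hfr₁ hfr₂
  have hd := hctx.good
  have hgood₁ : Good (RingHom.id F) (-1) (B.domRestrict₁₂ L₁ L₁) (T.restrict hL₁.1) := by
    refine ⟨fun x y => hd.herm x y, ?_, fun h x => hd.alt h x, fun x y => hd.isom x y,
      hd.ss.restrict _⟩
    intro x hx
    have h1 : (x : V) ∈ L₁ ⊓ perp B L₁ := ⟨x.2, fun u hu => hd.refl (hx ⟨u, hu⟩)⟩
    rw [hL₁.2] at h1
    exact Subtype.ext ((Submodule.mem_bot F).mp h1)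
  have hgood₂ : Good (RingHom.id F) (-1) (-(B.domRestrict₁₂ L₂ L₂)) (T.restrict hL₂.1) := by
    refine ⟨?_, ?_, ?_, ?_, hd.ss.restrict _⟩
    · intro x y
      show -(B (y : V) (x : V)) = -1 * (RingHom.id F) (-(B (x : V) (y : V)))
      rw [hd.herm (x : V) (y : V)]
      simp
    · intro x hx
      have h1 : (x : V) ∈ L₂ ⊓ perp B L₂ := by
        refine ⟨x.2, fun u hu => hd.refl ?_⟩
        have h2 : -(B (x : V) u) = 0 := hx ⟨u, hu⟩
        exact neg_eq_zero.mp h2
      rw [hL₂.2] at h1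
      exact Subtype.ext ((Submodule.mem_bot F).mp h1)
    · intro h x
      show -(B (x : V) (x : V)) = 0
      rw [hd.alt h, neg_zero]
    · intro x y
      show -(B (T (x : V)) (T (y : V))) = -(B (x : V) (y : V))
      rw [hd.isom]
  have hchar : (T.restrict hL₁.1).charpoly = (T.restrict hL₂.1).charpoly := by
    rw [charpoly_restrict_eq T φ hφ L₁ hL₁.1 hL₁φ hfr₁,
      charpoly_restrict_eq T φ hφ L₂ hL₂.1 hL₂φ hfr₂]
  obtain ⟨e, hcomm, he⟩ := isoConj_of_charpoly_eq (RingHom.id F) (fun _ => rfl) (-1)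
    φ.natDegree (B.domRestrict₁₂ L₁ L₁) (-(B.domRestrict₁₂ L₂ L₂)) (T.restrict hL₁.1)
    (T.restrict hL₂.1) hfr₁ hgood₁ hgood₂ hchar
  have he' : ∀ x y : ↥L₁, B (e x : V) (e y : V) = -B (x : V) (y : V) := by
    intro x y
    have h1 : -(B (e x : V) (e y : V)) = B (x : V) (y : V) := he x y
    rw [← h1, neg_neg]
  have hcomm' : ∀ x : ↥L₁, (e (T.restrict hL₁.1 x) : V) = T (e x : V) := by
    intro x
    rw [hcomm x]
    rfl
  let f : ↥L₁ →ₗ[F] V := L₁.subtype + L₂.subtype ∘ₗ (e : ↥L₁ →ₗ[F] ↥L₂)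
  have hf : ∀ x : ↥L₁, f x = (x : V) + (e x : V) := fun x => rfl
  have hinj : Function.Injective f := by
    rw [injective_iff_map_eq_zero]
    intro x hx
    rw [hf] at hx
    have h1 : (x : V) = -(e x : V) := eq_neg_of_add_eq_zero_left hx
    have h2 : (x : V) ∈ L₁ ⊓ perp B L₁ := by
      refine ⟨x.2, ?_⟩
      rw [h1]
      exact Submodule.neg_mem _ (hperp (e x).2)
    rw [hL₁.2] at h2
    exact Subtype.ext ((Submodule.mem_bot F).mp h2)
  refine ⟨LinearMap.range f, ?_, ?_, ?_, ?_⟩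
  · rintro _ ⟨x, rfl⟩
    rw [hf]
    exact Submodule.add_mem_sup x.2 (e x).2
  · rw [Module.End.mem_invtSubmodule]
    rintro _ ⟨x, rfl⟩
    rw [Submodule.mem_comap]
    refine ⟨T.restrict hL₁.1 x, ?_⟩
    rw [hf, hf, hcomm', map_add]
    rfl
  · rintro _ ⟨x, rfl⟩ _ ⟨y, rfl⟩
    rw [hf, hf]
    simp only [map_add, LinearMap.add_apply]
    have h1 : B (x : V) (e y : V) = 0 := hperp (e y).2 x x.2
    have h2 : B (e x : V) (y : V) = 0 := hd.refl (hperp (e x).2 y y.2)
    rw [h1, h2, he']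
    ring
  · rw [LinearMap.finrank_range_of_inj hinj, hfr₁]

example : Cfsg.Agent.H42.Ti.StTiAnti.{u, v} := tiAnti

end Cfsg.Agent.H32.Ti
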