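import Mathlib
import Cfsg.Agent.Lib.Helper30.BG134Defs
import Cfsg.Agent.Lib.Helper30.PiCore
import Cfsg.Agent.H31.BG8b
import Cfsg.Agent.H63.Sig

set_option autoImplicit false

/-!
# BG134-LC (piece of B&G Theorem 13.4 = S1428, for helper30), helper32

`q ∈ σ(M) ∩ σ(H)`, `p ∈ σ(H)`, `p ∤ |M'|` ⇒ `p ∈ α(H)`.

Also the reusable derived-subgroup lemma `der_dvd` (DER): `H = N·K`, `N` normalized by `H`,
`p ∤ |N|`, `p ∣ |H'|` ⇒ `p ∣ |K'|`.
-/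

namespace Cfsg.Agent.H32.BG134

open Cfsg Subgroup Cfsg.Agent.H58.BG10 Cfsg.Agent.H47.BG12 Cfsg.Agent.Lib.Helper30.BG134
open scoped Pointwise commutatorElement

universe u

variable {G : Type u} [Group G]

/-- If `K` normalizes `N`, then `(a * k) ^ n ∈ N * k ^ n` for `a ∈ N`, `k ∈ K`. -/
theorem pow_mul_aux {N K : Subgroup G} (hKN : K ≤ normalizer (N : Set G)) {a k : G}
    (ha : a ∈ N) (hk : k ∈ K) (n : ℕ) : (a * k) ^ n * (k ^ n)⁻¹ ∈ N := by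
  induction n with
  | zero => simp
  | succ n ih =>
    have hkn : k ^ n ∈ normalizer (N : Set G) := hKN (K.pow_mem hk n)
    have h1 : k ^ n * a * (k ^ n)⁻¹ ∈ N := (mem_normalizer_iff.mp hkn a).mp ha
    have h2 : (a * k) ^ (n + 1) * (k ^ (n + 1))⁻¹ =
        ((a * k) ^ n * (k ^ n)⁻¹) * (k ^ n * a * (k ^ n)⁻¹) := by
      rw [pow_succ, pow_succ]; group
    rw [h2]
    exact N.mul_mem ih h1

/-- `H = N·K` with `N` normalized by `H`: `H' ≤ N·K'`. -/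
theorem commutator_le_sup_of_fact {H N K : Subgroup G} (hHN : H ≤ normalizer (N : Set G))
    (hKH : K ≤ H) (hfact : ∀ h ∈ H, ∃ a ∈ N, ∃ n ∈ K, h = a * n) :
    ⁅H, H⁆ ≤ N ⊔ ⁅K, K⁆ := by
  rw [Subgroup.commutator_le]
  intro g₁ hg₁ g₂ hg₂
  obtain ⟨a₁, ha₁, n₁, hn₁, rfl⟩ := hfact g₁ hg₁
  obtain ⟨a₂, ha₂, n₂, hn₂, rfl⟩ := hfact g₂ hg₂
  have hcj : ∀ x ∈ K, ∀ a ∈ N, x * a * x⁻¹ ∈ N := fun x hx a ha =>
    (mem_normalizer_iff.mp (hHN (hKH hx)) a).mp ha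
  have e : ⁅a₁ * n₁, a₂ * n₂⁆ =
      (a₁ * (n₁ * a₂ * n₁⁻¹) * ((n₁ * n₂ * n₁⁻¹) * a₁⁻¹ * (n₁ * n₂ * n₁⁻¹)⁻¹) *
        ((n₁ * n₂ * n₁⁻¹ * n₂⁻¹) * a₂⁻¹ * (n₁ * n₂ * n₁⁻¹ * n₂⁻¹)⁻¹)) * ⁅n₁, n₂⁆ := by
    simp only [commutatorElement_def]; group
  rw [e]
  refine Subgroup.mul_mem _ (Subgroup.mem_sup_left ?_)
    (Subgroup.mem_sup_right (Subgroup.commutator_mem_commutator hn₁ hn₂))
  refine N.mul_mem (N.mul_mem (N.mul_mem ha₁ (hcj n₁ hn₁ a₂ ha₂)) ?_) ?_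
  · exact hcj _ (K.mul_mem (K.mul_mem hn₁ hn₂) (K.inv_mem hn₁)) _ (N.inv_mem ha₁)
  · exact hcj _ (K.mul_mem (K.mul_mem (K.mul_mem hn₁ hn₂) (K.inv_mem hn₁)) (K.inv_mem hn₂)) _
      (N.inv_mem ha₂)

/-- (DER) `H = N·K` with `N` normalized by `H`, `p ∤ |N|`, `p ∣ |H'|` ⇒ `p ∣ |K'|`. -/
theorem der_dvd [Finite G] {H N K : Subgroup G} (hHN : H ≤ normalizer (N : Set G))
    (hKH : K ≤ H) (hfact : ∀ h ∈ H, ∃ a ∈ N, ∃ n ∈ K, h = a * n) {p : ℕ} [Fact p.Prime]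
    (hpN : ¬ p ∣ Nat.card N) (hpH : p ∣ Nat.card ↥⁅H, H⁆) : p ∣ Nat.card ↥⁅K, K⁆ := by
  have hp := (Fact.out : p.Prime)
  have hle := commutator_le_sup_of_fact hHN hKH hfact
  have hK'K : ⁅K, K⁆ ≤ K := by
    rw [Subgroup.commutator_le]
    intro a ha b hb
    rw [commutatorElement_def]
    exact K.mul_mem (K.mul_mem (K.mul_mem ha hb) (K.inv_mem ha)) (K.inv_mem hb)
  have hK'N : ⁅K, K⁆ ≤ normalizer (N : Set G) := hK'K.trans (hKH.trans hHN)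
  obtain ⟨x, hx⟩ := exists_prime_orderOf_dvd_card' p hpH
  have hxo : orderOf (x : G) = p := by rw [Subgroup.orderOf_coe]; exact hx
  have hx' : (x : G) ∈ ((N ⊔ ⁅K, K⁆ : Subgroup G) : Set G) := hle x.2
  rw [Subgroup.coe_mul_of_right_le_normalizer_left N ⁅K, K⁆ hK'N] at hx'
  obtain ⟨a, ha, k, hk, hak⟩ := hx'
  have hak' : a * k = (x : G) := hak
  have hkdvd : orderOf k ∣ Nat.card ↥⁅K, K⁆ := by
    have := orderOf_dvd_natCard (⟨k, hk⟩ : ↥⁅K, K⁆)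
    rwa [Subgroup.orderOf_mk] at this
  refine Dvd.dvd.trans ?_ hkdvd
  by_contra hnd
  have hcop : (orderOf (x : G)).Coprime (orderOf k) := by
    rw [hxo]; exact (Nat.Prime.coprime_iff_not_dvd hp).mpr hnd
  have h1 := pow_mul_aux hK'N ha hk (orderOf k)
  rw [pow_orderOf_eq_one, inv_one, mul_one, hak'] at h1
  have h2 : orderOf ((x : G) ^ orderOf k) = p := by
    rw [hcop.orderOf_pow, hxo]
  have h3 := orderOf_dvd_natCard (⟨(x : G) ^ orderOf k, h1⟩ : N)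
  rw [Subgroup.orderOf_mk, h2] at h3
  exact hpN h3

/-- `p ∣ |M|`, `p ∈ σ(M)` ⇒ `p ∣ |M'|`. -/
theorem dvd_card_commutator_of_sigma [Finite G] (hSC : StSigComm G) {M : Subgroup G}
    (hM : IsCoatom M) {p : ℕ} (hp : p ∈ sigma M) : p ∣ Nat.card ↥⁅M, M⁆ := by
  obtain ⟨hpp, hpc, -⟩ := id hp
  have : Fact p.Prime := ⟨hpp⟩
  obtain ⟨P⟩ : Nonempty (Sylow p M) := inferInstance
  have h1 : (P : Subgroup M) ≤ commutator M := hSC M hM p hp P
  have h2 : p ∣ Nat.card (P : Subgroup M) := P.dvd_card_of_dvd_card hpc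
  have h3 : Nat.card (P : Subgroup M) ∣ Nat.card (commutator M) := Subgroup.card_dvd_of_le h1
  have h4 : Nat.card ↥⁅M, M⁆ = Nat.card (commutator M) := by
    rw [← Subgroup.map_subtype_commutator]
    exact Subgroup.card_map_of_injective M.subtype_injective
  rw [h4]
  exact h2.trans h3

/-- The normalizer of a conjugate lies in the conjugate of an overgroup of the normalizer. -/
theorem normalizer_cj_le {g : G} {T M : Subgroup G} (h : normalizer (T : Set G) ≤ M) :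
    normalizer ((MulAut.conj g • T : Subgroup G) : Set G) ≤ MulAut.conj g • M := by
  intro x hx
  rw [Cfsg.Agent.H63.Sig.mem_cj]
  apply h
  rw [mem_normalizer_iff]
  intro y
  have h1 := mem_normalizer_iff.mp hx (g * y * g⁻¹)
  rw [Cfsg.Agent.H63.Sig.mem_cj, Cfsg.Agent.H63.Sig.mem_cj] at h1
  have e1 : g⁻¹ * (g * y * g⁻¹) * g = y := by group
  have e2 : g⁻¹ * (x * (g * y * g⁻¹) * x⁻¹) * g = g⁻¹ * x * g * y * (g⁻¹ * x * g)⁻¹ := by group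
  rw [e1, e2] at h1
  exact h1

/-- `|(gMg⁻¹)'| = |M'|`. -/
theorem card_commutator_cj [Finite G] (g : G) (M : Subgroup G) :
    Nat.card ↥⁅(MulAut.conj g • M : Subgroup G), (MulAut.conj g • M : Subgroup G)⁆ =
      Nat.card ↥⁅M, M⁆ := by
  have h : ⁅(MulAut.conj g • M : Subgroup G), (MulAut.conj g • M : Subgroup G)⁆ =
      MulAut.conj g • ⁅M, M⁆ := by
    rw [← Cfsg.Agent.H63.Sig.map_conj_eq_smul, ← Cfsg.Agent.H63.Sig.map_conj_eq_smul,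
      Subgroup.map_commutator]
  rw [h, Cfsg.Agent.H63.Sig.card_cj]

theorem lC [Finite G] (h05 : St1405 G) (hSC : StSigComm G) (hD1 : StEmbD1 G) : StLC G := by
  intro M H p q hM hH hqM hqH hpH hpM'
  by_contra hpα
  obtain ⟨hqp, -, PM, hNM⟩ := hqM
  obtain ⟨-, -, PH, hNH⟩ := id hqH
  obtain ⟨hpp, -, -⟩ := id hpH
  have : Fact q.Prime := ⟨hqp⟩
  have : Fact p.Prime := ⟨hpp⟩
  obtain ⟨TM, hTM⟩ := Cfsg.Agent.H31.BG8.sylow_of_normalizer_le PM hNM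
  obtain ⟨TH, hTH⟩ := Cfsg.Agent.H31.BG8.sylow_of_normalizer_le PH hNH
  obtain ⟨g, hg⟩ := MulAction.exists_smul_eq G TM TH
  have hg' : (TH : Subgroup G) = MulAut.conj g • (TM : Subgroup G) := by
    rw [← hg, Sylow.coe_subgroup_smul]
  have hNM1 : normalizer ((TH : Subgroup G) : Set G) ≤ MulAut.conj g • M := by
    rw [hg']
    apply normalizer_cj_le
    rw [hTM]; exact hNM
  have hTHH : (TH : Subgroup G) ≤ H := by rw [hTH]; exact Subgroup.map_subtype_le _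
  have hidx : ¬ q ∣ (TH : Subgroup G).relIndex H := fun h =>
    TH.not_dvd_index (h.trans (Subgroup.relIndex_dvd_index_of_le hTHH))
  have hfact := hD1 (MulAut.conj g • M) H hH q hqH (TH : Subgroup G) TH.isPGroup' hTHH hidx hNM1
  have hHN : H ≤ normalizer (alphaCore H : Set G) :=
    Cfsg.Agent.Lib.Helper30.le_normalizer_piCoreOf (alpha H) H
  have hpN : ¬ p ∣ Nat.card (alphaCore H) := fun h => hpα ((h05 H hH).1.2.1 p hpp h)
  have hpH' : p ∣ Nat.card ↥⁅H, H⁆ := dvd_card_commutator_of_sigma hSC hH hpH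
  have h1 := der_dvd hHN (inf_le_right : (MulAut.conj g • M) ⊓ H ≤ H) hfact hpN hpH'
  have h2 : ⁅(MulAut.conj g • M) ⊓ H, (MulAut.conj g • M) ⊓ H⁆ ≤
      ⁅(MulAut.conj g • M : Subgroup G), (MulAut.conj g • M : Subgroup G)⁆ :=
    Subgroup.commutator_mono inf_le_left inf_le_left
  have h3 := h1.trans (Subgroup.card_dvd_of_le h2)
  rw [card_commutator_cj] at h3
  exact hpM' h3

end Cfsg.Agent.H32.BG134
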