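import Mathlib
import Cfsg.Agent.H86.Ev2Defs

/-!
# EV2-INVODD (helper32, for helper86)

An isometry `T` with `T * T = 1` of a nondegenerate space fixes the span of `m` pairwise
orthogonal nonsingular vectors with prescribed discriminant class (`1 ≤ m < dim V`, `dim V ≥ 4`).
Adapted from helper18's `OhInv`.
-/

set_option autoImplicit false

namespace Cfsg.Agent.H32.Ev2

open Cfsg.Agent.H45 Cfsg.Agent.H42.Spd Cfsg.Agent.H42.Ti Cfsg.Agent.H14.Ot Cfsg.Agent.H95.Oh
  Cfsg.Agent.H86.Ev2 Module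

universe u v

theorem invOdd_core (hO : StOrtho.{u, v}) (hS : StSubDisc.{u, v})
    {F : Type u} [Field F] [Fintype F] {V : Type v} [AddCommGroup V] [Module F V]
    [FiniteDimensional F V] (B : V →ₗ[F] V →ₗ[F] F) (T : Module.End F V) (h2 : (2 : F) ≠ 0)
    (hsym : ∀ x y, B x y = B y x) (Z Z' : Submodule F V) (hZ : Z ⊓ perp B Z = ⊥)
    (hZ' : Z' ⊓ perp B Z' = ⊥) (horth : ∀ x ∈ Z, ∀ y ∈ Z', B x y = 0) (c c' : F)
    (hc : ∀ x ∈ Z, T x = c • x) (hc' : ∀ x ∈ Z', T x = c' • x)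
    (hle : finrank F Z' ≤ finrank F Z) (m : ℕ) (δ : F) (hm1 : 1 ≤ m)
    (hdim : m + 1 ≤ finrank F Z + finrank F Z') (h4 : 4 ≤ finrank F Z + finrank F Z')
    (hδ : δ ≠ 0) :
    ∃ w : Fin m → V, OrthoFam B w ∧ IsSquare (δ * ∏ a, B (w a) (w a)) ∧
      Submodule.span F (Set.range w) ∈ T.invtSubmodule := by
  classical
  obtain ⟨w', hw'Z, hw'o, hw'n, -⟩ := hO F V B h2 hsym Z' hZ'
  have hb'le : min (finrank F Z') (m - 1) ≤ finrank F Z' := min_le_left _ _
  obtain ⟨b', hb'def⟩ : ∃ b' : ℕ, b' = min (finrank F Z') (m - 1) := ⟨_, rfl⟩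
  have hb'le' : b' ≤ finrank F Z' := by rw [hb'def]; exact hb'le
  obtain ⟨b, hbdef⟩ : ∃ b : ℕ, b = m - b' := ⟨_, rfl⟩
  have hb1 : 1 ≤ b := by omega
  have hb2 : b + 1 ≤ finrank F Z := by omega
  have hsum : b' + b = m := by omega
  let v' : Fin b' → V := fun a => w' (Fin.castLE hb'le' a)
  have hv'Z : ∀ a, v' a ∈ Z' := fun a => hw'Z _
  have hv'o : ∀ a a', a ≠ a' → B (v' a) (v' a') = 0 := by
    intro a a' haa
    apply hw'o
    intro h
    apply haa
    exact Fin.castLE_injective hb'le' h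
  have hv'n : ∀ a, B (v' a) (v' a) ≠ 0 := fun a => hw'n _
  have hδ' : (∏ a, B (v' a) (v' a)) ≠ 0 := Finset.prod_ne_zero_iff.mpr (fun a _ => hv'n a)
  have hδ0 : δ * (∏ a, B (v' a) (v' a)) ≠ 0 := mul_ne_zero hδ hδ'
  obtain ⟨v, hvZ, hvo, hvn, hvsq⟩ := hS F V B h2 hsym Z hZ b
    (δ * (∏ a, B (v' a) (v' a))) hb1 hb2 hδ0
  let e : Fin b' ⊕ Fin b ≃ Fin m := finSumFinEquiv.trans (finCongr hsum)
  let u : Fin m → V := fun i => Sum.elim v' v (e.symm i)
  have hso : ∀ p q : Fin b' ⊕ Fin b, p ≠ q → B (Sum.elim v' v p) (Sum.elim v' v q) = 0 := by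
    rintro (a | a) (a' | a') hpq
    · exact hv'o a a' (fun h => hpq (by rw [h]))
    · simp only [Sum.elim_inl, Sum.elim_inr]
      rw [hsym]
      exact horth _ (hvZ a') _ (hv'Z a)
    · simp only [Sum.elim_inl, Sum.elim_inr]
      exact horth _ (hvZ a) _ (hv'Z a')
    · exact hvo a a' (fun h => hpq (by rw [h]))
  have hsn : ∀ p : Fin b' ⊕ Fin b, B (Sum.elim v' v p) (Sum.elim v' v p) ≠ 0 := by
    rintro (a | a)
    · exact hv'n a
    · exact hvn a
  have hsT : ∀ p : Fin b' ⊕ Fin b, ∃ k : F, T (Sum.elim v' v p) = k • Sum.elim v' v p := by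
    rintro (a | a)
    · exact ⟨c', hc' _ (hv'Z a)⟩
    · exact ⟨c, hc _ (hvZ a)⟩
  have hu_o : ∀ i j, i ≠ j → B (u i) (u j) = 0 := fun i j hij =>
    hso _ _ (e.symm.injective.ne hij)
  have hu_n : ∀ i, B (u i) (u i) ≠ 0 := fun i => hsn _
  have hu_T : ∀ i, ∃ k : F, T (u i) = k • u i := fun i => hsT _
  have hprod : ∏ i, B (u i) (u i) = (∏ a, B (v' a) (v' a)) * ∏ a, B (v a) (v a) := by
    rw [Fintype.prod_equiv e.symm (fun i => B (u i) (u i))
      (fun p => B (Sum.elim v' v p) (Sum.elim v' v p)) (fun i => rfl), Fintype.prod_sum_type]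
    simp only [Sum.elim_inl, Sum.elim_inr]
  refine ⟨u, ⟨hu_o, hu_n⟩, ?_, ?_⟩
  · rw [hprod, ← mul_assoc]
    exact hvsq
  · rw [Module.End.mem_invtSubmodule, Submodule.span_le]
    rintro _ ⟨i, rfl⟩
    show T (u i) ∈ Submodule.span F (Set.range u)
    obtain ⟨k, hk⟩ := hu_T i
    rw [hk]
    exact Submodule.smul_mem _ k (Submodule.subset_span ⟨i, rfl⟩)

theorem invOdd (hO : StOrtho.{u, v}) (hS : StSubDisc.{u, v}) : StInvOdd.{u, v} := by
  intro F _ _ V _ _ _ B T h2 hsym hnd hiso hTT m δ hm1 hdim h4 hδ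
  classical
  let Vp : Submodule F V := LinearMap.ker (T - 1)
  let Vm : Submodule F V := LinearMap.ker (T + 1)
  have hp : ∀ x ∈ Vp, T x = (1 : F) • x := by
    intro x hx
    have h1 : (T - 1) x = 0 := LinearMap.mem_ker.mp hx
    rw [LinearMap.sub_apply, Module.End.one_apply, sub_eq_zero] at h1
    rw [one_smul]
    exact h1
  have hmn : ∀ x ∈ Vm, T x = (-1 : F) • x := by
    intro x hx
    have h1 : (T + 1) x = 0 := LinearMap.mem_ker.mp hx
    rw [LinearMap.add_apply, Module.End.one_apply] at h1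
    rw [neg_one_smul]
    exact eq_neg_of_add_eq_zero_left h1
  have horth : ∀ x ∈ Vp, ∀ y ∈ Vm, B x y = 0 := by
    intro x hx y hy
    have h1 := hiso x y
    rw [hp x hx, hmn y hy, one_smul, neg_one_smul, map_neg] at h1
    have h3 : (2 : F) * B x y = 0 := by linear_combination -h1
    exact (mul_eq_zero.mp h3).resolve_left h2
  have hT2 : ∀ x, T (T x) = x := by
    intro x
    have h1 := congrArg (fun f : Module.End F V => f x) hTT
    simpa using h1
  have hsup : Vp ⊔ Vm = ⊤ := by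
    rw [eq_top_iff]
    intro x _
    rw [Submodule.mem_sup]
    refine ⟨(2 : F)⁻¹ • (x + T x), ?_, (2 : F)⁻¹ • (x - T x), ?_, ?_⟩
    · show (2 : F)⁻¹ • (x + T x) ∈ LinearMap.ker (T - 1)
      rw [LinearMap.mem_ker, LinearMap.sub_apply, Module.End.one_apply, map_smul, map_add, hT2,
        add_comm, sub_self]
    · show (2 : F)⁻¹ • (x - T x) ∈ LinearMap.ker (T + 1)
      rw [LinearMap.mem_ker, LinearMap.add_apply, Module.End.one_apply, map_smul, map_sub, hT2,
        ← smul_add]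
      simp
    · rw [← smul_add]
      have h1 : x + T x + (x - T x) = (2 : F) • x := by
        rw [two_smul]; abel
      rw [h1, smul_smul, inv_mul_cancel₀ h2, one_smul]
  have hinf : Vp ⊓ Vm = ⊥ := by
    rw [eq_bot_iff]
    rintro x ⟨hx1, hx2⟩
    have h1 := hp x hx1
    have h3 := hmn x hx2
    rw [h1, one_smul, neg_one_smul] at h3
    have h4 : (2 : F) • x = 0 := by
      rw [two_smul]
      nth_rewrite 1 [h3]
      exact neg_add_cancel x
    rw [Submodule.mem_bot]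
    rcases smul_eq_zero.mp h4 with h | h
    · exact absurd h h2
    · exact h
  have hfin : finrank F Vp + finrank F Vm = finrank F V := by
    have h1 := Submodule.finrank_sup_add_finrank_inf_eq Vp Vm
    rw [hsup, hinf, finrank_top, finrank_bot, add_zero] at h1
    exact h1.symm
  have hndg : ∀ (Z Z' : Submodule F V), Z ⊔ Z' = ⊤ → (∀ x ∈ Z, ∀ y ∈ Z', B x y = 0) →
      Z ⊓ perp B Z = ⊥ := by
    intro Z Z' hs ho
    rw [eq_bot_iff]
    rintro x ⟨hxZ, hxP⟩
    rw [Submodule.mem_bot]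
    apply hnd
    intro y
    have hy : y ∈ Z ⊔ Z' := by rw [hs]; trivial
    obtain ⟨z, hz, z', hz', rfl⟩ := Submodule.mem_sup.mp hy
    rw [map_add, ho x hxZ z' hz', add_zero, hsym]
    exact hxP z hz
  have horth' : ∀ x ∈ Vm, ∀ y ∈ Vp, B x y = 0 := fun x hx y hy => by
    rw [hsym]; exact horth y hy x hx
  have hZp := hndg Vp Vm hsup horth
  have hZm := hndg Vm Vp (by rw [sup_comm]; exact hsup) horth'
  rcases le_total (finrank F Vm) (finrank F Vp) with hle | hle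
  · exact invOdd_core hO hS B T h2 hsym Vp Vm hZp hZm horth 1 (-1) hp hmn hle m δ hm1
      (by omega) (by omega) hδ
  · exact invOdd_core hO hS B T h2 hsym Vm Vp hZm hZp horth' (-1) 1 hmn hp hle m δ hm1
      (by omega) (by omega) hδ

example : StOrtho.{u, v} → StSubDisc.{u, v} → StInvOdd.{u, v} := invOdd

end Cfsg.Agent.H32.Ev2
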