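import Mathlib
import Cfsg.Agent.H88.AltFDefs

set_option autoImplicit false

namespace Cfsg.Agent.H32.AltF

open Cfsg.Agent.H88.AltF

variable {I : Type} (E : Type) {p : ℕ}

theorem pt_cases (j : ZMod p ↪ I) (P : Pt I E p → Prop)
    (h1 : ∀ k x, P (Sum.inl (j k, x)))
    (h2 : ∀ i, i ∉ Set.range j → ∀ x, P (Sum.inl (i, x)))
    (h3 : ∀ e, P (Sum.inr e)) : ∀ pt, P pt := by
  rintro (⟨i, x⟩ | e)
  · by_cases hi : i ∈ Set.range j
    · obtain ⟨k, rfl⟩ := hi
      exact h1 k x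
    · exact h2 i hi x
  · exact h3 e

open Classical in
/-- The transported translation vector. -/
noncomputable def pull (j : ZMod p ↪ I) (π : Equiv.Perm (ZMod p)) (c : ZMod p) (f : I → ZMod p) :
    I → ZMod p :=
  fun i => if h : ∃ k, j k = i then c * f (j (π.symm h.choose)) else f i

theorem pull_j (j : ZMod p ↪ I) (π : Equiv.Perm (ZMod p)) (c : ZMod p) (f : I → ZMod p)
    (k : ZMod p) : pull j π c f (j k) = c * f (j (π.symm k)) := by
  unfold pull
  have h : ∃ k', j k' = j k := ⟨k, rfl⟩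
  rw [dif_pos h]
  have h2 : h.choose = k := j.injective h.choose_spec
  rw [h2]

theorem pull_not (j : ZMod p ↪ I) (π : Equiv.Perm (ZMod p)) (c : ZMod p) (f : I → ZMod p)
    (i : I) (hi : i ∉ Set.range j) : pull j π c f i = f i := by
  unfold pull
  rw [dif_neg]
  rintro ⟨k, hk⟩
  exact hi ⟨k, hk⟩

theorem sqP_mono_mul_fibP (j : ZMod p ↪ I) (π : Equiv.Perm (ZMod p)) (c : (ZMod p)ˣ)
    (f : I → ZMod p) :
    sqP E j (Equiv.prodCongr π (Units.mulLeft c)) * fibP E f =
      fibP E (pull j π (c : ZMod p) f) * sqP E j (Equiv.prodCongr π (Units.mulLeft c)) := by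
  apply Equiv.ext
  refine pt_cases E j _ ?_ ?_ ?_
  · intro k x
    rw [Equiv.Perm.mul_apply, Equiv.Perm.mul_apply, fibP_inl, sqP_apply, sqP_apply]
    simp only [Equiv.prodCongr_apply, Prod.map_apply, Units.mulLeft_apply, fibP_inl, pull_j,
      Equiv.symm_apply_apply, mul_add]
  · intro i hi x
    rw [Equiv.Perm.mul_apply, Equiv.Perm.mul_apply, fibP_inl, sqP_apply_of_notMem E j _ i hi,
      sqP_apply_of_notMem E j _ i hi, fibP_inl, pull_not j π _ f i hi]
  · intro e
    rw [Equiv.Perm.mul_apply, Equiv.Perm.mul_apply, fibP_inr, sqP_apply_inr, fibP_inr]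

theorem conj_mono_mem_baseB (j : ZMod p ↪ I) (π : Equiv.Perm (ZMod p)) (c : (ZMod p)ˣ) :
    ∀ h ∈ baseB I E p, sqP E j (Equiv.prodCongr π (Units.mulLeft c)) * h *
      (sqP E j (Equiv.prodCongr π (Units.mulLeft c)))⁻¹ ∈ baseB I E p := by
  rintro _ ⟨f, rfl⟩
  rw [sqP_mono_mul_fibP, mul_inv_cancel_right]
  exact fibP_mem_baseB E _

theorem addRight_eq_mono :
    Equiv.addRight ((1 : ZMod p), (0 : ZMod p)) =
      Equiv.prodCongr (Equiv.addRight (1 : ZMod p)) (Units.mulLeft (1 : (ZMod p)ˣ)) := by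
  ext ⟨k, x⟩ <;> simp

theorem tau0_pow (j : ZMod p ↪ I) (n : ℕ) :
    tau0 E j ^ n = sqP E j (Equiv.addRight (((n : ZMod p)), (0 : ZMod p))) := by
  unfold tau0
  rw [← map_pow, Equiv.nsmul_addRight]
  congr 2
  simp

theorem sqP_addRight_mem_zpowers [NeZero p] (j : ZMod p ↪ I) (c : ZMod p) :
    sqP E j (Equiv.addRight (c, (0 : ZMod p))) ∈ Subgroup.zpowers (tau0 E j) := by
  have h := tau0_pow E j c.val
  rw [ZMod.natCast_zmod_val] at h
  rw [← h]
  exact Subgroup.pow_mem _ (Subgroup.mem_zpowers _) _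

theorem dEl_inv (j : ZMod p ↪ I) (u : (ZMod p)ˣ) : (dEl E j u)⁻¹ = dEl E j u⁻¹ := by
  unfold dEl
  rw [← map_inv]
  congr 1

theorem dEl_conj_tau0 (j : ZMod p ↪ I) (u : (ZMod p)ˣ) :
    dEl E j u * tau0 E j * (dEl E j u)⁻¹ =
      sqP E j (Equiv.addRight (((u⁻¹ : (ZMod p)ˣ) : ZMod p), (0 : ZMod p))) := by
  rw [mul_inv_eq_iff_eq_mul]
  unfold dEl tau0
  rw [← map_mul, ← map_mul]
  congr 1
  ext ⟨k, x⟩ <;> simp [mul_add]

theorem dEl_conj_mem_subR1 [NeZero p] (j : ZMod p ↪ I) (u : (ZMod p)ˣ) :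
    ∀ h ∈ subR1 E j, dEl E j u * h * (dEl E j u)⁻¹ ∈ subR1 E j := by
  have hle : subR1 E j ≤ (subR1 E j).comap (MulAut.conj (dEl E j u)).toMonoidHom := by
    unfold subR1
    refine sup_le ?_ ?_
    · intro h hh
      rw [Subgroup.mem_comap]
      exact (le_sup_left : baseB I E p ≤ _) (conj_mono_mem_baseB E j _ u h hh)
    · rw [Subgroup.zpowers_le, Subgroup.mem_comap]
      have h1 : (MulAut.conj (dEl E j u)).toMonoidHom (tau0 E j) =
          dEl E j u * tau0 E j * (dEl E j u)⁻¹ := rfl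
      rw [h1, dEl_conj_tau0]
      exact (le_sup_right : Subgroup.zpowers (tau0 E j) ≤ _) (sqP_addRight_mem_zpowers E j _)
  intro h hh
  exact hle hh

theorem dn : StmtDN := by
  intro I E _ _ _ _ _ p _ j u
  have : NeZero p := ⟨(Fact.out : p.Prime).ne_zero⟩
  constructor
  · exact Subgroup.mem_normalizer_fintype (fun h hh => conj_mono_mem_baseB E j _ u h hh)
  · exact Subgroup.mem_normalizer_fintype (fun h hh => dEl_conj_mem_subR1 E j u h hh)

/-! ### QR -/

open Classical in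
theorem sqP_addRight_snd (j : ZMod p ↪ I) (x : ZMod p) :
    sqP E j (Equiv.addRight ((0 : ZMod p), x)) =
      fibP E (fun i => if i ∈ Set.range j then x else 0) := by
  apply Equiv.ext
  refine pt_cases E j _ ?_ ?_ ?_
  · intro k y
    rw [sqP_apply, fibP_inl]
    simp
  · intro i hi y
    rw [sqP_apply_of_notMem E j _ i hi, fibP_inl, if_neg hi, add_zero]
  · intro e
    rw [sqP_apply_inr, fibP_inr]

theorem sqP_addRight_mem_subR1 [NeZero p] (j : ZMod p ↪ I) (v : ZMod p × ZMod p) :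
    sqP E j (Equiv.addRight v) ∈ subR1 E j := by
  have h1 : Equiv.addRight v = Equiv.addRight (v.1, (0 : ZMod p)) *
      Equiv.addRight ((0 : ZMod p), v.2) := by
    ext ⟨k, x⟩ <;> simp
  rw [h1, map_mul, sqP_addRight_snd]
  exact Subgroup.mul_mem _
    ((le_sup_right : Subgroup.zpowers (tau0 E j) ≤ subR1 E j) (sqP_addRight_mem_zpowers E j _))
    ((le_sup_left : baseB I E p ≤ subR1 E j) (fibP_mem_baseB E _))

theorem fibP_pow (f : I → ZMod p) (n : ℕ) : fibP E f ^ n = fibP E (n • f) := by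
  induction n with
  | zero => simp
  | succ n ih => rw [pow_succ, ih, ← fibP_add, succ_nsmul]

theorem isPGroup_baseB [Fact p.Prime] : IsPGroup p (baseB I E p) := by
  rintro ⟨_, ⟨f, rfl⟩⟩
  refine ⟨1, ?_⟩
  apply Subtype.ext
  rw [pow_one]
  show fibP E f ^ p = 1
  rw [fibP_pow]
  have : (p • f) = 0 := by
    funext i
    simp
  rw [this, fibP_zero]

theorem isPGroup_zpowers_tau0 [Fact p.Prime] (j : ZMod p ↪ I) :
    IsPGroup p (Subgroup.zpowers (tau0 E j)) := by
  have h1 : tau0 E j ^ p = 1 := by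
    rw [tau0_pow]
    have : Equiv.addRight (((p : ℕ) : ZMod p), (0 : ZMod p)) = 1 := by
      ext ⟨k, x⟩ <;> simp
    rw [this, map_one]
  rintro ⟨g, hg⟩
  obtain ⟨z, rfl⟩ := Subgroup.mem_zpowers_iff.mp hg
  refine ⟨1, ?_⟩
  apply Subtype.ext
  rw [pow_one]
  show (tau0 E j ^ z) ^ p = 1
  rw [← zpow_natCast, ← zpow_mul, mul_comm, zpow_mul, zpow_natCast, h1, one_zpow]

theorem tau0_mem_normalizer [Fintype I] [DecidableEq I] [Fintype E] [DecidableEq E]
    (j : ZMod p ↪ I) [NeZero p] :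
    tau0 E j ∈ Subgroup.normalizer ((baseB I E p : Subgroup (Equiv.Perm (Pt I E p))) :
      Set (Equiv.Perm (Pt I E p))) := by
  refine Subgroup.mem_normalizer_fintype (fun h hh => ?_)
  unfold tau0
  rw [addRight_eq_mono]
  exact conj_mono_mem_baseB E j _ 1 h hh

theorem qr : StmtQR := by
  intro I E _ _ _ _ _ p _ hp2 hcard j
  have : NeZero p := ⟨(Fact.out : p.Prime).ne_zero⟩
  have hpg : IsPGroup p (subR1 E j) := by
    unfold subR1
    refine IsPGroup.to_sup_of_normal_left' (isPGroup_baseB E) (isPGroup_zpowers_tau0 E j) ?_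
    rw [Subgroup.zpowers_le]
    exact tau0_mem_normalizer E j
  refine ⟨?_, hpg, ?_, ?_⟩
  · unfold subQ
    rw [Subgroup.closure_le]
    rintro g (⟨v, rfl⟩ | ⟨f, -, rfl⟩)
    · exact sqP_addRight_mem_subR1 E j v
    · exact (le_sup_left : baseB I E p ≤ subR1 E j) (fibP_mem_baseB E f)
  · intro g hg
    rw [Equiv.Perm.mem_alternatingGroup]
    obtain ⟨k, hk⟩ := hpg ⟨g, hg⟩
    have hk' : g ^ p ^ k = 1 := by
      have := congrArg Subtype.val hk
      simpa using this
    have h1 : Equiv.Perm.sign g ^ p ^ k = 1 := by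
      rw [← map_pow, hk', map_one]
    rcases Int.units_eq_one_or (Equiv.Perm.sign g) with h | h
    · exact h
    · exfalso
      rw [h] at h1
      have hodd : Odd (p ^ k) :=
        Odd.pow ((Fact.out : p.Prime).odd_of_ne_two hp2)
      rw [hodd.neg_one_pow] at h1
      exact absurd h1 (by decide)
  · have hI : 0 < Fintype.card I := lt_of_lt_of_le (Fact.out : p.Prime).pos hcard
    obtain ⟨i0⟩ := Fintype.card_pos_iff.mp hI
    intro hbot
    have hmem : fibP E (Pi.single i0 (1 : ZMod p)) ∈ baseB I E p := fibP_mem_baseB E _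
    rw [hbot, Subgroup.mem_bot, ← fibP_zero E] at hmem
    have h2 := fibP_injective E hmem
    have h3 := congrFun h2 i0
    simp at h3

end Cfsg.Agent.H32.AltF
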