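import Mathlib
import Cfsg.Agent.H47.BG139Defs
import Cfsg.Agent.H92.BG123
import Cfsg.Agent.H31.BG1216Frat

set_option autoImplicit false

/-!
# BG139-ALPHA (piece of B&G Theorem 13.9 = S1378, for helper47), helper32

In a configuration `SCfg M N Q q`: `q ∉ α(M)`, `M_α ≠ 1` and `α(M) ⊆ β(M)`.
-/

namespace Cfsg.Agent.H32.BG139

open Cfsg Subgroup Cfsg.Agent.H58.BG10 Cfsg.Agent.H47.BG12 Cfsg.Agent.Lib.Helper30.BG134
  Cfsg.Agent.H47.BG139
open scoped Pointwise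

universe u

variable {G : Type u} [Group G]

theorem stAlpha [Finite G] (hG : IsMinSimpleOddOrder G) (h03 : St1403 G) (h50 : St1350 G)
    (h05 : St1405 G) (hSC : StSigComm G) (hAB : StAB G) : StAlpha G := by
  intro M N Q q hc
  have hq := hc.hq
  have : Fact q.Prime := ⟨hq⟩
  have hQM : Q ≤ M := Subgroup.le_normalizer.trans hc.hNM
  have hMN : M ≠ N := by
    intro h
    apply hc.hnc 1
    rw [Cfsg.Agent.H63.Sig.cj_one, h]
  -- (i)
  have hqα : q ∉ alpha M := by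
    intro hqα
    obtain ⟨g, hg⟩ := Cfsg.Agent.H92.BG12.conj_of_alpha_sigma hG h03 hc.hM hc.hN hqα hc.hqN
    apply hc.hnc g⁻¹
    rw [hg, Cfsg.Agent.H63.Sig.cj_inv_cj]
  refine ⟨hqα, ?_, ?_⟩
  · -- (ii)
    intro hbot
    have hidx : ¬ q ∣ Q.relIndex M := fun h =>
      hc.hQi (h.trans (Subgroup.relIndex_dvd_index_of_le hQM))
    have hQσ : Q ≤ sigmaCore M :=
      Cfsg.Agent.H92.BG12.le_sigmaCore_of_mem h50 hc.hM hc.hqM hc.hQq hQM
    have hQc : Q ≤ ⁅M, M⁆ :=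
      hQσ.trans (Cfsg.Agent.H76.BG10.sigmaCore_le_commutator hSC M hc.hM)
    have hfr := Cfsg.Agent.H31.BG1216.alphaFrat h05 M hc.hM q Q hc.hQq hQM hidx hQc
    have hMle : M ≤ N := by
      intro m hm
      obtain ⟨a, ha, n, hn, rfl⟩ := hfr m hm
      rw [hbot, Subgroup.mem_bot] at ha
      rw [ha, one_mul]
      exact hc.hNN hn.2
    rcases eq_or_lt_of_le hMle with h | h
    · exact hMN h
    · exact hc.hN.1 (hc.hM.2 N h)
  · -- (iii)
    exact hAB M N Q q hc.hM hc.hN hMN hc.hqM hqα hc.hQq hQM hc.hNN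

end Cfsg.Agent.H32.BG139
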