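import Mathlib
import Cfsg.Agent.H47.BG139Defs
import Cfsg.Agent.H92.BG123
import Cfsg.Agent.H70.BG10D

set_option autoImplicit false

/-!
# BG139-CYC (piece of B&G Theorem 13.9 = S1378, for helper47), helper32

For `R ≤ M` of order `r ∈ τ₁(M)` and `x ∈ C_{M_α}(R)` of prime order `s` with `C_G(x) ≤ M`:
every `s`-subgroup of `C_G(R)` containing `x` is cyclic.
-/

namespace Cfsg.Agent.H32.BG139

open Cfsg Subgroup Cfsg.Agent.H58.BG10 Cfsg.Agent.H47.BG12 Cfsg.Agent.Lib.Helper30.BG134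
  Cfsg.Agent.H47.BG139
open scoped Pointwise

universe u

variable {G : Type u} [Group G]

theorem cyc [Finite G] (hG : IsMinSimpleOddOrder G) (h05 : St1405 G) (h06 : St1406 G)
    (h09 : St1409 G) : StCyc G := by
  intro M hM r R hr hRM hRcard x hxα hxR hxs hCx S hSs hSR hxS
  obtain ⟨hrp, hrσ, -, -, hrank1⟩ := hr
  obtain ⟨s, hs_def⟩ : ∃ s : ℕ, s = orderOf x := ⟨_, rfl⟩
  rw [← hs_def] at hxs hSs
  have : Fact s.Prime := ⟨hxs⟩
  have : Fact r.Prime := ⟨hrp⟩
  have hαM : alphaCore M ≤ M := (h05 M hM).1.1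
  -- (a)
  have hA : RankLE 1 ↥(alphaCore M ⊓ centralizer (R : Set G)) := by
    by_contra hA
    have hRα : ∀ p : ℕ, p.Prime → p ∣ Nat.card R → p ∉ alpha M := by
      intro p hp hpR
      rw [hRcard] at hpR
      have := (Nat.prime_dvd_prime_iff_eq hp hrp).mp hpR
      rw [this]
      intro h
      exact h.2 (fun A hA1 hA2 =>
        (hrank1 A hA1 hA2).trans (Nat.pow_le_pow_right hrp.pos (by norm_num)))
    have huniq := h06 M hM R hRM hRα hA
    have hR1 : R ≠ ⊥ := by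
      intro h
      rw [h, Subgroup.card_bot] at hRcard
      exact hrp.one_lt.ne hRcard
    have hRtop : R ≠ ⊤ := fun h => hM.1 (top_le_iff.mp (h ▸ hRM))
    have hNtop := Cfsg.Agent.Lib.Helper30.minSimple_normalizer_ne_top hG hR1 hRtop
    obtain ⟨L, hL, hNL⟩ := (eq_top_or_exists_le_coatom _).resolve_left hNtop
    have hLM : L = M := eq_of_inUniqueMaximal huniq hM inf_le_left hL
      (inf_le_right.trans ((Subgroup.centralizer_le_normalizer _).trans hNL))
    have hNM : normalizer (R : Set G) ≤ M := hLM ▸ hNL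
    exact (h09 M hM r hrσ R hRcard hNM).1.2 hrank1
  -- (b)
  have hx1 : x ≠ 1 := by
    intro h
    rw [h, orderOf_one] at hs_def
    rw [hs_def] at hxs
    exact Nat.not_prime_one hxs
  have hsα : s ∈ alpha M := by
    apply (h05 M hM).1.2.1 s hxs
    have := orderOf_dvd_natCard (⟨x, hxα⟩ : alphaCore M)
    rwa [Subgroup.orderOf_mk, ← hs_def] at this
  have hSnt : Nontrivial S := ⟨⟨⟨x, hxS⟩, 1, fun h => hx1 (congrArg Subtype.val h)⟩⟩
  have hcnt : Nontrivial (center S) := hSs.center_nontrivial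
  have hcs : IsPGroup s (center S) := hSs.to_subgroup _
  obtain ⟨k, hk⟩ := IsPGroup.iff_card.mp hcs
  have hk0 : k ≠ 0 := by
    rintro rfl
    rw [pow_zero] at hk
    exact (Finite.one_lt_card_iff_nontrivial.mpr hcnt).ne' hk
  have hsdvd : s ∣ Nat.card (center S) := hk ▸ dvd_pow_self s hk0
  obtain ⟨z, hz⟩ := exists_prime_orderOf_dvd_card' s hsdvd
  obtain ⟨z0, hz0def⟩ : ∃ z0 : G, z0 = ((z : S) : G) := ⟨_, rfl⟩
  have hz0o : orderOf z0 = s := by
    rw [hz0def, Subgroup.orderOf_coe, Subgroup.orderOf_coe]; exact hz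
  have hz0S : z0 ∈ S := by rw [hz0def]; exact (z : S).2
  have hz0c : ∀ g ∈ S, g * z0 = z0 * g := by
    intro g hg
    have := Subgroup.mem_center_iff.mp z.2 ⟨g, hg⟩
    rw [hz0def]
    exact congrArg Subtype.val this
  have hz0x : z0 * x = x * z0 := (hz0c x hxS).symm
  have hz0M : z0 ∈ M := by
    apply hCx
    rw [mem_centralizer_iff]
    intro y hy
    obtain ⟨n, rfl⟩ := mem_zpowers_iff.mp hy
    exact (Commute.zpow_left (show Commute x z0 from hz0x.symm) n).eq
  have hz0α : z0 ∈ alphaCore M := by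
    have hzp : IsPGroup s (zpowers z0) := by
      apply IsPGroup.of_card (n := 1)
      rw [Nat.card_zpowers, hz0o, pow_one]
    exact Cfsg.Agent.H92.BG12.le_alphaCore_of_mem h05 hM hsα hzp (zpowers_le.mpr hz0M)
      (mem_zpowers z0)
  have hz0R : z0 ∈ centralizer (R : Set G) := hSR hz0S
  have hB0 : IsElementaryAbelian s (⊥ : Subgroup G) := by
    refine ⟨⟨⟨fun a b => ?_⟩⟩, fun a ha => ?_⟩
    · have ha := Subgroup.mem_bot.mp a.2
      have hb := Subgroup.mem_bot.mp b.2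
      apply Subtype.ext
      simp [ha, hb]
    · rw [Subgroup.mem_bot.mp ha, one_pow]
  have hB1 : IsElementaryAbelian s (⊥ ⊔ zpowers x) :=
    Cfsg.Agent.H70.BG10.sup_zpowers_elementary hB0
      (fun b hb => by rw [Subgroup.mem_bot.mp hb]; simp) (hs_def ▸ pow_orderOf_eq_one x)
  rw [bot_sup_eq] at hB1
  have hB2 : IsElementaryAbelian s (zpowers x ⊔ zpowers z0) :=
    Cfsg.Agent.H70.BG10.sup_zpowers_elementary hB1
      (fun b hb => by
        obtain ⟨n, rfl⟩ := mem_zpowers_iff.mp hb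
        exact (Commute.zpow_right (show Commute z0 x from hz0x) n).eq)
      (hz0o ▸ pow_orderOf_eq_one z0)
  have hB2le : zpowers x ⊔ zpowers z0 ≤ alphaCore M ⊓ centralizer (R : Set G) :=
    sup_le (zpowers_le.mpr ⟨hxα, hxR⟩) (zpowers_le.mpr ⟨hz0α, hz0R⟩)
  have hB2card : Nat.card ↥(zpowers x ⊔ zpowers z0) ≤ s := by
    by_contra hlt
    push Not at hlt
    exact Cfsg.Agent.H31.BG8.not_pRankLE_of_le hB2le hB2 (by simpa using hlt) (hA s hxs)
  have hBeq : zpowers x = zpowers x ⊔ zpowers z0 :=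
    Subgroup.eq_of_le_of_card_ge le_sup_left (by rw [Nat.card_zpowers, ← hs_def]; exact hB2card)
  have hz0x' : z0 ∈ zpowers x := by
    rw [hBeq]; exact Subgroup.mem_sup_right (mem_zpowers z0)
  have hzz : zpowers z0 = zpowers x :=
    Subgroup.eq_of_le_of_card_ge (zpowers_le.mpr hz0x')
      (by rw [Nat.card_zpowers, Nat.card_zpowers, hz0o, ← hs_def])
  have hSCx : S ≤ centralizer ((zpowers x : Subgroup G) : Set G) := by
    rw [← hzz]
    intro g hg
    rw [mem_centralizer_iff]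
    intro y hy
    obtain ⟨m, rfl⟩ := mem_zpowers_iff.mp hy
    exact (Commute.zpow_left (show Commute z0 g from (hz0c g hg).symm) m).eq
  have hSM : S ≤ M := hSCx.trans hCx
  have hSα : S ≤ alphaCore M := Cfsg.Agent.H92.BG12.le_alphaCore_of_mem h05 hM hsα hSs hSM
  have hSle : S ≤ alphaCore M ⊓ centralizer (R : Set G) := le_inf hSα hSR
  have hSrank : PRankLE s 1 ↥S := by
    by_contra h
    obtain ⟨B, hBS, hBc, hBp, hBcard⟩ := Cfsg.Agent.H31.T2.exists_elementary_of_not_pRankLE h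
    have hBe : IsElementaryAbelian s B := ⟨⟨⟨fun a b => Subtype.ext (hBc a a.2 b b.2)⟩⟩, hBp⟩
    exact Cfsg.Agent.H31.BG8.not_pRankLE_of_le (hBS.trans hSle) hBe hBcard (hA s hxs)
  have hsM : s ∣ Nat.card M := by
    have := orderOf_dvd_natCard (⟨x, hαM hxα⟩ : M)
    rwa [Subgroup.orderOf_mk, ← hs_def] at this
  have hs2 : s ≠ 2 := Cfsg.Agent.H76.BG10.ne_two_of_dvd hG M hsM
  exact Cfsg.Agent.Helper55.isCyclic_of_pRankLE_one hs2 hSs hSrank

end Cfsg.Agent.H32.BG139
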