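import Mathlib
import Cfsg.Agent.H47.BG139Defs
import Cfsg.Agent.H92.BG123

set_option autoImplicit false

/-!
# BG139-ELT (piece of B&G Theorem 13.9 = S1378, for helper47), helper32

In a configuration `SCfg M N Q q`, if `R ≤ N_G(Q)` of order `r ∈ τ₁(M)` has `C_Q(R) = 1`, then
`C_{M_α}(R)` contains an element `x` of prime order in `α(M)`, and `M` is the only maximal
subgroup over `C_G(x)`.
-/

namespace Cfsg.Agent.H32.BG139

open Cfsg Subgroup Cfsg.Agent.H58.BG10 Cfsg.Agent.H47.BG12 Cfsg.Agent.Lib.Helper30.BG134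
  Cfsg.Agent.Lib.Helper30.BG12T Cfsg.Agent.H47.BG139
open scoped Pointwise

universe u

variable {G : Type u} [Group G]

theorem elt [Finite G] (hG : IsMinSimpleOddOrder G) (h03 : St1403 G) (h05 : St1405 G)
    (h23 : St1423 G) (hLR : StLR G) (hAl : StAlpha G) : StElt G := by
  intro M N Q q hc r R hr hRQ hRcard hfree
  obtain ⟨hqα, hα1, hαβ⟩ := hAl M N Q q hc
  have hQM : Q ≤ M := Subgroup.le_normalizer.trans hc.hNM
  have hNM : N ≠ M := by
    intro h
    apply hc.hnc 1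
    rw [Cfsg.Agent.H63.Sig.cj_one, h]
  have hCN : M ⊓ centralizer (Q : Set G) ≤ N :=
    inf_le_right.trans ((Subgroup.centralizer_le_normalizer _).trans hc.hNN)
  obtain ⟨hne, -⟩ := hLR M N R Q r q hc.hM hr (hRQ.trans hc.hNM) hRcard hc.hq hqα hQM hc.hQq
    hc.hQ1 hRQ hfree hc.hN hNM hCN hα1
  obtain ⟨⟨g, hg⟩, hg1⟩ := (Subgroup.ne_bot_iff_exists_ne_one).mp hne
  have hg1' : g ≠ 1 := fun h => hg1 (Subtype.ext h)
  have ho : orderOf g ≠ 1 := fun h => hg1' (orderOf_eq_one_iff.mp h)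
  obtain ⟨s, hs, hsg⟩ := Nat.exists_prime_and_dvd ho
  have : Fact s.Prime := ⟨hs⟩
  have hxo : orderOf (g ^ (orderOf g / s)) = s :=
    orderOf_pow_orderOf_div (orderOf_pos g).ne' hsg
  have hx : g ^ (orderOf g / s) ∈ alphaCore M ⊓ centralizer (R : Set G) :=
    Subgroup.pow_mem _ hg _
  have hsα : s ∈ alpha M := by
    apply (h05 M hc.hM).1.2.1 s hs
    have := orderOf_dvd_natCard (⟨g ^ (orderOf g / s), hx.1⟩ : alphaCore M)
    rwa [Subgroup.orderOf_mk, hxo] at this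
  have hsσ : s ∈ sigma M := alpha_subset_sigma hG h03 hc.hM hsα
  have hαM : alphaCore M ≤ M := (h05 M hc.hM).1.1
  have hXM : zpowers (g ^ (orderOf g / s)) ≤ M := by
    rw [zpowers_le]; exact hαM hx.1
  have hXcard : Nat.card (zpowers (g ^ (orderOf g / s))) = s := by
    rw [Nat.card_zpowers, hxo]
  obtain ⟨P⟩ : Nonempty (Sylow s ↥(sigmaCore M)) := inferInstance
  obtain ⟨⟨h1, h2⟩, -⟩ := h23 M hc.hM s hsσ (zpowers (g ^ (orderOf g / s))) hXM hXcard P
    (Or.inl (hαβ s hsα))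
  refine ⟨g ^ (orderOf g / s), hx.1, hx.2, ?_, ?_, h1, h2⟩
  · rw [hxo]; exact hs
  · rw [hxo]; exact hsα

end Cfsg.Agent.H32.BG139
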