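import Mathlib
import Cfsg.Agent.Helper55.BG151Defs

set_option autoImplicit false

/-!
# S1360-KAPPA (piece of B&G Lemma 15.1(c) / Theorem A, for helper55), helper32

In a standard factorisation `M = K U M_σ`, `U` contains every element of prime power order
`r ^ k` of `U ⊔ K` with `r ∉ κ(M)`; and `τ₂(M) ∩ κ(M) = ∅`.
-/

namespace Cfsg.Agent.H32.BG151

open Cfsg Subgroup Cfsg.Agent.Helper55.BG151

universe u
variable {G : Type u} [Group G]

/-- If `K` normalizes `U`, then `(u * k) ^ n ∈ U * k ^ n`. -/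
theorem kappa_pow_aux {U K : Subgroup G} (hKU : K ≤ normalizer (U : Set G)) {a k : G}
    (ha : a ∈ U) (hk : k ∈ K) (n : ℕ) : (a * k) ^ n * (k ^ n)⁻¹ ∈ U := by
  induction n with
  | zero => simp
  | succ n ih =>
    have hkn : k ^ n ∈ normalizer (U : Set G) := hKU (K.pow_mem hk n)
    have h1 : k ^ n * a * (k ^ n)⁻¹ ∈ U := (mem_normalizer_iff.mp hkn a).mp ha
    have h2 : (a * k) ^ (n + 1) * (k ^ (n + 1))⁻¹ =
        ((a * k) ^ n * (k ^ n)⁻¹) * (k ^ n * a * (k ^ n)⁻¹) := by
      rw [pow_succ, pow_succ]; group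
    rw [h2]
    exact U.mul_mem ih h1

theorem kappa [Finite G] : StKappa G := by
  intro M K U hM hKU
  refine ⟨?_, ?_⟩
  · intro e he r hr hrκ ⟨j, hj⟩
    have he' : e ∈ ((U ⊔ K : Subgroup G) : Set G) := he
    rw [Subgroup.coe_mul_of_right_le_normalizer_left U K hKU.normal] at he'
    obtain ⟨a, ha, k, hk, hak⟩ := he'
    have hak' : a * k = e := hak
    have h1 := kappa_pow_aux hKU.normal ha hk (r ^ j)
    have h2 : (a * k) ^ (r ^ j) = 1 := by
      rw [hak', ← hj]; exact pow_orderOf_eq_one e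
    rw [h2, one_mul] at h1
    have h3 : k ^ (r ^ j) ∈ U := by
      have := U.inv_mem h1
      simpa using this
    have h4 : k ^ (r ^ j) ∈ U ⊓ (K ⊔ sigmaCore M) :=
      ⟨h3, Subgroup.mem_sup_left (K.pow_mem hk _)⟩
    rw [hKU.compl.2.2.1] at h4
    have h5 : k ^ (r ^ j) = 1 := Subgroup.mem_bot.mp h4
    have hk1 : k = 1 := by
      by_contra hk1
      have ho : orderOf k ≠ 1 := fun h => hk1 (orderOf_eq_one_iff.mp h)
      have hdvd : orderOf k ∣ r ^ j := orderOf_dvd_of_pow_eq_one h5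
      obtain ⟨i, hi, hio⟩ := (Nat.dvd_prime_pow hr).mp hdvd
      have hi0 : i ≠ 0 := by
        intro h
        rw [h, pow_zero] at hio
        exact ho hio
      have hrk : r ∣ orderOf k := by
        rw [hio]; exact dvd_pow_self r hi0
      have hcard : r ∣ Nat.card K := by
        have := orderOf_dvd_natCard (⟨k, hk⟩ : K)
        rw [Subgroup.orderOf_mk] at this
        exact hrk.trans this
      exact hrκ (hKU.hall.2.1 r hr hcard)
    rw [← hak', hk1, mul_one]
    exact ha
  · intro p hpτ hpκ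
    obtain ⟨hp, -, -, hnot⟩ := hpτ
    obtain ⟨-, -, -, hcyc⟩ := hpκ
    haveI : Fact p.Prime := ⟨hp⟩
    apply hnot
    intro A hAcomm hAp
    have hAP : IsPGroup p A := by
      rintro ⟨a, haA⟩
      refine ⟨1, ?_⟩
      apply Subtype.ext
      simpa using hAp a haA
    obtain ⟨P, hP⟩ := hAP.exists_le_sylow
    haveI : IsCyclic (P : Subgroup M) := (hcyc P).1
    haveI : IsCyclic A := Subgroup.isCyclic_of_le hP
    have h1 : Monoid.exponent A = Nat.card A := IsCyclic.exponent_eq_card
    have h2 : Monoid.exponent A ∣ p := by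
      apply Monoid.exponent_dvd_of_forall_pow_eq_one
      rintro ⟨g, hg⟩
      exact Subtype.ext (by simpa using hAp g hg)
    rw [h1] at h2
    rw [pow_one]
    exact Nat.le_of_dvd hp.pos h2

end Cfsg.Agent.H32.BG151
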