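import Mathlib
import Cfsg.Agent.Helper55.BG151Defs
import Cfsg.Agent.H20.BG161CaseI

set_option autoImplicit false

/-!
# S1360-UCASEI (piece of B&G Lemma 15.1(c) / Theorem A, for helper55), helper32

The `U`-version of helper20's `caseI`: the same proof, with the power-map hypothesis only used
for the elements of `U ≤ E`.
-/

namespace Cfsg.Agent.H32.BG151

open Cfsg Subgroup Cfsg.Agent.H58.BG10 Cfsg.Agent.H58.BG12 Cfsg.Agent.H38.BG161
  Cfsg.Agent.H20.BG161 Cfsg.Agent.Helper55.BG151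

universe u
variable {G : Type u} [Group G]

theorem uCaseI [Finite G] (hD : StDec G) (hB : StBasic G) : StUCaseI G := by
  intro M E S A p hpF hAbS hI U hUE hUline
  obtain ⟨hΩ, hCA, hEA, hNA, hreg5, A₁, hA₁A, hA₁card, hA₁reg⟩ := hB M E S A p hAbS
  have hp := (Fact.out : p.Prime)
  obtain ⟨P, hPS⟩ := hAbS.syl
  have hSp : IsPGroup p S := hPS ▸ P.isPGroup'
  have hAel := hAbS.elem
  obtain ⟨m, hm⟩ := hSp.exists_card_eq
  have hpow : ∀ e ∈ U, ∃ t u : ℕ, (∀ s ∈ S, e * s ^ u * e⁻¹ = s) ∧ (∀ s ∈ S, s ^ (t * u) = s) :=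
    fun e he => powmap_on_S hD hAbS hΩ (hAbS.norm (hUE he)) (hUline e he)
  -- a nontrivial element of A₁
  have hA₁ne : A₁ ≠ ⊥ := by
    intro h
    rw [h] at hA₁card
    simp at hA₁card
    exact hp.one_lt.ne hA₁card
  obtain ⟨⟨y, hyA₁⟩, hy1⟩ := (Subgroup.ne_bot_iff_exists_ne_one).mp hA₁ne
  have hy1' : y ≠ 1 := fun h => hy1 (Subtype.ext h)
  have hyA : y ∈ A := hA₁A hyA₁
  -- the exponent of S
  have hexdvd : Monoid.exponent S ∣ p ^ m := hm ▸ Group.exponent_dvd_nat_card
  obtain ⟨a, ha, hex⟩ := (Nat.dvd_prime_pow hp).mp hexdvd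
  have hSex : ∀ s ∈ S, s ^ (p ^ a) = 1 := by
    intro s hs
    have h1 : (⟨s, hs⟩ : S) ^ Monoid.exponent S = 1 := Monoid.pow_exponent_eq_one _
    rw [hex] at h1
    simpa using congrArg Subtype.val h1
  have ha0 : a ≠ 0 := by
    intro h
    rw [h, pow_zero] at hSex
    exact hy1' (by simpa using hSex y (hAbS.AS hyA))
  obtain ⟨a', rfl⟩ := Nat.exists_eq_succ_of_ne_zero ha0
  -- the subgroup B of p^a'-th powers
  let B : Subgroup G :=
    { carrier := {b | ∃ s ∈ S, s ^ (p ^ a') = b}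
      one_mem' := ⟨1, S.one_mem, one_pow _⟩
      mul_mem' := by
        rintro _ _ ⟨s, hs, rfl⟩ ⟨s', hs', rfl⟩
        refine ⟨s * s', S.mul_mem hs hs', ?_⟩
        exact (show Commute s s' from hAbS.comm s hs s' hs').mul_pow _
      inv_mem' := by
        rintro _ ⟨s, hs, rfl⟩
        exact ⟨s⁻¹, S.inv_mem hs, inv_pow _ _⟩ }
  have hBmem : ∀ b, b ∈ B ↔ ∃ s ∈ S, s ^ (p ^ a') = b := fun b => Iff.rfl
  have hBA : B ≤ A := by
    rintro _ ⟨s, hs, rfl⟩
    apply hΩ _ (S.pow_mem hs _)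
    rw [← pow_mul, ← pow_succ]; exact hSex s hs
  have hBne : B ≠ ⊥ := by
    intro h
    have h1 : ∀ g : S, g ^ (p ^ a') = 1 := by
      rintro ⟨s, hs⟩
      have : s ^ (p ^ a') ∈ B := ⟨s, hs, rfl⟩
      rw [h] at this
      exact Subtype.ext (by simpa using this)
    have h2 := Monoid.exponent_dvd_of_forall_pow_eq_one h1
    rw [hex] at h2
    have h3 := (Nat.pow_dvd_pow_iff_le_right hp.one_lt).mp h2
    omega
  have hNB : normalizer (S : Set G) ≤ normalizer (B : Set G) := by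
    intro g hg
    rw [mem_normalizer_iff]
    intro h
    constructor
    · rintro ⟨s, hs, rfl⟩
      refine ⟨g * s * g⁻¹, (mem_normalizer_iff.mp hg s).mp hs, ?_⟩
      rw [conj_pow]
    · rintro ⟨s, hs, hsh⟩
      refine ⟨g⁻¹ * s * g, ?_, ?_⟩
      · have := (mem_normalizer_iff.mp ((normalizer (S : Set G)).inv_mem hg) s).mp hs
        simpa using this
      · have h1 : (g⁻¹ * s * g) ^ (p ^ a') = g⁻¹ * s ^ (p ^ a') * g := by
          have := conj_pow (a := g⁻¹) (b := s) (i := p ^ a')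
          simpa using this
        rw [h1, hsh]; group
  have hBeq : B = A := by
    by_contra hne
    have hcardB := card_eq_prime_of_ne hBA hAbS.card hBne hne
    exact hI B hBA hcardB hNB
  obtain ⟨c, hcS, hcy⟩ : ∃ c ∈ S, c ^ (p ^ a') = y := by
    have : y ∈ B := hBeq ▸ hyA
    exact this
  have hcord : orderOf c = p ^ (a' + 1) :=
    orderOf_eq_prime_pow (by rw [hcy]; exact hy1') (hSex c hcS)
  have hCS : zpowers c ≤ S := by rw [zpowers_le]; exact hcS
  refine ⟨zpowers c, hCS, ?_, ?_, ?_⟩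
  · intro e he
    obtain ⟨t, u, h1, h2⟩ := hpow e he
    exact mem_normalizer_of_powmap hCS h1 h2
  · rw [hex, IsCyclic.exponent_eq_card, Nat.card_zpowers, hcord]
  · -- regularity
    have hyC : y ∈ zpowers c := by rw [← hcy]; exact (zpowers c).pow_mem (mem_zpowers c) _
    have hne1 : (zpowers c ⊓ A : Subgroup G) ≠ ⊥ := by
      intro h
      have : y ∈ (zpowers c ⊓ A : Subgroup G) := ⟨hyC, hyA⟩
      rw [h] at this
      exact hy1' this
    have hne2 : (zpowers c ⊓ A : Subgroup G) ≠ A := by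
      intro h
      have hAle : A ≤ zpowers c := by rw [← h]; exact inf_le_left
      have hcyc : IsCyclic A := Subgroup.isCyclic_of_le hAle
      have h1 : Monoid.exponent A = Nat.card A := IsCyclic.exponent_eq_card
      have h2 : Monoid.exponent A ∣ p := by
        apply Monoid.exponent_dvd_of_forall_pow_eq_one
        rintro ⟨g, hg⟩
        exact Subtype.ext (by simpa using hAel.2 g hg)
      rw [h1, hAbS.card] at h2
      have := Nat.le_of_dvd hp.pos h2
      have := hp.one_lt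
      nlinarith
    have hcard := card_eq_prime_of_ne (inf_le_right : (zpowers c ⊓ A : Subgroup G) ≤ A) hAbS.card hne1 hne2
    have hA₁le : A₁ ≤ (zpowers c ⊓ A : Subgroup G) := by
      intro g hg
      refine ⟨?_, hA₁A hg⟩
      have htop := zpowers_eq_top_of_prime_card hA₁card (g := (⟨y, hyA₁⟩ : A₁)) hy1
      have hmem : (⟨g, hg⟩ : A₁) ∈ zpowers (⟨y, hyA₁⟩ : A₁) := by rw [htop]; exact mem_top _
      obtain ⟨k, hk⟩ := mem_zpowers_iff.mp hmem
      have hk' : y ^ k = g := by simpa using congrArg Subtype.val hk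
      rw [← hk']; exact (zpowers c).zpow_mem hyC k
    have hA₁eq : A₁ = (zpowers c ⊓ A : Subgroup G) :=
      Subgroup.eq_of_le_of_card_ge hA₁le (by rw [hcard, hA₁card])
    exact inf_centralizer_eq_bot_of_socle hSp hCS hΩ hcard (hA₁eq ▸ hA₁reg)

end Cfsg.Agent.H32.BG151
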