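import Mathlib

set_option autoImplicit false

namespace Cfsg.Agent.H32

theorem mem_centralizer_singleton {G : Type*} [Group G] {a g : G} :
    g ∈ Subgroup.centralizer ({a} : Set G) ↔ a * g = g * a := by
  rw [Subgroup.mem_centralizer_iff]
  simp

theorem conj_mem_centralizer_singleton {G : Type*} [Group G] {a c : G} (x : G)
    (hc : c ∈ Subgroup.centralizer ({a} : Set G)) :
    x * c * x⁻¹ ∈ Subgroup.centralizer ({x * a * x⁻¹} : Set G) := by
  rw [mem_centralizer_singleton] at hc ⊢
  calc x * a * x⁻¹ * (x * c * x⁻¹) = x * (a * c) * x⁻¹ := by group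
    _ = x * (c * a) * x⁻¹ := by rw [hc]
    _ = x * c * x⁻¹ * (x * a * x⁻¹) := by group

theorem orderOf_conj' {G : Type*} [Group G] (x c : G) : orderOf (x * c * x⁻¹) = orderOf c := by
  have := MulEquiv.orderOf_eq (MulAut.conj x) c
  simpa [MulAut.conj_apply] using this

end Cfsg.Agent.H32
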