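import Mathlib

set_option autoImplicit false

namespace Cfsg.Agent.H32

open scoped commutatorElement

/-- The descending chain `B₀ = H₁`, `B_{n+1} = ⁅B_n, H⁆ ⊔ M`. -/
def cchain {L : Type*} [Group L] (M H₁ H : Subgroup L) : ℕ → Subgroup L
  | 0 => H₁
  | n + 1 => ⁅cchain M H₁ H n, H⁆ ⊔ M

theorem cchain_zero {L : Type*} [Group L] (M H₁ H : Subgroup L) :
    cchain M H₁ H 0 = H₁ := rfl

theorem cchain_succ {L : Type*} [Group L] (M H₁ H : Subgroup L) (n : ℕ) :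
    cchain M H₁ H (n + 1) = ⁅cchain M H₁ H n, H⁆ ⊔ M := rfl

theorem cchain_normal {L : Type*} [Group L] (M H₁ H : Subgroup L) [M.Normal] [H₁.Normal]
    [H.Normal] (n : ℕ) : (cchain M H₁ H n).Normal := by
  induction n with
  | zero => exact inferInstanceAs H₁.Normal
  | succ n ih =>
    haveI := ih
    rw [cchain_succ]
    infer_instance

theorem cchain_ge {L : Type*} [Group L] (M H₁ H : Subgroup L) (hMH₁ : M ≤ H₁) (n : ℕ) :
    M ≤ cchain M H₁ H n := by
  cases n with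
  | zero => exact hMH₁
  | succ n => exact le_sup_right

theorem cchain_succ_le {L : Type*} [Group L] (M H₁ H : Subgroup L) [M.Normal] [H₁.Normal]
    [H.Normal] (hMH₁ : M ≤ H₁) (n : ℕ) : cchain M H₁ H (n + 1) ≤ cchain M H₁ H n := by
  haveI := cchain_normal M H₁ H n
  exact sup_le (Subgroup.commutator_le_left _ _) (cchain_ge M H₁ H hMH₁ n)

theorem cchain_le {L : Type*} [Group L] (M H₁ H : Subgroup L) [M.Normal] [H₁.Normal]
    [H.Normal] (hMH₁ : M ≤ H₁) (n : ℕ) : cchain M H₁ H n ≤ H₁ := by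
  induction n with
  | zero => exact le_rfl
  | succ n ih => exact (cchain_succ_le M H₁ H hMH₁ n).trans ih

theorem cchain_comm {L : Type*} [Group L] (M H₁ H : Subgroup L) (n : ℕ) :
    ∀ x ∈ cchain M H₁ H n, ∀ y ∈ H, x * y * x⁻¹ * y⁻¹ ∈ cchain M H₁ H (n + 1) := by
  intro x hx y hy
  have h : ⁅x, y⁆ ∈ ⁅cchain M H₁ H n, H⁆ := Subgroup.commutator_mem_commutator hx hy
  rw [commutatorElement_def] at h
  exact (le_sup_left : ⁅cchain M H₁ H n, H⁆ ≤ ⁅cchain M H₁ H n, H⁆ ⊔ M) h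

theorem cchain_eventually {L : Type*} [Group L] (M H₁ H : Subgroup L) (hMH₁ : M ≤ H₁)
    (hH₁H : H₁ ≤ H) [(M.subgroupOf H).Normal]
    (hnil : Group.IsNilpotent (↥H ⧸ M.subgroupOf H)) : ∃ n, cchain M H₁ H n = M := by
  obtain ⟨N, hN⟩ := Subgroup.nilpotent_iff_lowerCentralSeries.mp hnil
  have key : ∀ n, ∀ x ∈ cchain M H₁ H n, ∃ hx : x ∈ H,
      (QuotientGroup.mk' (M.subgroupOf H) ⟨x, hx⟩) ∈
        (⊤ : Subgroup (↥H ⧸ M.subgroupOf H)).lowerCentralSeries n := by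
    intro n
    induction n with
    | zero =>
      intro x hx
      exact ⟨hH₁H hx, Subgroup.mem_top _⟩
    | succ n ih =>
      have hle : ⁅cchain M H₁ H n, H⁆ ⊔ M ≤
          (((⊤ : Subgroup (↥H ⧸ M.subgroupOf H)).lowerCentralSeries (n + 1)).comap
            (QuotientGroup.mk' (M.subgroupOf H))).map H.subtype := by
        refine sup_le (Subgroup.commutator_le.mpr ?_) ?_
        · intro b hb h hh
          obtain ⟨hbH, hb'⟩ := ih b hb
          refine Subgroup.mem_map.mpr ⟨⁅(⟨b, hbH⟩ : ↥H), (⟨h, hh⟩ : ↥H)⁆, ?_, rfl⟩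
          rw [Subgroup.mem_comap, map_commutatorElement]
          exact Subgroup.commutator_mem_commutator hb' (Subgroup.mem_top _)
        · intro m hm
          refine Subgroup.mem_map.mpr ⟨⟨m, hH₁H (hMH₁ hm)⟩, ?_, rfl⟩
          rw [Subgroup.mem_comap]
          have : (QuotientGroup.mk' (M.subgroupOf H)) ⟨m, hH₁H (hMH₁ hm)⟩ = 1 := by
            rw [QuotientGroup.mk'_apply, QuotientGroup.eq_one_iff]
            exact Subgroup.mem_subgroupOf.mpr hm
          rw [this]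
          exact Subgroup.one_mem _
      intro x hx
      obtain ⟨y, hy, rfl⟩ := Subgroup.mem_map.mp (hle hx)
      exact ⟨y.2, hy⟩
  refine ⟨N, le_antisymm ?_ (cchain_ge M H₁ H hMH₁ N)⟩
  intro x hx
  obtain ⟨hxH, hx'⟩ := key N x hx
  rw [hN, Subgroup.mem_bot, QuotientGroup.mk'_apply, QuotientGroup.eq_one_iff] at hx'
  exact Subgroup.mem_subgroupOf.mp hx'

theorem num_6_5 (l k h : ℕ) (hk : 0 < k) (hh : 4 * l ^ 2 + 1 < h) :
    4 * (k * l) ^ 2 * h < (h * k - 1) ^ 2 := by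
  obtain ⟨h', rfl⟩ : ∃ h', h = h' + 1 := ⟨h - 1, by omega⟩
  have h1 : h' * k ≤ (h' + 1) * k - 1 := by
    have : (h' + 1) * k = h' * k + k := by ring
    omega
  have h2 : (4 * l ^ 2 + 1) * h' ≤ h' * h' := Nat.mul_le_mul_right _ (by omega)
  have h3 : 4 * l ^ 2 + 1 ≤ h' := by omega
  have hk2 : 0 < k ^ 2 := Nat.pow_pos hk
  calc 4 * (k * l) ^ 2 * (h' + 1) < (h' * k) ^ 2 := by
        nlinarith [Nat.mul_le_mul_right (k ^ 2) h2, Nat.mul_le_mul_right (k ^ 2) h3, hk2]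
    _ ≤ _ := Nat.pow_le_pow_left h1 2

end Cfsg.Agent.H32
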