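import Mathlib
import Cfsg.Agent.H32.Basic

set_option autoImplicit false

namespace Cfsg.Agent.H32

/-- If `g` normalises `H` and `s ∈ H g`, then `s ^ k ∈ H g ^ k` for all integers `k`. -/
theorem mul_inv_mem_zpow {G : Type*} [Group G] (H : Subgroup G) {g s : G}
    (hg : g ∈ Subgroup.normalizer (H : Set G)) (hs : s * g⁻¹ ∈ H) (k : ℤ) :
    s ^ k * (g ^ k)⁻¹ ∈ H := by
  have hconj : ∀ (j : ℤ) (y : G), y ∈ H → g ^ j * y * (g ^ j)⁻¹ ∈ H := by
    intro j y hy
    have : g ^ j ∈ Subgroup.normalizer (H : Set G) := Subgroup.zpow_mem _ hg j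
    exact (Subgroup.mem_set_normalizer_iff.mp this y).mp hy
  induction k using Int.induction_on with
  | zero => simp
  | succ i ih =>
    have : s ^ ((i : ℤ) + 1) * (g ^ ((i : ℤ) + 1))⁻¹ =
        (s ^ (i : ℤ) * (g ^ (i : ℤ))⁻¹) * (g ^ (i : ℤ) * (s * g⁻¹) * (g ^ (i : ℤ))⁻¹) := by
      rw [zpow_add_one, zpow_add_one]; group
    rw [this]; exact H.mul_mem ih (hconj _ _ hs)
  | pred i ih =>
    have : s ^ (-(i : ℤ) - 1) * (g ^ (-(i : ℤ) - 1))⁻¹ =
        (s ^ (-(i : ℤ)) * (g ^ (-(i : ℤ)))⁻¹) *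
          (g ^ (-(i : ℤ) - 1) * (s * g⁻¹)⁻¹ * (g ^ (-(i : ℤ) - 1))⁻¹) := by
      rw [zpow_sub_one, zpow_sub_one]; group
    rw [this]; exact H.mul_mem ih (hconj _ _ (H.inv_mem hs))

/-- Fixed point step: for a prime `p` not dividing `|H|`, if `t` normalises `H`, `r ∈ H t` and
both `r`, `t` have order dividing `p ^ a`, then `r` is `H`-conjugate to `t`. -/
theorem conj_of_prime_pow {G : Type*} [Group G] [Finite G] (H : Subgroup G) (p a : ℕ)
    (hp : p.Prime) (hpH : ¬ p ∣ Nat.card H) (t r : G)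
    (ht : t ∈ Subgroup.normalizer (H : Set G))
    (htq : t ^ (p ^ a) = 1) (hrq : r ^ (p ^ a) = 1) (hrt : r * t⁻¹ ∈ H) :
    ∃ x ∈ H, x * r * x⁻¹ = t := by
  classical
  have : Fintype H := Fintype.ofFinite H
  have : Fact p.Prime := ⟨hp⟩
  have hn1 : ∀ y : G, y ∈ H → t * y * t⁻¹ ∈ H := fun y hy =>
    (Subgroup.mem_set_normalizer_iff.mp ht y).mp hy
  have hn2 : ∀ y : G, y ∈ H → t⁻¹ * y * t ∈ H := fun y hy => by
    have := (Subgroup.mem_set_normalizer_iff.mp (Subgroup.inv_mem _ ht) y).mp hy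
    simpa using this
  have hm1 : ∀ y : G, y ∈ H → r * y * t⁻¹ ∈ H := fun y hy => by
    have : r * y * t⁻¹ = (r * t⁻¹) * (t * y * t⁻¹) := by group
    rw [this]; exact H.mul_mem hrt (hn1 y hy)
  have hm2 : ∀ y : G, y ∈ H → r⁻¹ * y * t ∈ H := fun y hy => by
    have : r⁻¹ * y * t = t⁻¹ * ((r * t⁻¹)⁻¹ * y) * t := by group
    rw [this]; exact hn2 _ (H.mul_mem (H.inv_mem hrt) hy)
  let σ : Equiv.Perm H :=
    { toFun := fun y => ⟨r * y * t⁻¹, hm1 y y.2⟩
      invFun := fun y => ⟨r⁻¹ * y * t, hm2 y y.2⟩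
      left_inv := fun y => by apply Subtype.ext; simp; group
      right_inv := fun y => by apply Subtype.ext; simp; group }
  have hσ : ∀ (k : ℕ) (y : H), (((σ ^ k) y : H) : G) = r ^ k * y * (t ^ k)⁻¹ := by
    intro k
    induction k with
    | zero => intro y; simp
    | succ k ih =>
      intro y
      rw [pow_succ', Equiv.Perm.mul_apply]
      show r * ((σ ^ k) y : G) * t⁻¹ = _
      rw [ih y, pow_succ', pow_succ']
      group
  have hσq : σ ^ p ^ a = 1 := by
    ext y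
    rw [hσ, htq, hrq]
    simp
  have hcard : ¬ p ∣ Fintype.card H := by
    rwa [← Nat.card_eq_fintype_card]
  obtain ⟨y, hy⟩ := Equiv.Perm.exists_fixed_point_of_prime hcard hσq
  have hy' : r * (y : G) * t⁻¹ = y := congrArg Subtype.val hy
  refine ⟨(y : G)⁻¹, H.inv_mem y.2, ?_⟩
  calc (y : G)⁻¹ * r * (y : G)⁻¹⁻¹ = (y : G)⁻¹ * (r * y * t⁻¹) * t := by group
    _ = t := by rw [hy']; group

/-- Conjugacy of "cyclic complements": if `g` normalises `H`, `g ^ N = 1` with `N` coprime to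
`|H|`, and `s ∈ H g` also satisfies `s ^ N = 1`, then `s` is `H`-conjugate to `g`. -/
theorem conj_of_coprime_aux {G : Type*} [Group G] [Finite G] :
    ∀ (N : ℕ) (H : Subgroup G) (g s : G), g ∈ Subgroup.normalizer (H : Set G) → g ^ N = 1 →
      Nat.Coprime N (Nat.card H) → s * g⁻¹ ∈ H → s ^ N = 1 → ∃ x ∈ H, x * s * x⁻¹ = g := by
  intro N
  induction N using Nat.strong_induction_on with
  | _ N ih =>
    intro H g s hg hgN hcop hs hsN
    rcases Nat.lt_or_ge N 2 with hN | hN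
    · interval_cases N
      · have hH : Nat.card H = 1 := by simpa using hcop
        have hbot : H = ⊥ := Subgroup.card_eq_one.mp hH
        have h1 : s * g⁻¹ = 1 := by
          rw [hbot] at hs; simpa using hs
        exact ⟨1, H.one_mem, by simp [mul_inv_eq_one.mp h1]⟩
      · have hg1 : g = 1 := by simpa using hgN
        have hs1 : s = 1 := by simpa using hsN
        exact ⟨1, H.one_mem, by simp [hg1, hs1]⟩
    · obtain ⟨p, hp, hpN⟩ := Nat.exists_prime_and_dvd (show N ≠ 1 by omega)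
      obtain ⟨a, N', hpN', rfl⟩ :=
        Nat.exists_eq_pow_mul_and_not_dvd (show N ≠ 0 by omega) p hp.ne_one
      have ha : a ≠ 0 := by
        rintro rfl
        simp at hpN
        exact hpN' hpN
      have hcopN : Nat.Coprime (p ^ a) N' :=
        Nat.Coprime.pow_left a ((Nat.Prime.coprime_iff_not_dvd hp).mpr hpN')
      have hN'pos : 0 < N' := by
        rcases Nat.eq_zero_or_pos N' with h0 | h0
        · subst h0; omega
        · exact h0
      have hpa : 2 ≤ p ^ a := by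
        calc 2 ≤ p := hp.two_le
          _ = p ^ 1 := (pow_one p).symm
          _ ≤ p ^ a := Nat.pow_le_pow_right hp.pos (Nat.one_le_iff_ne_zero.mpr ha)
      have hN'lt : N' < p ^ a * N' := by nlinarith
      obtain ⟨α, β, hαβ⟩ : ∃ α β : ℤ, α * ((p ^ a : ℕ) : ℤ) + β * (N' : ℤ) = 1 := by
        obtain ⟨α, β, h⟩ := Nat.Coprime.isCoprime hcopN
        exact ⟨α, β, h⟩
      have key1 : ∀ z : G, z ^ (p ^ a * N') = 1 → (z ^ (β * (N' : ℤ))) ^ (p ^ a) = 1 := by
        intro z hz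
        rw [← zpow_natCast, ← zpow_mul]
        have : β * (N' : ℤ) * ((p ^ a : ℕ) : ℤ) = ((p ^ a * N' : ℕ) : ℤ) * β := by
          push_cast; ring
        rw [this, zpow_mul, zpow_natCast, hz, one_zpow]
      have key2 : ∀ z : G, z ^ (p ^ a * N') = 1 → (z ^ (α * ((p ^ a : ℕ) : ℤ))) ^ N' = 1 := by
        intro z hz
        rw [← zpow_natCast, ← zpow_mul]
        have : α * ((p ^ a : ℕ) : ℤ) * (N' : ℤ) = ((p ^ a * N' : ℕ) : ℤ) * α := by
          push_cast; ring
        rw [this, zpow_mul, zpow_natCast, hz, one_zpow]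
      have key3 : ∀ z : G, z ^ (α * ((p ^ a : ℕ) : ℤ)) * z ^ (β * (N' : ℤ)) = z := by
        intro z
        rw [← zpow_add, hαβ, zpow_one]
      set t := g ^ (β * (N' : ℤ)) with ht
      set t' := g ^ (α * ((p ^ a : ℕ) : ℤ)) with ht'
      set r := s ^ (β * (N' : ℤ)) with hr
      set r' := s ^ (α * ((p ^ a : ℕ) : ℤ)) with hr'
      have htn : t ∈ Subgroup.normalizer (H : Set G) := Subgroup.zpow_mem _ hg _
      have ht'n : t' ∈ Subgroup.normalizer (H : Set G) := Subgroup.zpow_mem _ hg _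
      have hrt : r * t⁻¹ ∈ H := mul_inv_mem_zpow H hg hs _
      have hr't' : r' * t'⁻¹ ∈ H := mul_inv_mem_zpow H hg hs _
      have hpH : ¬ p ∣ Nat.card H := by
        intro hd
        have h1 : p ∣ Nat.gcd (p ^ a * N') (Nat.card H) :=
          Nat.dvd_gcd (dvd_mul_of_dvd_left (dvd_pow_self p ha) _) hd
        rw [Nat.Coprime] at hcop
        rw [hcop] at h1
        exact hp.one_lt.ne' (Nat.dvd_one.mp h1)
      obtain ⟨x, hx, hxr⟩ := conj_of_prime_pow H p a hp hpH t r htn (key1 g hgN) (key1 s hsN) hrt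
      have hcomm_t : Commute t' t := (Commute.refl g).zpow_zpow _ _
      have hcomm_r : Commute r' r := (Commute.refl s).zpow_zpow _ _
      have hcomm1 : Commute (x * r' * x⁻¹) t := by
        rw [← hxr]
        show (x * r' * x⁻¹) * (x * r * x⁻¹) = (x * r * x⁻¹) * (x * r' * x⁻¹)
        have := hcomm_r.eq
        calc (x * r' * x⁻¹) * (x * r * x⁻¹) = x * (r' * r) * x⁻¹ := by group
          _ = x * (r * r') * x⁻¹ := by rw [this]
          _ = (x * r * x⁻¹) * (x * r' * x⁻¹) := by group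
      have ht'n₁ : t' ∈ Subgroup.normalizer
          ((H ⊓ Subgroup.centralizer ({t} : Set G) : Subgroup G) : Set G) := by
        apply Subgroup.mem_normalizer_fintype
        rintro y ⟨hy1, hy2⟩
        refine ⟨(Subgroup.mem_set_normalizer_iff.mp ht'n y).mp hy1, ?_⟩
        have hy2' : t * y = y * t := mem_centralizer_singleton.mp hy2
        show t' * y * t'⁻¹ ∈ Subgroup.centralizer ({t} : Set G)
        rw [mem_centralizer_singleton]
        have hc1 : Commute t y := hy2'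
        exact ((hcomm_t.symm.mul_right hc1).mul_right hcomm_t.symm.inv_right).eq
      have hr₁' : (x * r' * x⁻¹) * t'⁻¹ ∈ H ⊓ Subgroup.centralizer ({t} : Set G) := by
        constructor
        · have e : (x * r' * x⁻¹) * t'⁻¹ = x * (r' * t'⁻¹) * (t' * x⁻¹ * t'⁻¹) := by group
          rw [e]
          exact H.mul_mem (H.mul_mem hx hr't')
            ((Subgroup.mem_set_normalizer_iff.mp ht'n _).mp (H.inv_mem hx))
        · show (x * r' * x⁻¹) * t'⁻¹ ∈ Subgroup.centralizer ({t} : Set G)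
          rw [mem_centralizer_singleton]
          exact ((hcomm1.mul_left hcomm_t.inv_left).symm).eq
      have hcop' : Nat.Coprime N' (Nat.card ↥(H ⊓ Subgroup.centralizer ({t} : Set G))) := by
        apply Nat.Coprime.coprime_dvd_left (Dvd.intro_left (p ^ a) rfl)
        exact Nat.Coprime.coprime_dvd_right (Subgroup.card_dvd_of_le inf_le_left) hcop
      have hr₁'N : (x * r' * x⁻¹) ^ N' = 1 := by
        rw [conj_pow, key2 s hsN]; group
      obtain ⟨x₁, hx₁, hx₁r⟩ := ih N' hN'lt (H ⊓ Subgroup.centralizer ({t} : Set G)) t'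
        (x * r' * x⁻¹) ht'n₁ (key2 g hgN) hcop' hr₁' hr₁'N
      refine ⟨x₁ * x, H.mul_mem hx₁.1 hx, ?_⟩
      have hx₁t : t * x₁ = x₁ * t := mem_centralizer_singleton.mp hx₁.2
      have hs_eq : s = r' * r := (key3 s).symm
      have hg_eq : g = t' * t := (key3 g).symm
      calc x₁ * x * s * (x₁ * x)⁻¹ = x₁ * x * (r' * r) * (x₁ * x)⁻¹ := by rw [← hs_eq]
        _ = (x₁ * (x * r' * x⁻¹) * x₁⁻¹) * (x₁ * (x * r * x⁻¹) * x₁⁻¹) := by group
        _ = t' * (x₁ * t * x₁⁻¹) := by rw [hx₁r, hxr]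
        _ = t' * (t * x₁ * x₁⁻¹) := by rw [hx₁t]
        _ = t' * t := by group
        _ = g := hg_eq.symm

/-- If `g` normalises `H` with order coprime to `|H|`, then every element of the coset `H g` is
`H`-conjugate to an element `c * g` with `c ∈ C_H(g)`. -/
theorem exists_conj_mem_centralizer_coset {G : Type*} [Group G] [Finite G] (H : Subgroup G)
    (g : G) (hg : g ∈ Subgroup.normalizer (H : Set G))
    (hcop : Nat.Coprime (orderOf g) (Nat.card H)) (h : G) (hh : h ∈ H) :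
    ∃ x ∈ H, ∃ c ∈ H, c * g = g * c ∧ x * (h * g) * x⁻¹ = c * g := by
  set n := orderOf g with hn
  set m := Nat.card H with hm
  obtain ⟨α, β, hαβ⟩ : ∃ α β : ℤ, α * (n : ℤ) + β * (m : ℤ) = 1 := by
    obtain ⟨α, β, h⟩ := Nat.Coprime.isCoprime hcop
    exact ⟨α, β, h⟩
  set y := h * g with hy
  have hyg : y * g⁻¹ ∈ H := by simpa [hy] using hh
  have hyn : y ^ n ∈ H := by
    have := mul_inv_mem_zpow H hg hyg (n : ℤ)
    rw [zpow_natCast, zpow_natCast, hn, pow_orderOf_eq_one] at this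
    simpa using this
  have hynm : y ^ (n * m) = 1 := by
    rw [pow_mul]
    have : (⟨y ^ n, hyn⟩ : H) ^ m = 1 := by
      rw [hm]; exact pow_card_eq_one'
    simpa using congrArg Subtype.val this
  set u := y ^ (α * (n : ℤ)) with hu
  set s := y ^ (β * (m : ℤ)) with hs
  have hsu : s * u = y := by
    rw [← zpow_add, add_comm, hαβ, zpow_one]
  have huH : u ∈ H := by
    rw [hu, mul_comm, zpow_mul, zpow_natCast]
    exact H.zpow_mem hyn α
  have hsn : s ^ n = 1 := by
    rw [hs, ← zpow_natCast, ← zpow_mul]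
    have : β * (m : ℤ) * (n : ℤ) = ((n * m : ℕ) : ℤ) * β := by push_cast; ring
    rw [this, zpow_mul, zpow_natCast, hynm, one_zpow]
  have hsg : s * g⁻¹ ∈ H := by
    have hs' : s = y * u⁻¹ := by rw [← hsu]; group
    have e : s * g⁻¹ = h * (g * u⁻¹ * g⁻¹) := by rw [hs', hy]; group
    rw [e]
    exact H.mul_mem hh ((Subgroup.mem_set_normalizer_iff.mp hg _).mp (H.inv_mem huH))
  obtain ⟨x, hx, hxs⟩ := conj_of_coprime_aux n H g s hg (pow_orderOf_eq_one g) hcop hsg hsn
  have hxu : x * u * x⁻¹ ∈ H := H.mul_mem (H.mul_mem hx huH) (H.inv_mem hx)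
  have hcomm : Commute s u := (Commute.refl y).zpow_zpow _ _
  have hcg : (x * u * x⁻¹) * g = g * (x * u * x⁻¹) := by
    rw [← hxs]
    calc (x * u * x⁻¹) * (x * s * x⁻¹) = x * (u * s) * x⁻¹ := by group
      _ = x * (s * u) * x⁻¹ := by rw [hcomm.eq]
      _ = (x * s * x⁻¹) * (x * u * x⁻¹) := by group
  refine ⟨x, hx, x * u * x⁻¹, hxu, hcg, ?_⟩
  rw [hcg, ← hxs]
  calc x * y * x⁻¹ = x * (s * u) * x⁻¹ := by rw [hsu]
    _ = x * s * x⁻¹ * (x * u * x⁻¹) := by group

end Cfsg.Agent.H32
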