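import Cfsg.Agent.H87.CrDefs
import Cfsg.Agent.H15.CrIMG
import Cfsg.Agent.H15.CrEXT

set_option autoImplicit false

/-!
# helper32: piece CR-PEL of S5141 (Craven's theorem, helper87's project)

The `p`-elements of `Aut_E(P)`, `P` centric in `E`, are good maps.
-/

namespace Cfsg.Agent.H32.Cr

open Cfsg Cfsg.FusionSystem Cfsg.Agent.H86 Cfsg.Agent.H87 Cfsg.Agent.H87.Cr
open scoped Pointwise

variable {Ω : Type*} [Group Ω] {S T : Subgroup Ω}

/-- Sylow: a `p`-element `α` of `Aut_E(P)` is carried, by a map `κ` of `E` on `P` (onto a fully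
normalized subgroup), to the conjugation by an element `t` of `T`. -/
theorem exists_conj_of_pElement [Finite T] {p : ℕ} [Fact p.Prime] (hT : IsPGroup p T)
    {E : FusionSystem T} (hE : E.IsSaturated p) {P : Subgroup Ω} (hPT : P ≤ T) (α : MulAut P)
    (hα : α ∈ E.autGroup P) (k : ℕ) (hk : α ^ p ^ k = 1) :
    ∃ (κ : Ω → Ω) (t : Ω), Mor E P κ ∧ t ∈ T ∧
      ∀ x ∈ P, κ (autFun P α x) = t * κ x * t⁻¹ := by
  obtain ⟨Q₀, hPQ, hfn⟩ := exists_fullyNormalized_conj E hPT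
  obtain ⟨hQ₀T, R, hR⟩ := (saturated_fullyNormalized hT hE hfn).2
  obtain ⟨ω, hω, himg⟩ := isConj_iff.1 hPQ
  have : Finite Q₀ := finite_of_le hQ₀T
  let e : P ≃* Q₀ := isoEquiv hω himg
  have he : ∀ x : P, ((e x : Q₀) : Ω) = ω x := isoEquiv_apply hω himg
  have hβ : MulAut.congr e α ∈ E.autGroup Q₀ := congr_mem_autGroup hω himg e he hα
  have hβk : (MulAut.congr e α) ^ p ^ k = 1 := by
    rw [← map_pow, hk, map_one]
  let b : E.autGroup Q₀ := ⟨MulAut.congr e α, hβ⟩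
  have hbk : b ^ p ^ k = 1 := Subtype.ext hβk
  have hZ : IsPGroup p (Subgroup.zpowers b) := by
    rintro ⟨g, hg⟩
    obtain ⟨n, rfl⟩ := Subgroup.mem_zpowers_iff.1 hg
    refine ⟨k, Subtype.ext ?_⟩
    show (b ^ n) ^ p ^ k = 1
    rw [← zpow_natCast, ← zpow_mul, mul_comm, zpow_mul, zpow_natCast, hbk, one_zpow]
  obtain ⟨R', hR'⟩ := hZ.exists_le_sylow
  obtain ⟨a, ha⟩ := MulAction.exists_smul_eq (E.autGroup Q₀) R' R
  have haMor : Mor E Q₀ (autFun Q₀ (a : MulAut Q₀)) := (mem_autGroup_iff hQ₀T _).1 a.2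
  have hbR' : b ∈ (R' : Subgroup (E.autGroup Q₀)) := hR' (Subgroup.mem_zpowers b)
  have h3 : MulAut.conj a • b ∈ MulAut.conj a • (R' : Subgroup (E.autGroup Q₀)) :=
    Subgroup.smul_mem_pointwise_smul _ _ _ hbR'
  rw [← Sylow.coe_subgroup_smul, ha, hR, MulAut.smul_def, MulAut.conj_apply,
    Subgroup.mem_subgroupOf] at h3
  obtain ⟨t, htT, Ht⟩ := (mem_autInducedBy_iff T Q₀ _).1 h3
  refine ⟨autFun Q₀ (a : MulAut Q₀) ∘ ω, t, hω.comp haMor (fun x hx => ?_), htT,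
    fun x hx => ?_⟩
  · rw [← himg]
    exact hω.mem_imgS_of_mem hx
  · have hαx : autFun P α x = ((α ⟨x, hx⟩ : P) : Ω) := autFun_of_mem α hx
    show autFun Q₀ (a : MulAut Q₀) (ω (autFun P α x)) =
      t * autFun Q₀ (a : MulAut Q₀) (ω x) * t⁻¹
    rw [hαx, ← he, ← he ⟨x, hx⟩, autFun_apply, autFun_apply]
    have h4 := Ht ((a : MulAut Q₀) (e ⟨x, hx⟩))
    rw [← h4]
    show _ = ((((a : MulAut Q₀) * MulAut.congr e α * (a : MulAut Q₀)⁻¹)
      ((a : MulAut Q₀) (e ⟨x, hx⟩)) : Q₀) : Ω)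
    have e3 : ((a : MulAut Q₀) * MulAut.congr e α * (a : MulAut Q₀)⁻¹)
        ((a : MulAut Q₀) (e ⟨x, hx⟩)) = (a : MulAut Q₀) (MulAut.congr e α (e ⟨x, hx⟩)) := by
      show (a : MulAut Q₀) (MulAut.congr e α ((a : MulAut Q₀)⁻¹ ((a : MulAut Q₀) (e ⟨x, hx⟩))))
        = _
      have : (a : MulAut Q₀)⁻¹ ((a : MulAut Q₀) (e ⟨x, hx⟩)) = e ⟨x, hx⟩ := by
        show ((a : MulAut Q₀)⁻¹ * (a : MulAut Q₀)) (e ⟨x, hx⟩) = _
        rw [inv_mul_cancel]
        rfl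
      rw [this]
    rw [e3, congr_apply_apply]

/-- CR-PEL with the pieces IMG and EXT as hypotheses. -/
theorem goodOn_pElement_aux [Finite S] {p : ℕ} [Fact p.Prime] (hS : IsPGroup p S)
    {F : FusionSystem S} {E : FusionSystem T} (hE : E.IsWeaklyNormalIn F p)
    (hIMG : ∀ {P : Subgroup Ω}, E.IsCentric P → ∀ {l : Ω → Ω},
      Mor F (P ⊔ centralizerIn S T) l →
      imgS (P ⊔ centralizerIn S T) l = imgS P l ⊔ centralizerIn S T)
    (hEXT : ∀ {Q : Subgroup Ω}, E.IsCentric Q → ∀ {f : Ω → Ω}, Mor F Q f →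
      ∃ l, Mor F (Q ⊔ centralizerIn S T) l ∧ ∀ x ∈ Q, l x = f x)
    {P : Subgroup Ω} (hP : E.IsCentric P) (α : MulAut P) (hα : α ∈ E.autGroup P) (k : ℕ)
    (hk : orderOf α = p ^ k) : GoodOn F T P (autFun P α) := by
  have hTS : T ≤ S := hE.2.2.2.1.1
  obtain ⟨hsub, hsc, hai, hfr⟩ := (isInvariantIn_iff hTS).1 hE.2.2
  have hPT : P ≤ T := hP.1
  have : Finite T := finite_of_le hTS
  have hT : IsPGroup p T := hS.to_le hTS
  have hαk : α ^ p ^ k = 1 := by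
    rw [← hk]
    exact pow_orderOf_eq_one α
  obtain ⟨κ, t, hκE, htT, hrel⟩ := exists_conj_of_pElement hT hE.1 hPT α hα k hαk
  have hQc : E.IsCentric (imgS P κ) := isCentric_of_isConj hP (isConj_iff.2 ⟨κ, hκE, rfl⟩)
  have hQT : imgS P κ ≤ T := hQc.1
  have hκ : Mor F P κ := mor_of_subsystem hsub hκE
  have hθ : Mor F (imgS P κ) (invOn P κ) := hκ.inv
  have hθimg : imgS (imgS P κ) (invOn P κ) = P := hκ.imgS_inv
  obtain ⟨θ', hθ', hθ'eq⟩ := hEXT hQc hθ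
  have himg' : imgS (imgS P κ ⊔ centralizerIn S T) θ' = P ⊔ centralizerIn S T := by
    rw [hIMG hQc hθ', Mor.imgS_congr (hθ'.restrict le_sup_left) hθ'eq, hθimg]
  -- conjugation by `t` on `Q ⊔ X`
  have hcQ : ∀ q ∈ imgS P κ, t * q * t⁻¹ ∈ imgS P κ := by
    intro q hq
    obtain ⟨x, hx, rfl⟩ := hκ.mem_imgS.1 hq
    rw [← hrel x hx]
    exact hκ.mem_imgS_of_mem (autFun_mem α hx)
  have hcX : ∀ c ∈ centralizerIn S T, t * c * t⁻¹ = c := by
    intro c hc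
    have h := (mem_centralizerIn_iff.1 hc).2 t htT
    rw [h, mul_assoc, mul_inv_cancel, mul_one]
  have hcQX : ∀ u ∈ imgS P κ ⊔ centralizerIn S T,
      t * u * t⁻¹ ∈ imgS P κ ⊔ centralizerIn S T := by
    intro u hu
    obtain ⟨q, hq, c, hc, rfl⟩ := mem_sup_cent hQT hu
    have e1 : t * (q * c) * t⁻¹ = (t * q * t⁻¹) * (t * c * t⁻¹) := by group
    rw [e1, hcX c hc]
    exact Subgroup.mul_mem _ (Subgroup.mem_sup_left (hcQ q hq)) (Subgroup.mem_sup_right hc)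
  have h1 : Mor F (P ⊔ centralizerIn S T) (invOn (imgS P κ ⊔ centralizerIn S T) θ') := by
    have := hθ'.inv
    rwa [himg'] at this
  have hmem1 : ∀ y ∈ P ⊔ centralizerIn S T,
      invOn (imgS P κ ⊔ centralizerIn S T) θ' y ∈ imgS P κ ⊔ centralizerIn S T := by
    intro y hy
    exact hθ'.invOn_mem (by rw [himg']; exact hy)
  have h2 : Mor F (P ⊔ centralizerIn S T)
      ((fun x => t * x * t⁻¹) ∘ invOn (imgS P κ ⊔ centralizerIn S T) θ') :=
    h1.comp (Mor.conj F hθ'.le (hTS htT)) hmem1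
  have h3 : Mor F (P ⊔ centralizerIn S T)
      (θ' ∘ ((fun x => t * x * t⁻¹) ∘ invOn (imgS P κ ⊔ centralizerIn S T) θ')) :=
    h2.comp hθ' (fun y hy => hcQX _ (hmem1 y hy))
  refine ⟨_, h3, fun x hx => ?_, fun c hc => ?_⟩
  · -- on `P`
    have hq : κ x ∈ imgS P κ := hκ.mem_imgS_of_mem hx
    have hq' : κ x ∈ imgS P κ ⊔ centralizerIn S T := Subgroup.mem_sup_left hq
    have e1 : θ' (κ x) = x := by
      rw [hθ'eq _ hq, invOn_apply hκ.injOn hx]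
    have e2 : invOn (imgS P κ ⊔ centralizerIn S T) θ' x = κ x := by
      conv_lhs => rw [← e1]
      exact invOn_apply hθ'.injOn hq'
    show θ' (t * invOn (imgS P κ ⊔ centralizerIn S T) θ' x * t⁻¹) = autFun P α x
    rw [e2, ← hrel x hx, hθ'eq _ (hκ.mem_imgS_of_mem (autFun_mem α hx)),
      invOn_apply hκ.injOn (autFun_mem α hx)]
  · -- on `X`
    have hcPX : c ∈ P ⊔ centralizerIn S T := Subgroup.mem_sup_right hc
    have hu := hmem1 c hcPX
    have hθu : θ' (invOn (imgS P κ ⊔ centralizerIn S T) θ' c) = c :=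
      hθ'.apply_invOn (by rw [himg']; exact hcPX)
    obtain ⟨q, hq, c', hc', hqc⟩ := mem_sup_cent hQT hu
    show c⁻¹ * θ' (t * invOn (imgS P κ ⊔ centralizerIn S T) θ' c * t⁻¹) ∈ T
    have hw : q⁻¹ * (t * q * t⁻¹) ∈ imgS P κ :=
      Subgroup.mul_mem _ (Subgroup.inv_mem _ hq) (hcQ q hq)
    have e1 : (invOn (imgS P κ ⊔ centralizerIn S T) θ' c)⁻¹ *
        (t * invOn (imgS P κ ⊔ centralizerIn S T) θ' c * t⁻¹) = q⁻¹ * (t * q * t⁻¹) := by
      rw [hqc]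
      have h5 := (mem_centralizerIn_iff.1 hc').2 _ (hQT hw)
      have h6 := hcX c' hc'
      calc (q * c')⁻¹ * (t * (q * c') * t⁻¹)
          = c'⁻¹ * (q⁻¹ * (t * q * t⁻¹)) * (t * c' * t⁻¹) := by group
        _ = c'⁻¹ * (q⁻¹ * (t * q * t⁻¹) * c') := by rw [h6]; group
        _ = c'⁻¹ * (c' * (q⁻¹ * (t * q * t⁻¹))) := by rw [h5]
        _ = q⁻¹ * (t * q * t⁻¹) := by group
    have e2 : c⁻¹ * θ' (t * invOn (imgS P κ ⊔ centralizerIn S T) θ' c * t⁻¹) =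
        θ' (q⁻¹ * (t * q * t⁻¹)) := by
      rw [← e1, hθ'.map_mul (Subgroup.inv_mem _ hu) (hcQX _ hu), hθ'.map_inv hu, hθu]
    rw [e2, hθ'eq _ hw]
    exact hPT (hκ.invOn_mem hw)

/-- **CR-PEL**: the `p`-elements of `Aut_E(P)`, `P` centric in `E`, are good. -/
theorem goodOn_pElement [Finite S] {p : ℕ} [Fact p.Prime] (hS : IsPGroup p S)
    {F : FusionSystem S} {E : FusionSystem T} (hE : E.IsWeaklyNormalIn F p)
    {P : Subgroup Ω} (hP : E.IsCentric P) (α : MulAut P) (hα : α ∈ E.autGroup P) (k : ℕ)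
    (hk : orderOf α = p ^ k) : GoodOn F T P (autFun P α) :=
  goodOn_pElement_aux hS hE (fun hP' _ hl => (Cfsg.Agent.H15.Cr.img_cent hS hE hP' hl).2)
    (fun hQ _ hf => Cfsg.Agent.H15.Cr.exists_ext hS hE hQ hf) hP α hα k hk

example [Finite S] {p : ℕ} [Fact p.Prime] (hS : IsPGroup p S) {F : FusionSystem S}
    {E : FusionSystem T} (hE : E.IsWeaklyNormalIn F p) {P : Subgroup Ω} (hP : E.IsCentric P)
    (α : MulAut P) (hα : α ∈ E.autGroup P) (k : ℕ) (hk : orderOf α = p ^ k) :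
    GoodOn F T P (autFun P α) := goodOn_pElement hS hE hP α hα k hk

end Cfsg.Agent.H32.Cr
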