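import Mathlib
import Cfsg.Prelude.Def_OddOrderChar
import Cfsg.Agent.H4.Induction

set_option autoImplicit false

namespace Cfsg.Agent.H32

open Cfsg.Agent.H4

section CyclicTI

variable {G : Type*} [Group G] [Fintype G]

/-- In a cyclic TI family, the coefficients `a ω = ⟨θ, χ ω⟩` of a class function `θ` vanishing
on `W \ (W₁ ∪ W₂)` satisfy `a (φ ψ) = a φ + a ψ - a 1`. -/
theorem cyclicTI_inner_eq (W₁ W₂ : Subgroup G) (χ : (↥(W₁ ⊔ W₂) →* ℂˣ) → (G → ℂ))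
    (hχ : Cfsg.IsCyclicTIFamily W₁ W₂ χ) (θ : G → ℂ) (hθ : Cfsg.IsClassFunction G θ)
    (hθV : ∀ w : ↥(W₁ ⊔ W₂), (w : G) ∉ W₁ → (w : G) ∉ W₂ → θ w = 0)
    (φ ψ : ↥(W₁ ⊔ W₂) →* ℂˣ) (hφ₂ : ∀ w : ↥(W₁ ⊔ W₂), (w : G) ∈ W₂ → φ w = 1)
    (hψ₁ : ∀ w : ↥(W₁ ⊔ W₂), (w : G) ∈ W₁ → ψ w = 1) :
    Cfsg.classInner θ (χ (φ * ψ)) =
      Cfsg.classInner θ (χ φ) + Cfsg.classInner θ (χ ψ) - Cfsg.classInner θ (χ 1) := by
  by_cases hφ : φ = 1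
  · subst hφ
    have e1 : (1 : ↥(W₁ ⊔ W₂) →* ℂˣ) * ψ = ψ := one_mul ψ
    rw [e1]; ring
  by_cases hψ : ψ = 1
  · subst hψ
    have e1 : φ * (1 : ↥(W₁ ⊔ W₂) →* ℂˣ) = φ := mul_one φ
    rw [e1]; ring
  have hind := hχ.induced_eq φ ψ hφ hψ hφ₂ hψ₁
  have : Fintype ↥(W₁ ⊔ W₂) := Fintype.ofFinite _
  have h0 : Cfsg.classInner (Cfsg.indFun (W₁ ⊔ W₂)
      (fun w => 1 - (φ w : ℂ) - (ψ w : ℂ) + (φ w : ℂ) * (ψ w : ℂ))) θ = 0 := by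
    rw [frobenius_reciprocity _ _ _ hθ]
    unfold Cfsg.classInner
    rw [Finset.sum_eq_zero, mul_zero]
    intro w _
    show (1 - (φ w : ℂ) - (ψ w : ℂ) + (φ w : ℂ) * (ψ w : ℂ)) * (starRingEnd ℂ) (θ w) = 0
    by_cases hw₁ : (w : G) ∈ W₁
    · rw [hψ₁ w hw₁]; simp
    · by_cases hw₂ : (w : G) ∈ W₂
      · rw [hφ₂ w hw₂]; simp
      · rw [hθV w hw₁ hw₂]; simp
  have h1 : Cfsg.classInner θ (Cfsg.indFun (W₁ ⊔ W₂)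
      (fun w => 1 - (φ w : ℂ) - (ψ w : ℂ) + (φ w : ℂ) * (ψ w : ℂ))) = 0 := by
    rw [← classInner_conj_symm, h0, map_zero]
  rw [hind] at h1
  have e : (fun g => 1 - χ φ g - χ ψ g + χ (φ * ψ) g) = χ 1 - χ φ - χ ψ + χ (φ * ψ) := by
    ext g
    simp [hχ.map_one]
  rw [e, classInner_add_right, classInner_sub_right, classInner_sub_right] at h1
  linear_combination h1

end CyclicTI

end Cfsg.Agent.H32
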