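import Mathlib

set_option autoImplicit false

namespace Cfsg.Agent.H32

open Finset

section Matrix

variable {I J : Type*} [Fintype I] [Fintype J]

/-- Counting a subset of a product column by column. -/
theorem card_filter_prod_eq_sum (P : I → J → Prop) [∀ i j, Decidable (P i j)] :
    (univ.filter (fun p : I × J => P p.1 p.2)).card =
      ∑ j : J, (univ.filter (fun i : I => P i j)).card := by
  simp only [Finset.card_filter]
  rw [Fintype.sum_prod_type_right]

/-- If `f i + g j` is nonzero for fewer than `2 |J|` pairs, then `f` is constant up to at most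
one exception. -/
theorem exists_almost_const [Nonempty I] (f : I → ℂ) (g : J → ℂ)
    (hN : (univ.filter (fun p : I × J => f p.1 + g p.2 ≠ 0)).card < 2 * Fintype.card J) :
    ∃ c₀, (univ.filter (fun i => f i ≠ c₀)).card ≤ 1 := by
  classical
  obtain ⟨i₀, -, hi₀⟩ := Finset.exists_max_image (univ : Finset I)
    (fun i => (univ.filter (fun i' => f i' = f i)).card) ⟨Classical.arbitrary I, mem_univ _⟩
  refine ⟨f i₀, ?_⟩
  by_contra hK
  push Not at hK
  have hR : ∀ c, (univ.filter (fun i => f i = c)).card ≤
      (univ.filter (fun i => f i = f i₀)).card := by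
    intro c
    by_cases hc : ∃ i, f i = c
    · obtain ⟨i, rfl⟩ := hc
      exact hi₀ i (mem_univ _)
    · push Not at hc
      have : univ.filter (fun i => f i = c) = ∅ :=
        Finset.filter_eq_empty_iff.mpr (fun i _ => hc i)
      rw [this, Finset.card_empty]
      exact Nat.zero_le _
  have hcol : ∀ j, (univ.filter (fun i => f i ≠ f i₀)).card ≤
      (univ.filter (fun i => f i + g j ≠ 0)).card := by
    intro j
    have e1 : (univ.filter (fun i => f i + g j ≠ 0)) = univ.filter (fun i => f i ≠ - g j) := by
      apply Finset.filter_congr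
      intro i _
      exact not_congr add_eq_zero_iff_eq_neg
    have e2 : (univ.filter (fun i => f i = - g j)).card +
        (univ.filter (fun i => f i ≠ - g j)).card = Fintype.card I :=
      Finset.card_filter_add_card_filter_not (s := (univ : Finset I))
        (fun i => f i = - g j)
    have e3 : (univ.filter (fun i => f i = f i₀)).card +
        (univ.filter (fun i => f i ≠ f i₀)).card = Fintype.card I :=
      Finset.card_filter_add_card_filter_not (s := (univ : Finset I))
        (fun i => f i = f i₀)
    have e4 := hR (- g j)
    rw [e1]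
    omega
  have hsum : Fintype.card J * (univ.filter (fun i => f i ≠ f i₀)).card ≤
      (univ.filter (fun p : I × J => f p.1 + g p.2 ≠ 0)).card := by
    rw [card_filter_prod_eq_sum (fun i j => f i + g j ≠ 0)]
    calc Fintype.card J * (univ.filter (fun i => f i ≠ f i₀)).card
        = ∑ _j : J, (univ.filter (fun i => f i ≠ f i₀)).card := by
          rw [Finset.sum_const, Finset.card_univ, smul_eq_mul]
      _ ≤ _ := Finset.sum_le_sum (fun j _ => hcol j)
  have h2 : Fintype.card J * 2 ≤ Fintype.card J * (univ.filter (fun i => f i ≠ f i₀)).card :=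
    Nat.mul_le_mul_left _ hK
  omega

/-- A function that is constant up to at most one exception. -/
theorem almost_const_cases (f : I → ℂ) (c₀ : ℂ)
    (h : (univ.filter (fun i => f i ≠ c₀)).card ≤ 1) :
    (∀ i, f i = c₀) ∨ ∃ i₀, f i₀ ≠ c₀ ∧ ∀ i, i ≠ i₀ → f i = c₀ := by
  classical
  rcases Nat.le_one_iff_eq_zero_or_eq_one.mp h with h | h
  · left
    intro i
    by_contra hi
    have : i ∈ univ.filter (fun i => f i ≠ c₀) := mem_filter.mpr ⟨mem_univ _, hi⟩
    rw [Finset.card_eq_zero.mp h] at this
    exact absurd this (Finset.notMem_empty _)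
  · right
    obtain ⟨i₀, hi₀⟩ := Finset.card_eq_one.mp h
    refine ⟨i₀, ?_, ?_⟩
    · have : i₀ ∈ univ.filter (fun i => f i ≠ c₀) := by
        rw [hi₀]; exact mem_singleton_self _
      exact (mem_filter.mp this).2
    · intro i hi
      by_contra hne
      have : i ∈ univ.filter (fun i => f i ≠ c₀) := mem_filter.mpr ⟨mem_univ _, hne⟩
      rw [hi₀, mem_singleton] at this
      exact hi this

/-- The trichotomy for a "rank one" matrix `f i + g j` with few nonzero entries. -/
theorem matrix_trichotomy [DecidableEq I] [DecidableEq J]
    (f : I → ℂ) (g : J → ℂ) (hm : 3 ≤ Fintype.card I)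
    (hn : Fintype.card I + 2 ≤ Fintype.card J)
    (hN : (univ.filter (fun p : I × J => f p.1 + g p.2 ≠ 0)).card < 2 * Fintype.card I) :
    (∀ i j, f i + g j = 0) ∨ (∃ j₀ a, ∀ i j, f i + g j = if j = j₀ then a else 0) ∨
      (∃ i₀ a, ∀ i j, f i + g j = if i = i₀ then a else 0) := by
  classical
  have hI : Nonempty I := Fintype.card_pos_iff.mp (by omega)
  have hJ : Nonempty J := Fintype.card_pos_iff.mp (by omega)
  obtain ⟨c₀, hc₀⟩ := exists_almost_const f g (by omega)
  have hswap : (univ.filter (fun p : J × I => g p.1 + f p.2 ≠ 0)).card =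
      (univ.filter (fun p : I × J => f p.1 + g p.2 ≠ 0)).card := by
    apply Finset.card_equiv (Equiv.prodComm J I)
    intro p
    simp [add_comm]
  obtain ⟨d₀, hd₀⟩ := exists_almost_const g f (by rw [hswap]; exact hN)
  have e2 : (univ.filter (fun i => f i = c₀)).card +
      (univ.filter (fun i => f i ≠ c₀)).card = Fintype.card I :=
    Finset.card_filter_add_card_filter_not (s := (univ : Finset I))
      (fun i => f i = c₀)
  have e3 : (univ.filter (fun j => g j = d₀)).card +
      (univ.filter (fun j => g j ≠ d₀)).card = Fintype.card J :=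
    Finset.card_filter_add_card_filter_not (s := (univ : Finset J))
      (fun j => g j = d₀)
  have hcd : c₀ + d₀ = 0 := by
    by_contra hne
    have hsub : (univ.filter (fun i => f i = c₀)) ×ˢ (univ.filter (fun j => g j = d₀)) ⊆
        univ.filter (fun p : I × J => f p.1 + g p.2 ≠ 0) := by
      intro p hp
      rw [Finset.mem_product, mem_filter, mem_filter] at hp
      rw [mem_filter]
      refine ⟨mem_univ _, ?_⟩
      rw [hp.1.2, hp.2.2]
      exact hne
    have hcard := Finset.card_le_card hsub
    rw [Finset.card_product] at hcard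
    have ha : 2 ≤ (univ.filter (fun i => f i = c₀)).card := by omega
    have hb : Fintype.card I + 1 ≤ (univ.filter (fun j => g j = d₀)).card := by omega
    have h3 : 2 * (Fintype.card I + 1) ≤
        (univ.filter (fun i => f i = c₀)).card * (univ.filter (fun j => g j = d₀)).card :=
      Nat.mul_le_mul ha hb
    omega
  rcases almost_const_cases f c₀ hc₀ with hf | ⟨i₀, hi₀, hf⟩
  · rcases almost_const_cases g d₀ hd₀ with hg | ⟨j₀, hj₀, hg⟩
    · left
      intro i j
      rw [hf i, hg j, hcd]
    · right; left
      refine ⟨j₀, c₀ + g j₀, ?_⟩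
      intro i j
      by_cases hj : j = j₀
      · rw [if_pos hj, hf i, hj]
      · rw [if_neg hj, hf i, hg j hj, hcd]
  · rcases almost_const_cases g d₀ hd₀ with hg | ⟨j₀, hj₀, hg⟩
    · right; right
      refine ⟨i₀, f i₀ + d₀, ?_⟩
      intro i j
      by_cases hi : i = i₀
      · rw [if_pos hi, hg j, hi]
      · rw [if_neg hi, hf i hi, hg j, hcd]
    · exfalso
      have hsub : ({i₀} : Finset I) ×ˢ (univ.erase j₀) ∪ (univ.erase i₀) ×ˢ ({j₀} : Finset J) ⊆
          univ.filter (fun p : I × J => f p.1 + g p.2 ≠ 0) := by
        intro p hp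
        rw [mem_filter]
        refine ⟨mem_univ _, ?_⟩
        rw [mem_union, mem_product, mem_product, mem_singleton, mem_erase, mem_erase,
          mem_singleton] at hp
        rcases hp with ⟨h1, h2, _⟩ | ⟨⟨h1, _⟩, h2⟩
        · rw [h1, hg _ h2]
          intro h
          apply hi₀
          linear_combination h - hcd
        · rw [h2, hf _ h1]
          intro h
          apply hj₀
          linear_combination h - hcd
      have hdisj : Disjoint (({i₀} : Finset I) ×ˢ (univ.erase j₀))
          ((univ.erase i₀) ×ˢ ({j₀} : Finset J)) := by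
        rw [Finset.disjoint_left]
        intro p hp1 hp2
        rw [mem_product, mem_singleton, mem_erase] at hp1
        rw [mem_product, mem_erase, mem_singleton] at hp2
        exact hp2.1.1 hp1.1
      have hcard := Finset.card_le_card hsub
      rw [Finset.card_union_of_disjoint hdisj, card_product, card_product, card_singleton,
        card_singleton, card_erase_of_mem (mem_univ _), card_erase_of_mem (mem_univ _),
        card_univ, card_univ] at hcard
      omega

end Matrix

end Cfsg.Agent.H32
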