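import Mathlib
import Cfsg.Agent.H32.SNC
import Cfsg.Agent.H32.Dual
import Cfsg.Agent.H32.Matrix
import Cfsg.Agent.H32.CyclicTI

set_option autoImplicit false

namespace Cfsg.Agent.H32

section SNC2

variable {G : Type*} [Group G]

theorem snc_subgroupOf_inf (W₁ W₂ : Subgroup G) (hinf : W₁ ⊓ W₂ = ⊥) :
    W₁.subgroupOf (W₁ ⊔ W₂) ⊓ W₂.subgroupOf (W₁ ⊔ W₂) = ⊥ := by
  rw [Subgroup.eq_bot_iff_forall]
  intro y hy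
  have hmem : (y : G) ∈ W₁ ⊓ W₂ :=
    ⟨Subgroup.mem_subgroupOf.mp hy.1, Subgroup.mem_subgroupOf.mp hy.2⟩
  rw [hinf, Subgroup.mem_bot] at hmem
  exact Subtype.ext hmem

theorem snc_subgroupOf_sup (W₁ W₂ : Subgroup G) :
    W₁.subgroupOf (W₁ ⊔ W₂) ⊔ W₂.subgroupOf (W₁ ⊔ W₂) = ⊤ := by
  rw [← Subgroup.subgroupOf_sup le_sup_left le_sup_right, Subgroup.subgroupOf_self]

/-- Every linear character of `W₁ ⊔ W₂` is a product of one trivial on `W₂` and one trivial on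
`W₁`. -/
theorem snc_decomp [Finite G] (W₁ W₂ : Subgroup G) (hW : Cfsg.IsSelfNormalizingCyclic W₁ W₂)
    (ω : ↥(W₁ ⊔ W₂) →* ℂˣ) :
    ∃ φ ψ : ↥(W₁ ⊔ W₂) →* ℂˣ, (∀ w : ↥(W₁ ⊔ W₂), (w : G) ∈ W₂ → φ w = 1) ∧
      (∀ w : ↥(W₁ ⊔ W₂), (w : G) ∈ W₁ → ψ w = 1) ∧ ω = φ * ψ := by
  have hcomm : ∀ a b : ↥(W₁ ⊔ W₂), a * b = b * a := by
    intro a b
    exact Subtype.ext (snc_comm W₁ W₂ hW a.2 b.2)
  obtain ⟨φ, ψ, hφ, hψ, h⟩ := dual_decomp hcomm (W₁.subgroupOf (W₁ ⊔ W₂))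
    (W₂.subgroupOf (W₁ ⊔ W₂)) (snc_subgroupOf_inf W₁ W₂ hW.2.2.1) ω
  exact ⟨φ, ψ, fun w hw => hφ w (Subgroup.mem_subgroupOf.mpr hw),
    fun w hw => hψ w (Subgroup.mem_subgroupOf.mpr hw), h⟩

/-- There are `|W₁|` linear characters of `W₁ ⊔ W₂` trivial on `W₂`. -/
theorem snc_card_left [Finite G] (W₁ W₂ : Subgroup G) (hW : Cfsg.IsSelfNormalizingCyclic W₁ W₂) :
    Nat.card {φ : ↥(W₁ ⊔ W₂) →* ℂˣ // ∀ w : ↥(W₁ ⊔ W₂), (w : G) ∈ W₂ → φ w = 1} =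
      Nat.card W₁ := by
  have hcomm : ∀ a b : ↥(W₁ ⊔ W₂), a * b = b * a := by
    intro a b
    exact Subtype.ext (snc_comm W₁ W₂ hW a.2 b.2)
  have h := dual_card hcomm (W₁.subgroupOf (W₁ ⊔ W₂)) (W₂.subgroupOf (W₁ ⊔ W₂))
    (snc_subgroupOf_inf W₁ W₂ hW.2.2.1) (snc_subgroupOf_sup W₁ W₂)
  rw [Nat.card_congr (Subgroup.subgroupOfEquivOfLe (le_sup_left : W₁ ≤ W₁ ⊔ W₂)).toEquiv] at h
  rw [← h]
  apply Nat.card_congr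
  exact Equiv.subtypeEquivRight (fun φ =>
    ⟨fun hφ y hy => hφ y (Subgroup.mem_subgroupOf.mp hy),
     fun hφ w hw => hφ w (Subgroup.mem_subgroupOf.mpr hw)⟩)

/-- There are `|W₂|` linear characters of `W₁ ⊔ W₂` trivial on `W₁`. -/
theorem snc_card_right [Finite G] (W₁ W₂ : Subgroup G)
    (hW : Cfsg.IsSelfNormalizingCyclic W₁ W₂) :
    Nat.card {ψ : ↥(W₁ ⊔ W₂) →* ℂˣ // ∀ w : ↥(W₁ ⊔ W₂), (w : G) ∈ W₁ → ψ w = 1} =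
      Nat.card W₂ := by
  have hcomm : ∀ a b : ↥(W₁ ⊔ W₂), a * b = b * a := by
    intro a b
    exact Subtype.ext (snc_comm W₁ W₂ hW a.2 b.2)
  have h := dual_card hcomm (W₂.subgroupOf (W₁ ⊔ W₂)) (W₁.subgroupOf (W₁ ⊔ W₂))
    ((inf_comm _ _).trans (snc_subgroupOf_inf W₁ W₂ hW.2.2.1))
    ((sup_comm _ _).trans (snc_subgroupOf_sup W₁ W₂))
  rw [Nat.card_congr (Subgroup.subgroupOfEquivOfLe (le_sup_right : W₂ ≤ W₁ ⊔ W₂)).toEquiv] at h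
  rw [← h]
  apply Nat.card_congr
  exact Equiv.subtypeEquivRight (fun φ =>
    ⟨fun hφ y hy => hφ y (Subgroup.mem_subgroupOf.mp hy),
     fun hφ w hw => hφ w (Subgroup.mem_subgroupOf.mpr hw)⟩)

end SNC2

end Cfsg.Agent.H32
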