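import Mathlib
import Cfsg.Agent.H81.CycDefs
import Cfsg.Agent.H32.Dual
import Cfsg.Agent.H32.SNC2

/-!
# helper32: piece S1502-EQON of helper81's project (Peterfalvi (3.2))

A pre-family `χ` (the fields of `IsCyclicTIFamily` without `eq_on`) satisfies `χ ω w = ω w` for
`w ∈ W` outside `W₁ ∪ W₂`: Fourier inversion on the dual of `W = W₁ × W₂` applied to the
induction identity.
-/

set_option autoImplicit false

namespace Cfsg.Agent.H32.Cyc

open Cfsg Cfsg.Agent.H4 Cfsg.Agent.H32 Cfsg.Agent.H81.Cyc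

universe u

/-- A double sum with two vanishing marginals. -/
theorem sum_four {α β : Type*} (s : Finset α) (t : Finset β) (f : α → ℂ) (g : β → ℂ) (c0 : ℂ)
    (c1 : α → ℂ) (c2 : β → ℂ) (c3 : α → β → ℂ) (hA : ∑ a ∈ s, f a = 0)
    (hB : ∑ b ∈ t, g b = 0) :
    ∑ a ∈ s, ∑ b ∈ t, f a * g b * (c0 - c1 a - c2 b + c3 a b) =
      ∑ a ∈ s, ∑ b ∈ t, f a * g b * c3 a b := by
  have h1 : ∀ a b, f a * g b * (c0 - c1 a - c2 b + c3 a b) =
      f a * g b * c3 a b + (f a * (c0 - c1 a) * g b - f a * (g b * c2 b)) := by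
    intro a b
    ring
  have h2 : ∀ a, ∑ b ∈ t, f a * g b * (c0 - c1 a - c2 b + c3 a b) =
      ∑ b ∈ t, f a * g b * c3 a b - f a * ∑ b ∈ t, g b * c2 b := by
    intro a
    rw [Finset.sum_congr rfl (fun b _ => h1 a b), Finset.sum_add_distrib,
      Finset.sum_sub_distrib, ← Finset.mul_sum, hB, mul_zero, ← Finset.mul_sum]
    ring
  rw [Finset.sum_congr rfl (fun a _ => h2 a), Finset.sum_sub_distrib, ← Finset.sum_mul, hA,
    zero_mul, sub_zero]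

theorem eqOn : StmtEqOn.{u} := by
  intro G _ _ W₁ W₂ hW χ hχ ω₀ w hw₁ hw₂
  classical
  have : Fintype ↥(W₁ ⊔ W₂) := Fintype.ofFinite _
  have : Fintype (↥(W₁ ⊔ W₂) →* ℂˣ) := Fintype.ofFinite _
  have hcomm : ∀ a b : ↥(W₁ ⊔ W₂), a * b = b * a := by
    intro a b
    exact Subtype.ext (snc_comm W₁ W₂ hW a.2 b.2)
  have hcard : (Nat.card ↥(W₁ ⊔ W₂) : ℂ) ≠ 0 := by
    have : 0 < Nat.card ↥(W₁ ⊔ W₂) := Nat.card_pos
    exact_mod_cast this.ne'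
  set H₁ : Subgroup ↥(W₁ ⊔ W₂) := W₁.subgroupOf (W₁ ⊔ W₂) with hH₁
  set H₂ : Subgroup ↥(W₁ ⊔ W₂) := W₂.subgroupOf (W₁ ⊔ W₂) with hH₂
  set SA := Finset.univ.filter (fun φ : ↥(W₁ ⊔ W₂) →* ℂˣ => ∀ y ∈ H₂, φ y = 1) with hSA
  set SB := Finset.univ.filter (fun ψ : ↥(W₁ ⊔ W₂) →* ℂˣ => ∀ y ∈ H₁, ψ y = 1) with hSB
  have hwH₁ : w ∉ H₁ := fun h => hw₁ (Subgroup.mem_subgroupOf.mp h)
  have hwH₂ : w ∉ H₂ := fun h => hw₂ (Subgroup.mem_subgroupOf.mp h)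
  have hclass : ∀ ω, IsClassFunction G (χ ω) := by
    intro ω
    rcases hχ.irr_or_neg ω with h | h
    · exact isClassFunction_of_isCharacter (isCharacter_of_isIrrCharacter h)
    · have h1 := isClassFunction_of_isCharacter (isCharacter_of_isIrrCharacter h)
      intro g x
      have h2 := h1 g x
      simp only [Pi.neg_apply, neg_inj] at h2
      exact h2
  have hA0 : ∑ φ ∈ SA, (starRingEnd ℂ) (φ w : ℂ) = 0 := by
    rw [← map_sum, sum_dual_eq_zero hcomm H₂ hwH₂, map_zero]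
  have hB0 : ∑ ψ ∈ SB, (starRingEnd ℂ) (ψ w : ℂ) = 0 := by
    rw [← map_sum, sum_dual_eq_zero hcomm H₁ hwH₁, map_zero]
  -- the general inversion formula
  have inv : ∀ θ : ↥(W₁ ⊔ W₂) → ℂ,
      ∑ φ ∈ SA, ∑ ψ ∈ SB, (starRingEnd ℂ) (φ w : ℂ) * (starRingEnd ℂ) (ψ w : ℂ) *
        ∑ x : ↥(W₁ ⊔ W₂), (1 - (φ x : ℂ) - (ψ x : ℂ) + (φ x : ℂ) * (ψ x : ℂ)) *
          (starRingEnd ℂ) (θ x) =
      (SA.card : ℂ) * (SB.card : ℂ) * (starRingEnd ℂ) (θ w) := by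
    intro θ
    have hLHS : ∑ φ ∈ SA, ∑ ψ ∈ SB, (starRingEnd ℂ) (φ w : ℂ) * (starRingEnd ℂ) (ψ w : ℂ) *
        ∑ x : ↥(W₁ ⊔ W₂), (1 - (φ x : ℂ) - (ψ x : ℂ) + (φ x : ℂ) * (ψ x : ℂ)) *
          (starRingEnd ℂ) (θ x) =
        ∑ x : ↥(W₁ ⊔ W₂), (∑ φ ∈ SA, (starRingEnd ℂ) (φ w : ℂ) * (1 - (φ x : ℂ))) *
          (∑ ψ ∈ SB, (starRingEnd ℂ) (ψ w : ℂ) * (1 - (ψ x : ℂ))) * (starRingEnd ℂ) (θ x) := by
      calc ∑ φ ∈ SA, ∑ ψ ∈ SB, (starRingEnd ℂ) (φ w : ℂ) * (starRingEnd ℂ) (ψ w : ℂ) *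
            ∑ x : ↥(W₁ ⊔ W₂), (1 - (φ x : ℂ) - (ψ x : ℂ) + (φ x : ℂ) * (ψ x : ℂ)) *
              (starRingEnd ℂ) (θ x)
          = ∑ φ ∈ SA, ∑ ψ ∈ SB, ∑ x : ↥(W₁ ⊔ W₂),
              ((starRingEnd ℂ) (φ w : ℂ) * (1 - (φ x : ℂ))) *
              ((starRingEnd ℂ) (ψ w : ℂ) * (1 - (ψ x : ℂ))) * (starRingEnd ℂ) (θ x) := by
            apply Finset.sum_congr rfl
            intro φ _
            apply Finset.sum_congr rfl
            intro ψ _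
            rw [Finset.mul_sum]
            apply Finset.sum_congr rfl
            intro x _
            ring
        _ = ∑ φ ∈ SA, ∑ x : ↥(W₁ ⊔ W₂), ∑ ψ ∈ SB,
              ((starRingEnd ℂ) (φ w : ℂ) * (1 - (φ x : ℂ))) *
              ((starRingEnd ℂ) (ψ w : ℂ) * (1 - (ψ x : ℂ))) * (starRingEnd ℂ) (θ x) := by
            apply Finset.sum_congr rfl
            intro φ _
            exact Finset.sum_comm
        _ = ∑ x : ↥(W₁ ⊔ W₂), ∑ φ ∈ SA, ∑ ψ ∈ SB,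
              ((starRingEnd ℂ) (φ w : ℂ) * (1 - (φ x : ℂ))) *
              ((starRingEnd ℂ) (ψ w : ℂ) * (1 - (ψ x : ℂ))) * (starRingEnd ℂ) (θ x) :=
            Finset.sum_comm
        _ = _ := by
            apply Finset.sum_congr rfl
            intro x _
            rw [Finset.sum_mul_sum, Finset.sum_mul]
            apply Finset.sum_congr rfl
            intro φ _
            rw [Finset.sum_mul]
    rw [hLHS]
    have hP : ∀ x : ↥(W₁ ⊔ W₂), ∑ φ ∈ SA, (starRingEnd ℂ) (φ w : ℂ) * (1 - (φ x : ℂ)) =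
        if w⁻¹ * x ∈ H₂ then -(SA.card : ℂ) else 0 := by
      intro x
      exact sum_dual_conj_one_sub hcomm H₂ hwH₂ x
    have hQ : ∀ x : ↥(W₁ ⊔ W₂), ∑ ψ ∈ SB, (starRingEnd ℂ) (ψ w : ℂ) * (1 - (ψ x : ℂ)) =
        if w⁻¹ * x ∈ H₁ then -(SB.card : ℂ) else 0 := by
      intro x
      exact sum_dual_conj_one_sub hcomm H₁ hwH₁ x
    rw [Finset.sum_congr rfl (fun x _ => by rw [hP x, hQ x])]
    rw [Finset.sum_eq_single w]
    · have h1 : w⁻¹ * w ∈ H₁ := by rw [inv_mul_cancel]; exact H₁.one_mem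
      have h2 : w⁻¹ * w ∈ H₂ := by rw [inv_mul_cancel]; exact H₂.one_mem
      rw [if_pos h1, if_pos h2]
      ring
    · intro x _ hx
      by_cases h2 : w⁻¹ * x ∈ H₂
      · by_cases h1 : w⁻¹ * x ∈ H₁
        · exfalso
          apply hx
          have hinf := hW.2.2.1
          have hmem : ((w⁻¹ * x : ↥(W₁ ⊔ W₂)) : G) ∈ W₁ ⊓ W₂ :=
            ⟨Subgroup.mem_subgroupOf.mp h1, Subgroup.mem_subgroupOf.mp h2⟩
          rw [hinf, Subgroup.mem_bot] at hmem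
          have h5 : w⁻¹ * x = 1 := Subtype.ext hmem
          exact (inv_mul_eq_one.mp h5).symm
        · rw [if_neg h1, mul_zero, zero_mul]
      · rw [if_neg h2, zero_mul, zero_mul]
    · intro h
      exact absurd (Finset.mem_univ w) h
  -- the main identity for every `ω`
  have main : ∀ ω : ↥(W₁ ⊔ W₂) →* ℂˣ,
      (SA.card : ℂ) * (SB.card : ℂ) * (starRingEnd ℂ) (χ ω w) =
        (Nat.card ↥(W₁ ⊔ W₂) : ℂ) * (starRingEnd ℂ) (ω w : ℂ) := by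
    intro ω
    have hc : ∀ ω', classInner (χ ω') (χ ω) = if ω' = ω then 1 else 0 := by
      intro ω'
      split_ifs with h
      · rw [h]
        exact hχ.norm_one ω
      · exact hχ.orth ω' ω h
    have key : ∀ φ ψ : ↥(W₁ ⊔ W₂) →* ℂˣ, (∀ w : ↥(W₁ ⊔ W₂), (w : G) ∈ W₂ → φ w = 1) →
        (∀ w : ↥(W₁ ⊔ W₂), (w : G) ∈ W₁ → ψ w = 1) →
        ∑ x : ↥(W₁ ⊔ W₂), (1 - (φ x : ℂ) - (ψ x : ℂ) + (φ x : ℂ) * (ψ x : ℂ)) *
          (starRingEnd ℂ) (χ ω x) =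
        (Nat.card ↥(W₁ ⊔ W₂) : ℂ) * ((if (1 : ↥(W₁ ⊔ W₂) →* ℂˣ) = ω then (1 : ℂ) else 0)
          - (if φ = ω then (1 : ℂ) else 0) - (if ψ = ω then (1 : ℂ) else 0)
          + (if φ * ψ = ω then (1 : ℂ) else 0)) := by
      intro φ ψ hφ₂ hψ₁
      by_cases hφ : φ = 1
      · subst hφ
        have e1 : (1 : ↥(W₁ ⊔ W₂) →* ℂˣ) * ψ = ψ := by
          ext x
          simp
        rw [e1]
        have h0 : ∀ x : ↥(W₁ ⊔ W₂), (1 - (((1 : ↥(W₁ ⊔ W₂) →* ℂˣ) x : ℂˣ) : ℂ) - (ψ x : ℂ)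
            + (((1 : ↥(W₁ ⊔ W₂) →* ℂˣ) x : ℂˣ) : ℂ) * (ψ x : ℂ)) = 0 := by
          intro x
          simp
        rw [Finset.sum_congr rfl (fun x _ => by rw [h0 x, zero_mul]), Finset.sum_const_zero]
        ring
      by_cases hψ : ψ = 1
      · subst hψ
        have e1 : φ * (1 : ↥(W₁ ⊔ W₂) →* ℂˣ) = φ := by
          ext x
          simp
        rw [e1]
        have h0 : ∀ x : ↥(W₁ ⊔ W₂), (1 - (φ x : ℂ) - (((1 : ↥(W₁ ⊔ W₂) →* ℂˣ) x : ℂˣ) : ℂ)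
            + (φ x : ℂ) * (((1 : ↥(W₁ ⊔ W₂) →* ℂˣ) x : ℂˣ) : ℂ)) = 0 := by
          intro x
          simp
        rw [Finset.sum_congr rfl (fun x _ => by rw [h0 x, zero_mul]), Finset.sum_const_zero]
        ring
      have hind := hχ.induced_eq φ ψ hφ hψ hφ₂ hψ₁
      have h0 : classInner (indFun (W₁ ⊔ W₂)
          (fun w => 1 - (φ w : ℂ) - (ψ w : ℂ) + (φ w : ℂ) * (ψ w : ℂ))) (χ ω) =
          (if (1 : ↥(W₁ ⊔ W₂) →* ℂˣ) = ω then (1 : ℂ) else 0)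
          - (if φ = ω then (1 : ℂ) else 0) - (if ψ = ω then (1 : ℂ) else 0)
          + (if φ * ψ = ω then (1 : ℂ) else 0) := by
        rw [hind]
        have e : (fun g => 1 - χ φ g - χ ψ g + χ (φ * ψ) g) = χ 1 - χ φ - χ ψ + χ (φ * ψ) := by
          ext g
          simp [hχ.map_one]
        rw [e, classInner_add_left, classInner_sub_left, classInner_sub_left, hc, hc, hc, hc]
      rw [frobenius_reciprocity _ _ _ (hclass ω)] at h0
      unfold classInner at h0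
      rw [inv_mul_eq_iff_eq_mul₀ hcard] at h0
      exact h0
    have h1 := inv (fun x => χ ω x)
    rw [← h1]
    -- decompose ω
    obtain ⟨φ₀, ψ₀, hφ₀, hψ₀, hω⟩ := snc_decomp W₁ W₂ hW ω
    have hφ₀S : φ₀ ∈ SA := by
      rw [hSA, Finset.mem_filter]
      exact ⟨Finset.mem_univ _, fun y hy => hφ₀ y (Subgroup.mem_subgroupOf.mp hy)⟩
    have hψ₀S : ψ₀ ∈ SB := by
      rw [hSB, Finset.mem_filter]
      exact ⟨Finset.mem_univ _, fun y hy => hψ₀ y (Subgroup.mem_subgroupOf.mp hy)⟩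
    have hmemA : ∀ φ ∈ SA, ∀ y : ↥(W₁ ⊔ W₂), (y : G) ∈ W₂ → φ y = 1 := by
      intro φ hφ y hy
      rw [hSA, Finset.mem_filter] at hφ
      exact hφ.2 y (Subgroup.mem_subgroupOf.mpr hy)
    have hmemB : ∀ ψ ∈ SB, ∀ y : ↥(W₁ ⊔ W₂), (y : G) ∈ W₁ → ψ y = 1 := by
      intro ψ hψ y hy
      rw [hSB, Finset.mem_filter] at hψ
      exact hψ.2 y (Subgroup.mem_subgroupOf.mpr hy)
    calc ∑ φ ∈ SA, ∑ ψ ∈ SB, (starRingEnd ℂ) (φ w : ℂ) * (starRingEnd ℂ) (ψ w : ℂ) *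
          ∑ x : ↥(W₁ ⊔ W₂), (1 - (φ x : ℂ) - (ψ x : ℂ) + (φ x : ℂ) * (ψ x : ℂ)) *
            (starRingEnd ℂ) (χ ω x)
        = ∑ φ ∈ SA, ∑ ψ ∈ SB, (Nat.card ↥(W₁ ⊔ W₂) : ℂ) *
            ((starRingEnd ℂ) (φ w : ℂ) * (starRingEnd ℂ) (ψ w : ℂ) *
            ((if (1 : ↥(W₁ ⊔ W₂) →* ℂˣ) = ω then (1 : ℂ) else 0)
              - (if φ = ω then (1 : ℂ) else 0) - (if ψ = ω then (1 : ℂ) else 0)
              + (if φ * ψ = ω then (1 : ℂ) else 0))) := by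
          apply Finset.sum_congr rfl
          intro φ hφ
          apply Finset.sum_congr rfl
          intro ψ hψ
          rw [key φ ψ (hmemA φ hφ) (hmemB ψ hψ)]
          ring
      _ = (Nat.card ↥(W₁ ⊔ W₂) : ℂ) * ∑ φ ∈ SA, ∑ ψ ∈ SB,
            (starRingEnd ℂ) (φ w : ℂ) * (starRingEnd ℂ) (ψ w : ℂ) *
            ((if (1 : ↥(W₁ ⊔ W₂) →* ℂˣ) = ω then (1 : ℂ) else 0)
              - (if φ = ω then (1 : ℂ) else 0) - (if ψ = ω then (1 : ℂ) else 0)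
              + (if φ * ψ = ω then (1 : ℂ) else 0)) := by
          rw [Finset.mul_sum]
          apply Finset.sum_congr rfl
          intro φ _
          rw [Finset.mul_sum]
      _ = (Nat.card ↥(W₁ ⊔ W₂) : ℂ) * ∑ φ ∈ SA, ∑ ψ ∈ SB,
            (starRingEnd ℂ) (φ w : ℂ) * (starRingEnd ℂ) (ψ w : ℂ) *
            (if φ * ψ = ω then (1 : ℂ) else 0) := by
          rw [sum_four SA SB (fun φ => (starRingEnd ℂ) (φ w : ℂ))
            (fun ψ => (starRingEnd ℂ) (ψ w : ℂ))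
            (if (1 : ↥(W₁ ⊔ W₂) →* ℂˣ) = ω then (1 : ℂ) else 0)
            (fun φ => if φ = ω then (1 : ℂ) else 0) (fun ψ => if ψ = ω then (1 : ℂ) else 0)
            (fun φ ψ => if φ * ψ = ω then (1 : ℂ) else 0) hA0 hB0]
      _ = (Nat.card ↥(W₁ ⊔ W₂) : ℂ) * (starRingEnd ℂ) (ω w : ℂ) := by
          congr 1
          rw [Finset.sum_eq_single φ₀]
          · rw [Finset.sum_eq_single ψ₀]
            · rw [if_pos hω.symm, mul_one, hω, MonoidHom.mul_apply, Units.val_mul, map_mul]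
            · intro ψ hψ hne
              rw [if_neg, mul_zero]
              intro h
              exact hne (snc_mul_eq_mul W₁ W₂ φ₀ φ₀ ψ ψ₀ hφ₀ hφ₀ (hmemB ψ hψ) hψ₀
                (h.trans hω)).2
            · intro h
              exact absurd hψ₀S h
          · intro φ hφ hne
            apply Finset.sum_eq_zero
            intro ψ hψ
            rw [if_neg, mul_zero]
            intro h
            exact hne (snc_mul_eq_mul W₁ W₂ φ φ₀ ψ ψ₀ (hmemA φ hφ) hφ₀ (hmemB ψ hψ) hψ₀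
              (h.trans hω)).1
          · intro h
            exact absurd hφ₀S h
  have h1 := main 1
  have h2 : χ 1 (w : G) = 1 := by
    rw [hχ.map_one]
  rw [h2] at h1
  simp only [map_one, mul_one, MonoidHom.one_apply, Units.val_one] at h1
  have h3 := main ω₀
  rw [h1] at h3
  have h4 := mul_left_cancel₀ hcard h3
  exact (starRingEnd ℂ).injective h4

example : Cfsg.Agent.H81.Cyc.StmtEqOn.{u} := eqOn

end Cfsg.Agent.H32.Cyc
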