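import Mathlib
import Cfsg.Prelude.Def_OddOrderChar
import Cfsg.Agent.H32.Basic

set_option autoImplicit false

namespace Cfsg.Agent.H32

/-- If `C = N ⊔ Q` with `N` normalised by `C`, an element of `C` whose order is coprime to
`|Q|` lies in `N`. -/
theorem mem_of_orderOf_coprime_card {G : Type*} [Group G] [Finite G] (N Q C : Subgroup G)
    (hN : N ≤ C) (hQ : Q ≤ C) (hnorm : ∀ c ∈ C, ∀ u ∈ N, c * u * c⁻¹ ∈ N) (hsup : N ⊔ Q = C)
    (c : G) (hc : c ∈ C) (hcop : Nat.Coprime (orderOf c) (Nat.card Q)) : c ∈ N := by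
  have hNn : (N.subgroupOf C).Normal := ⟨fun n hn g => by
    rw [Subgroup.mem_subgroupOf] at hn ⊢
    exact hnorm g g.2 n hn⟩
  have htop : N.subgroupOf C ⊔ Q.subgroupOf C = ⊤ := by
    rw [← Subgroup.subgroupOf_sup hN hQ, hsup, Subgroup.subgroupOf_self]
  have hidx : (N.subgroupOf C).index ∣ Nat.card Q := by
    have h1 : (N.subgroupOf C).index = (N.subgroupOf C).relIndex (Q.subgroupOf C) := by
      rw [← Subgroup.relIndex_sup_left, htop, Subgroup.relIndex_top_right]
    rw [h1]
    have := Subgroup.relIndex_dvd_card (N.subgroupOf C) (Q.subgroupOf C)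
    have hcard : Nat.card (Q.subgroupOf C) = Nat.card Q :=
      Nat.card_congr (Subgroup.subgroupOfEquivOfLe hQ).toEquiv
    rwa [hcard] at this
  have hpow : (⟨c, hc⟩ : C) ^ (N.subgroupOf C).index ∈ N.subgroupOf C :=
    Subgroup.pow_index_mem _ _
  have hpow' : c ^ (N.subgroupOf C).index ∈ N := by
    rw [Subgroup.mem_subgroupOf] at hpow; simpa using hpow
  have hcop' : Nat.Coprime ((N.subgroupOf C).index) (orderOf c) :=
    (Nat.Coprime.coprime_dvd_right hidx hcop).symm
  obtain ⟨m, hm⟩ := exists_pow_eq_self_of_coprime hcop'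
  rw [← hm]
  exact N.pow_mem hpow' m

section Dade

variable {G : Type*} [Group G] [Finite G] {A : Set G} {L : Subgroup G} {H : G → Subgroup G}

/-- Under the Dade hypothesis, an element of `C_G(a)` of order coprime to `|C_L(a)|` lies
in `H a`. -/
theorem dade_mem_H_of_coprime (hD : Cfsg.DadeHypothesis A L H) {a : G} (ha : a ∈ A) {c : G}
    (hc : c ∈ Subgroup.centralizer ({a} : Set G))
    (hcop : Nat.Coprime (orderOf c) (Nat.card ↥(L ⊓ Subgroup.centralizer ({a} : Set G)))) :
    c ∈ H a :=
  mem_of_orderOf_coprime_card (H a) (L ⊓ Subgroup.centralizer ({a} : Set G))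
    (Subgroup.centralizer ({a} : Set G)) (hD.le_centralizer a ha) inf_le_right
    (hD.conj_mem_H a ha) (hD.sup_eq a ha) c hc hcop

/-- Under the Dade hypothesis, `H (x a x⁻¹) = x (H a) x⁻¹` for `x ∈ L`. -/
theorem dade_H_conj (hD : Cfsg.DadeHypothesis A L H) {a : G} (ha : a ∈ A) {x : G} (hx : x ∈ L) :
    H (x * a * x⁻¹) = (H a).map (MulAut.conj x).toMonoidHom := by
  have ha' : x * a * x⁻¹ ∈ A := hD.conj_mem x hx a ha
  apply le_antisymm
  · intro u hu
    have huc := hD.le_centralizer _ ha' hu
    have hw : x⁻¹ * u * x ∈ Subgroup.centralizer ({a} : Set G) := by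
      have := conj_mem_centralizer_singleton x⁻¹ huc
      have h2 : x⁻¹ * (x * a * x⁻¹) * x⁻¹⁻¹ = a := by group
      rw [h2] at this
      simpa using this
    have hord : orderOf (x⁻¹ * u * x) = orderOf u := by
      have := orderOf_conj' x⁻¹ u
      simpa using this
    have hcop : Nat.Coprime (orderOf (x⁻¹ * u * x))
        (Nat.card ↥(L ⊓ Subgroup.centralizer ({a} : Set G))) := by
      rw [hord]
      exact Nat.Coprime.coprime_dvd_left (Subgroup.orderOf_dvd_natCard _ hu)
        (hD.coprime _ ha' a ha)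
    have hwH := dade_mem_H_of_coprime hD ha hw hcop
    rw [Subgroup.mem_map]
    refine ⟨x⁻¹ * u * x, hwH, ?_⟩
    simp [MulAut.conj_apply]
    group
  · intro v hv
    rw [Subgroup.mem_map] at hv
    obtain ⟨w, hw, rfl⟩ := hv
    have hwc := hD.le_centralizer _ ha hw
    have hvc : x * w * x⁻¹ ∈ Subgroup.centralizer ({x * a * x⁻¹} : Set G) :=
      conj_mem_centralizer_singleton x hwc
    have hcop : Nat.Coprime (orderOf (x * w * x⁻¹))
        (Nat.card ↥(L ⊓ Subgroup.centralizer ({x * a * x⁻¹} : Set G))) := by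
      rw [orderOf_conj']
      exact Nat.Coprime.coprime_dvd_left (Subgroup.orderOf_dvd_natCard _ hw)
        (hD.coprime a ha _ ha')
    have := dade_mem_H_of_coprime hD ha' hvc hcop
    simpa [MulAut.conj_apply] using this

/-- Under the Dade hypothesis there is a single exponent `E` extracting the `A`-part `a` from
every element `a * u` with `a ∈ A`, `u ∈ H a`. -/
theorem dade_exists_exponent (hD : Cfsg.DadeHypothesis A L H) :
    ∃ E : ℕ, ∀ a ∈ A, ∀ u ∈ H a, (a * u) ^ E = a := by
  classical
  haveI := Fintype.ofFinite G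
  set N : ℕ := ∏ g : G, (if g ∈ A then Nat.card (H g) else 1) with hNdef
  set M : ℕ := ∏ g : G, (if g ∈ A then Nat.card ↥(L ⊓ Subgroup.centralizer ({g} : Set G)) else 1)
    with hMdef
  have hcop : Nat.Coprime N M := by
    apply Nat.Coprime.prod_left
    intro a _
    apply Nat.Coprime.prod_right
    intro b _
    by_cases ha : a ∈ A
    · by_cases hb : b ∈ A
      · simp only [ha, hb, if_true]
        exact hD.coprime a ha b hb
      · simp [hb]
    · simp [ha]
  have hN : ∀ a ∈ A, Nat.card (H a) ∣ N := by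
    intro a ha
    have := Finset.dvd_prod_of_mem (fun g : G => if g ∈ A then Nat.card (H g) else 1)
      (Finset.mem_univ a)
    simp only [ha, if_true] at this
    exact this
  have hM : ∀ a ∈ A, Nat.card ↥(L ⊓ Subgroup.centralizer ({a} : Set G)) ∣ M := by
    intro a ha
    have := Finset.dvd_prod_of_mem
      (fun g : G => if g ∈ A then Nat.card ↥(L ⊓ Subgroup.centralizer ({g} : Set G)) else 1)
      (Finset.mem_univ a)
    simp only [ha, if_true] at this
    exact this
  have haM : ∀ a ∈ A, orderOf a ∣ M := by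
    intro a ha
    refine dvd_trans ?_ (hM a ha)
    apply Subgroup.orderOf_dvd_natCard
    refine ⟨hD.subset ha, ?_⟩
    show a ∈ Subgroup.centralizer ({a} : Set G)
    rw [mem_centralizer_singleton]
  by_cases hM1 : M = 1
  · refine ⟨0, ?_⟩
    intro a ha u _
    exfalso
    have h1 : orderOf a ∣ 1 := hM1 ▸ haM a ha
    have : a = 1 := orderOf_eq_one_iff.mp (Nat.dvd_one.mp h1)
    exact hD.one_not_mem (this ▸ ha)
  · have hMpos : 0 < M := by
      apply Finset.prod_pos
      intro g _
      split_ifs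
      · exact Nat.card_pos
      · exact Nat.one_pos
    have hM2 : 1 < M := by omega
    obtain ⟨t, -, ht⟩ := Nat.exists_mul_mod_eq_one_of_coprime hcop hM2
    refine ⟨N * t, ?_⟩
    intro a ha u hu
    have hcomm : Commute a u := by
      have := hD.le_centralizer a ha hu
      rw [mem_centralizer_singleton] at this
      exact this
    rw [hcomm.mul_pow]
    have hu1 : u ^ (N * t) = 1 := by
      rw [pow_mul]
      have : u ^ N = 1 := by
        apply orderOf_dvd_iff_pow_eq_one.mp
        exact dvd_trans (Subgroup.orderOf_dvd_natCard _ hu) (hN a ha)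
      rw [this, one_pow]
    have ha1 : a ^ (N * t) = a := by
      rw [← pow_mod_orderOf, ← Nat.mod_mod_of_dvd (N * t) (haM a ha), ht, pow_mod_orderOf, pow_one]
    rw [hu1, ha1, mul_one]

/-- Under the Dade hypothesis, a conjugation carrying `a * u` to `b * v` carries `a` to `b`. -/
theorem dade_conj_eq (hD : Cfsg.DadeHypothesis A L H) {a b : G} (ha : a ∈ A) (hb : b ∈ A)
    {u v g : G} (hu : u ∈ H a) (hv : v ∈ H b) (h : g * (a * u) * g⁻¹ = b * v) :
    g * a * g⁻¹ = b := by
  obtain ⟨E, hE⟩ := dade_exists_exponent hD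
  calc g * a * g⁻¹ = g * (a * u) ^ E * g⁻¹ := by rw [hE a ha u hu]
    _ = (g * (a * u) * g⁻¹) ^ E := (conj_pow).symm
    _ = (b * v) ^ E := by rw [h]
    _ = b := hE b hb v hv

/-- The coset decomposition `a * u` is unique. -/
theorem dade_mul_eq (hD : Cfsg.DadeHypothesis A L H) {a b : G} (ha : a ∈ A) (hb : b ∈ A)
    {u v : G} (hu : u ∈ H a) (hv : v ∈ H b) (h : a * u = b * v) : a = b ∧ u = v := by
  have h1 : (1 : G) * (a * u) * (1 : G)⁻¹ = b * v := by simpa using h
  have h2 := dade_conj_eq hD ha hb hu hv h1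
  have hab : a = b := by simpa using h2
  subst hab
  exact ⟨rfl, mul_left_cancel h⟩

/-- Under the Dade hypothesis, if an element of `a * H a` is conjugate to an element of `b * H b`
then `a`, `b` are conjugate under `L`. -/
theorem dade_conj_in_L (hD : Cfsg.DadeHypothesis A L H) {a b : G} (ha : a ∈ A) (hb : b ∈ A)
    {u v g : G} (hu : u ∈ H a) (hv : v ∈ H b) (h : g * (a * u) * g⁻¹ = b * v) :
    ∃ x ∈ L, x * a * x⁻¹ = b := by
  have h2 := dade_conj_eq hD ha hb hu hv h
  obtain ⟨x, hx, hxa⟩ := hD.fusion a ha g (h2 ▸ hb)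
  exact ⟨x, hx, hxa.trans h2⟩

/-- The set normaliser of the coset `a * H a` is the centraliser of `a`. -/
theorem dade_normalizer_coset (hD : Cfsg.DadeHypothesis A L H) {a : G} (ha : a ∈ A) :
    Subgroup.normalizer ((fun u : G => a * u) '' (H a : Set G)) =
      Subgroup.centralizer ({a} : Set G) := by
  apply le_antisymm
  · intro g hg
    rw [Subgroup.mem_set_normalizer_iff] at hg
    have h1 : a ∈ (fun u : G => a * u) '' (H a : Set G) := ⟨1, (H a).one_mem, by simp⟩
    obtain ⟨v, hv, hv'⟩ := (hg a).mp h1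
    have h2 : g * (a * 1) * g⁻¹ = a * v := by simpa using hv'.symm
    have h3 := dade_conj_eq hD ha ha (H a).one_mem hv h2
    rw [mem_centralizer_singleton]
    calc a * g = (g * a * g⁻¹) * g := by rw [h3]
      _ = g * a := by group
  · intro g hg
    rw [Subgroup.mem_set_normalizer_iff]
    have key : ∀ c ∈ Subgroup.centralizer ({a} : Set G), ∀ n,
        n ∈ (fun u : G => a * u) '' (H a : Set G) →
        c * n * c⁻¹ ∈ (fun u : G => a * u) '' (H a : Set G) := by
      rintro c hc n ⟨u, hu, rfl⟩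
      refine ⟨c * u * c⁻¹, hD.conj_mem_H a ha c hc u hu, ?_⟩
      rw [mem_centralizer_singleton] at hc
      show a * (c * u * c⁻¹) = c * (a * u) * c⁻¹
      calc a * (c * u * c⁻¹) = (a * c) * u * c⁻¹ := by group
        _ = (c * a) * u * c⁻¹ := by rw [hc]
        _ = c * (a * u) * c⁻¹ := by group
    intro n
    constructor
    · exact key g hg n
    · intro hn
      have := key g⁻¹ (Subgroup.inv_mem _ hg) _ hn
      have h2 : g⁻¹ * (g * n * g⁻¹) * g⁻¹⁻¹ = n := by group
      rwa [h2] at this

end Dade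

end Cfsg.Agent.H32
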