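import Mathlib
import Cfsg.Prelude.Def_OddOrderChar
import Cfsg.Agent.H32.Dade

set_option autoImplicit false

namespace Cfsg.Agent.H32

/-- If `C = N ⊔ Q` with `N` normalised by `C`, every element of `C` is a product `q * n`. -/
theorem exists_mul_of_sup_eq {G : Type*} [Group G] (N Q C : Subgroup G)
    (hN : N ≤ C) (hQ : Q ≤ C) (hnorm : ∀ c ∈ C, ∀ u ∈ N, c * u * c⁻¹ ∈ N) (hsup : N ⊔ Q = C)
    (c : G) (hc : c ∈ C) : ∃ q ∈ Q, ∃ n ∈ N, c = q * n := by
  have hNn : (N.subgroupOf C).Normal := ⟨fun n hn g => by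
    rw [Subgroup.mem_subgroupOf] at hn ⊢
    exact hnorm g g.2 n hn⟩
  have htop : Q.subgroupOf C ⊔ N.subgroupOf C = ⊤ := by
    rw [sup_comm, ← Subgroup.subgroupOf_sup hN hQ, hsup, Subgroup.subgroupOf_self]
  have hmem : (⟨c, hc⟩ : C) ∈ (↑(Q.subgroupOf C ⊔ N.subgroupOf C) : Set C) := by
    rw [htop]; trivial
  rw [Subgroup.mul_normal] at hmem
  obtain ⟨q, hq, n, hn, hqn⟩ := Set.mem_mul.mp hmem
  refine ⟨q, Subgroup.mem_subgroupOf.mp hq, n, Subgroup.mem_subgroupOf.mp hn, ?_⟩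
  have := congrArg Subtype.val hqn
  simpa using this.symm

section DadeCount

variable {G : Type*} [Group G] {A : Set G} {L : Subgroup G} {H : G → Subgroup G}

/-- The support of the Dade map: elements conjugate into some coset `a * H a`, `a ∈ A`. -/
def InDade (A : Set G) (H : G → Subgroup G) (g : G) : Prop :=
  ∃ a ∈ A, ∃ u ∈ H a, ∃ x : G, x * g * x⁻¹ = a * u

theorem dade_star [Finite G] (hD : Cfsg.DadeHypothesis A L H) {a₀ u₀ : G} (ha₀ : a₀ ∈ A)
    (hu₀ : u₀ ∈ H a₀) (x a u : G) :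
    (a ∈ A ∧ u ∈ H a ∧ x * (a₀ * u₀) * x⁻¹ = a * u) ↔
      ((∃ l ∈ L, ∃ h ∈ H a₀, x = l * h) ∧ a = x * a₀ * x⁻¹ ∧ u = x * u₀ * x⁻¹) := by
  constructor
  · rintro ⟨ha, hu, hx⟩
    have h1 : x * a₀ * x⁻¹ = a := dade_conj_eq hD ha₀ ha hu₀ hu hx
    have h2 : u = x * u₀ * x⁻¹ := by
      have : a * u = a * (x * u₀ * x⁻¹) := by
        rw [← hx, ← h1]; group
      exact mul_left_cancel this
    refine ⟨?_, h1.symm, h2⟩
    obtain ⟨l, hl, hla⟩ := hD.fusion a₀ ha₀ x (h1 ▸ ha)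
    have hc : l⁻¹ * x ∈ Subgroup.centralizer ({a₀} : Set G) := by
      rw [mem_centralizer_singleton]
      calc a₀ * (l⁻¹ * x) = l⁻¹ * (l * a₀ * l⁻¹) * x := by group
        _ = l⁻¹ * (x * a₀ * x⁻¹) * x := by rw [hla]
        _ = l⁻¹ * x * a₀ := by group
    obtain ⟨q, hq, n, hn, hqn⟩ := exists_mul_of_sup_eq (H a₀)
      (L ⊓ Subgroup.centralizer ({a₀} : Set G)) (Subgroup.centralizer ({a₀} : Set G))
      (hD.le_centralizer a₀ ha₀) inf_le_right (hD.conj_mem_H a₀ ha₀) (hD.sup_eq a₀ ha₀) _ hc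
    refine ⟨l * q, L.mul_mem hl hq.1, n, hn, ?_⟩
    calc x = l * (l⁻¹ * x) := by group
      _ = l * (q * n) := by rw [hqn]
      _ = l * q * n := by group
  · rintro ⟨⟨l, hl, h, hh, rfl⟩, rfl, rfl⟩
    have hhc : a₀ * h = h * a₀ := mem_centralizer_singleton.mp (hD.le_centralizer a₀ ha₀ hh)
    have e : l * h * a₀ * (l * h)⁻¹ = l * a₀ * l⁻¹ := by
      calc l * h * a₀ * (l * h)⁻¹ = l * (h * a₀) * h⁻¹ * l⁻¹ := by group
        _ = l * (a₀ * h) * h⁻¹ * l⁻¹ := by rw [hhc]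
        _ = l * a₀ * l⁻¹ := by group
    refine ⟨?_, ?_, by group⟩
    · rw [e]; exact hD.conj_mem l hl a₀ ha₀
    · rw [e, dade_H_conj hD ha₀ hl, Subgroup.mem_map]
      refine ⟨h * u₀ * h⁻¹, (H a₀).mul_mem ((H a₀).mul_mem hh hu₀) ((H a₀).inv_mem hh), ?_⟩
      simp [MulAut.conj_apply]
      group

theorem dade_card_H_conj [Finite G] (hD : Cfsg.DadeHypothesis A L H) {a₀ : G} (ha₀ : a₀ ∈ A)
    {l h : G} (hl : l ∈ L) (hh : h ∈ H a₀) :
    Nat.card (H (l * h * a₀ * (l * h)⁻¹)) = Nat.card (H a₀) := by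
  have hhc : a₀ * h = h * a₀ := mem_centralizer_singleton.mp (hD.le_centralizer a₀ ha₀ hh)
  have e : l * h * a₀ * (l * h)⁻¹ = l * a₀ * l⁻¹ := by
    calc l * h * a₀ * (l * h)⁻¹ = l * (h * a₀) * h⁻¹ * l⁻¹ := by group
      _ = l * (a₀ * h) * h⁻¹ * l⁻¹ := by rw [hhc]
      _ = l * a₀ * l⁻¹ := by group
  rw [e, dade_H_conj hD ha₀ hl]
  exact Subgroup.card_map_of_injective (MulAut.conj l).injective

theorem dade_mul_injective [Finite G] (hD : Cfsg.DadeHypothesis A L H) {a₀ : G} (ha₀ : a₀ ∈ A) :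
    Function.Injective (fun p : L × H a₀ => (p.1 : G) * (p.2 : G)) := by
  rintro ⟨l, h⟩ ⟨l', h'⟩ hp
  simp only at hp
  have h1 : (l' : G)⁻¹ * l = h' * (h : G)⁻¹ := by
    calc (l' : G)⁻¹ * l = (l' : G)⁻¹ * (l * h) * (h : G)⁻¹ := by group
      _ = (l' : G)⁻¹ * (l' * h') * (h : G)⁻¹ := by rw [hp]
      _ = h' * (h : G)⁻¹ := by group
  have h2 : (h' : G) * (h : G)⁻¹ ∈ H a₀ ⊓ (L ⊓ Subgroup.centralizer ({a₀} : Set G)) := by
    have hH : (h' : G) * (h : G)⁻¹ ∈ H a₀ := (H a₀).mul_mem h'.2 ((H a₀).inv_mem h.2)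
    refine ⟨hH, ?_, hD.le_centralizer a₀ ha₀ hH⟩
    rw [← h1]
    exact L.mul_mem (L.inv_mem l'.2) l.2
  rw [hD.inf_eq_bot a₀ ha₀] at h2
  have h3 : (h' : G) * (h : G)⁻¹ = 1 := by simpa using h2
  have h4 : (h' : G) = h := by
    calc (h' : G) = (h' * (h : G)⁻¹) * h := by group
      _ = h := by rw [h3, one_mul]
  have h5 : (l' : G) = l := by
    have : (l' : G)⁻¹ * l = 1 := by rw [h1, h3]
    calc (l' : G) = l' * ((l' : G)⁻¹ * l) := by rw [this, mul_one]
      _ = l := by group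
  exact Prod.ext (Subtype.ext h5.symm) (Subtype.ext h4.symm)

open Classical in
/-- Fibre count for the Dade map. -/
theorem dade_fiber_count [Fintype G] {K : Type*} [Field K] [CharZero K]
    (hD : Cfsg.DadeHypothesis A L H) {a₀ u₀ : G} (ha₀ : a₀ ∈ A) (hu₀ : u₀ ∈ H a₀) :
    (∑ x : G, ∑ a : G, ∑ u : G,
      (if a ∈ A ∧ u ∈ H a ∧ x * (a₀ * u₀) * x⁻¹ = a * u then (Nat.card (H a) : K)⁻¹ else 0)) =
      (Nat.card L : K) := by
  have step1 : ∀ x : G, (∑ a : G, ∑ u : G,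
      (if a ∈ A ∧ u ∈ H a ∧ x * (a₀ * u₀) * x⁻¹ = a * u then (Nat.card (H a) : K)⁻¹ else 0)) =
      if (∃ l ∈ L, ∃ h ∈ H a₀, x = l * h) then (Nat.card (H a₀) : K)⁻¹ else 0 := by
    intro x
    simp_rw [dade_star hD ha₀ hu₀]
    by_cases hx : ∃ l ∈ L, ∃ h ∈ H a₀, x = l * h
    · simp only [hx, true_and, if_true]
      rw [Finset.sum_eq_single (x * a₀ * x⁻¹)]
      · rw [Finset.sum_eq_single (x * u₀ * x⁻¹)]
        · simp only [and_self, if_true]
          obtain ⟨l, hl, h, hh, rfl⟩ := hx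
          rw [dade_card_H_conj hD ha₀ hl hh]
        · intro u _ hu
          simp [hu]
        · intro h; exact absurd (Finset.mem_univ _) h
      · intro a _ ha
        apply Finset.sum_eq_zero
        intro u _
        simp [ha]
      · intro h; exact absurd (Finset.mem_univ _) h
    · simp [hx]
  rw [Finset.sum_congr rfl (fun x _ => step1 x)]
  have : Fintype L := Fintype.ofFinite L
  have : Fintype (H a₀) := Fintype.ofFinite (H a₀)
  have step2 := Fintype.sum_of_injective (fun p : L × H a₀ => (p.1 : G) * (p.2 : G))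
    (dade_mul_injective hD ha₀) (fun _ => (Nat.card (H a₀) : K)⁻¹)
    (fun x : G => if (∃ l ∈ L, ∃ h ∈ H a₀, x = l * h) then (Nat.card (H a₀) : K)⁻¹ else 0)
    (by
      intro x hx
      have : ¬ ∃ l ∈ L, ∃ h ∈ H a₀, x = l * h := by
        rintro ⟨l, hl, h, hh, rfl⟩
        exact hx ⟨(⟨l, hl⟩, ⟨h, hh⟩), rfl⟩
      simp [this])
    (by
      rintro ⟨l, h⟩
      have : ∃ l' ∈ L, ∃ h' ∈ H a₀, (l : G) * (h : G) = l' * h' := ⟨l, l.2, h, h.2, rfl⟩
      simp [this])
  rw [← step2]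
  simp only [Finset.sum_const, Finset.card_univ, Fintype.card_prod, nsmul_eq_mul]
  rw [← Nat.card_eq_fintype_card, ← Nat.card_eq_fintype_card]
  have hne : (Nat.card (H a₀) : K) ≠ 0 := by
    have : 0 < Nat.card (H a₀) := Nat.card_pos
    exact_mod_cast this.ne'
  push_cast
  field_simp

open Classical in
/-- The main counting identity for the Dade map: for a class function `Φ` of `G`,
`|L| * Σ_{g ∈ D} Φ g = |G| * Σ_{a ∈ A} |H a|⁻¹ Σ_{u ∈ H a} Φ (a u)`. -/
theorem dade_sum_eq [Fintype G] {K : Type*} [Field K] [CharZero K]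
    (hD : Cfsg.DadeHypothesis A L H) (Φ : G → K) (hΦ : ∀ g x : G, Φ (x * g * x⁻¹) = Φ g) :
    (Nat.card L : K) * ∑ g : G, (if InDade A H g then Φ g else 0) =
      (Nat.card G : K) * ∑ a : G, ∑ u : G,
        (if a ∈ A ∧ u ∈ H a then (Nat.card (H a) : K)⁻¹ * Φ (a * u) else 0) := by
  have hN : ∀ g : G, (∑ x : G, ∑ a : G, ∑ u : G,
      (if a ∈ A ∧ u ∈ H a ∧ x * g * x⁻¹ = a * u then (Nat.card (H a) : K)⁻¹ else 0)) =
      if InDade A H g then (Nat.card L : K) else 0 := by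
    intro g
    by_cases hg : InDade A H g
    · simp only [hg, if_true]
      obtain ⟨a₀, ha₀, u₀, hu₀, x₀, hx₀⟩ := hg
      rw [← dade_fiber_count (K := K) hD ha₀ hu₀]
      apply Fintype.sum_equiv (Equiv.mulRight x₀⁻¹)
      intro x
      apply Finset.sum_congr rfl
      intro a _
      apply Finset.sum_congr rfl
      intro u _
      have e : (Equiv.mulRight x₀⁻¹) x * (a₀ * u₀) * ((Equiv.mulRight x₀⁻¹) x)⁻¹ = x * g * x⁻¹ := by
        simp only [Equiv.coe_mulRight]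
        rw [← hx₀]; group
      rw [e]
    · simp only [hg, if_false]
      apply Finset.sum_eq_zero
      intro x _
      apply Finset.sum_eq_zero
      intro a _
      apply Finset.sum_eq_zero
      intro u _
      have : ¬ (a ∈ A ∧ u ∈ H a ∧ x * g * x⁻¹ = a * u) := by
        rintro ⟨ha, hu, hx⟩
        exact hg ⟨a, ha, u, hu, x, hx⟩
      simp [this]
  have lhs : (Nat.card L : K) * ∑ g : G, (if InDade A H g then Φ g else 0) =
      ∑ g : G, ∑ x : G, ∑ a : G, ∑ u : G,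
        (if a ∈ A ∧ u ∈ H a ∧ x * g * x⁻¹ = a * u then (Nat.card (H a) : K)⁻¹ * Φ g else 0) := by
    rw [Finset.mul_sum]
    apply Finset.sum_congr rfl
    intro g _
    have : (∑ x : G, ∑ a : G, ∑ u : G,
        (if a ∈ A ∧ u ∈ H a ∧ x * g * x⁻¹ = a * u then (Nat.card (H a) : K)⁻¹ * Φ g else 0)) =
        (∑ x : G, ∑ a : G, ∑ u : G,
        (if a ∈ A ∧ u ∈ H a ∧ x * g * x⁻¹ = a * u then (Nat.card (H a) : K)⁻¹ else 0)) * Φ g := by
      simp only [Finset.sum_mul, ite_mul, zero_mul]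
    rw [this, hN g]
    by_cases hg : InDade A H g <;> simp [hg]
  have rhs : (Nat.card G : K) * ∑ a : G, ∑ u : G,
        (if a ∈ A ∧ u ∈ H a then (Nat.card (H a) : K)⁻¹ * Φ (a * u) else 0) =
      ∑ x : G, ∑ a : G, ∑ u : G, ∑ g : G,
        (if a ∈ A ∧ u ∈ H a ∧ x * g * x⁻¹ = a * u then (Nat.card (H a) : K)⁻¹ * Φ g else 0) := by
    have inner : ∀ x a u : G, (∑ g : G,
        (if a ∈ A ∧ u ∈ H a ∧ x * g * x⁻¹ = a * u then (Nat.card (H a) : K)⁻¹ * Φ g else 0)) =
        (if a ∈ A ∧ u ∈ H a then (Nat.card (H a) : K)⁻¹ * Φ (a * u) else 0) := by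
      intro x a u
      by_cases hau : a ∈ A ∧ u ∈ H a
      · simp only [hau, and_self, true_and, if_true]
        rw [Finset.sum_eq_single (x⁻¹ * (a * u) * x)]
        · have e : x * (x⁻¹ * (a * u) * x) * x⁻¹ = a * u := by group
          simp only [e, if_true]
          have := hΦ (a * u) x⁻¹
          rw [inv_inv] at this
          rw [this]
        · intro g _ hg
          have : ¬ (x * g * x⁻¹ = a * u) := by
            intro h
            apply hg
            rw [← h]; group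
          simp [this]
        · intro h; exact absurd (Finset.mem_univ _) h
      · have : ∀ g : G, ¬ (a ∈ A ∧ u ∈ H a ∧ x * g * x⁻¹ = a * u) := by
          intro g h
          exact hau ⟨h.1, h.2.1⟩
        simp [hau, this]
    simp_rw [inner]
    rw [Finset.sum_const, Finset.card_univ, nsmul_eq_mul, Nat.card_eq_fintype_card]
  rw [lhs, rhs]
  rw [Finset.sum_comm]
  apply Finset.sum_congr rfl
  intro x _
  rw [Finset.sum_comm]
  apply Finset.sum_congr rfl
  intro a _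
  rw [Finset.sum_comm]

theorem inDade_conj_iff (A : Set G) (H : G → Subgroup G) (g y : G) :
    InDade A H (y * g * y⁻¹) ↔ InDade A H g := by
  constructor
  · rintro ⟨a, ha, u, hu, x, hx⟩
    exact ⟨a, ha, u, hu, x * y, by rw [← hx]; group⟩
  · rintro ⟨a, ha, u, hu, x, hx⟩
    exact ⟨a, ha, u, hu, x * y⁻¹, by rw [← hx]; group⟩

theorem dadeIsometry_apply [Finite G] (hD : Cfsg.DadeHypothesis A L H) {α : L → ℂ}
    (hα : Cfsg.IsClassFunction L α) {a₀ u₀ x₀ g : G} (ha₀ : a₀ ∈ A) (hu₀ : u₀ ∈ H a₀)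
    (hx₀ : x₀ * g * x₀⁻¹ = a₀ * u₀) :
    Cfsg.dadeIsometry A L H α g = α ⟨a₀, hD.subset ha₀⟩ := by
  have h : ∃ a : L, (a : G) ∈ A ∧ ∃ x : G, ∃ u ∈ H (a : G), x * g * x⁻¹ = (a : G) * u :=
    ⟨⟨a₀, hD.subset ha₀⟩, ha₀, x₀, u₀, hu₀, hx₀⟩
  unfold Cfsg.dadeIsometry
  rw [dif_pos h]
  obtain ⟨ha, x, u, hu, hx⟩ := Classical.choose_spec h
  set a := Classical.choose h with hadef
  have hconj : (x * x₀⁻¹) * (a₀ * u₀) * (x * x₀⁻¹)⁻¹ = (a : G) * u := by
    rw [← hx₀, ← hx]; group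
  obtain ⟨l, hl, hla⟩ := dade_conj_in_L hD ha₀ ha hu₀ hu hconj
  have : a = (⟨l, hl⟩ : L) * ⟨a₀, hD.subset ha₀⟩ * (⟨l, hl⟩ : L)⁻¹ := by
    apply Subtype.ext
    simp [hla]
  rw [this]
  exact hα _ _

theorem dadeIsometry_apply_not (α : L → ℂ) {g : G} (hg : ¬ InDade A H g) :
    Cfsg.dadeIsometry A L H α g = 0 := by
  unfold Cfsg.dadeIsometry
  rw [dif_neg]
  rintro ⟨a, ha, x, u, hu, hx⟩
  exact hg ⟨a, ha, u, hu, x, hx⟩

theorem dadeIsometry_isClassFunction [Finite G] (hD : Cfsg.DadeHypothesis A L H) {α : L → ℂ}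
    (hα : Cfsg.IsClassFunction L α) : Cfsg.IsClassFunction G (Cfsg.dadeIsometry A L H α) := by
  intro g y
  by_cases hg : InDade A H g
  · obtain ⟨a, ha, u, hu, x, hx⟩ := hg
    rw [dadeIsometry_apply hD hα ha hu hx]
    have hx' : (x * y⁻¹) * (y * g * y⁻¹) * (x * y⁻¹)⁻¹ = a * u := by rw [← hx]; group
    rw [dadeIsometry_apply hD hα ha hu hx']
  · rw [dadeIsometry_apply_not α hg]
    have hg' : ¬ InDade A H (y * g * y⁻¹) := fun h => hg ((inDade_conj_iff A H g y).mp h)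
    rw [dadeIsometry_apply_not α hg']

open Classical in
/-- Inner product of a Dade image with a class function `χ` of `G`. -/
theorem dade_inner [Fintype G] [Fintype L] (hD : Cfsg.DadeHypothesis A L H) {α : L → ℂ}
    (hα : Cfsg.IsClassFunction L α) (hαA : ∀ x : L, (x : G) ∉ A → α x = 0)
    (χ : G → ℂ) (ψ : L → ℂ) (hχ : Cfsg.IsClassFunction G χ)
    (hψ : ∀ a : L, (a : G) ∈ A →
      ψ a = (Nat.card (H a) : ℂ)⁻¹ * ∑ᶠ u ∈ (H a : Set G), χ (a * u)) :
    Cfsg.classInner (Cfsg.dadeIsometry A L H α) χ = Cfsg.classInner α ψ := by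
  set Φ : G → ℂ := fun g => Cfsg.dadeIsometry A L H α g * (starRingEnd ℂ) (χ g) with hΦdef
  have hΦ : ∀ g x : G, Φ (x * g * x⁻¹) = Φ g := by
    intro g x
    simp only [hΦdef]
    rw [dadeIsometry_isClassFunction hD hα g x, hχ g x]
  have h1 : ∑ g : G, Cfsg.dadeIsometry A L H α g * (starRingEnd ℂ) (χ g) =
      ∑ g : G, (if InDade A H g then Φ g else 0) := by
    apply Finset.sum_congr rfl
    intro g _
    by_cases hg : InDade A H g
    · simp [hg, hΦdef]
    · simp [hg, dadeIsometry_apply_not α hg]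
  have h2 := dade_sum_eq (K := ℂ) hD Φ hΦ
  have h3 : ∑ a : G, ∑ u : G,
        (if a ∈ A ∧ u ∈ H a then (Nat.card (H a) : ℂ)⁻¹ * Φ (a * u) else 0) =
      ∑ a : L, α a * (starRingEnd ℂ) (ψ a) := by
    have inner : ∀ a : G, (∑ u : G,
        (if a ∈ A ∧ u ∈ H a then (Nat.card (H a) : ℂ)⁻¹ * Φ (a * u) else 0)) =
        if h : a ∈ A then α ⟨a, hD.subset h⟩ * (starRingEnd ℂ) (ψ ⟨a, hD.subset h⟩) else 0 := by
      intro a
      by_cases ha : a ∈ A
      · rw [dif_pos ha, hψ ⟨a, hD.subset ha⟩ ha]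
        rw [finsum_mem_def, finsum_eq_sum_of_fintype]
        rw [map_mul, map_inv₀, map_natCast, map_sum, Finset.mul_sum, Finset.mul_sum]
        apply Finset.sum_congr rfl
        intro u _
        by_cases hu : u ∈ H a
        · have hu' : u ∈ (H a : Set G) := hu
          have e : Cfsg.dadeIsometry A L H α (a * u) = α ⟨a, hD.subset ha⟩ :=
            dadeIsometry_apply hD hα ha hu (x₀ := 1) (by simp)
          simp only [ha, hu, and_self, if_true, hΦdef, e, Set.indicator_of_mem hu']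
          ring
        · have hu' : u ∉ (H a : Set G) := hu
          simp only [ha, hu, and_false, if_false, Set.indicator_of_notMem hu', map_zero,
            mul_zero]
      · rw [dif_neg ha]
        apply Finset.sum_eq_zero
        intro u _
        simp [ha]
    rw [Finset.sum_congr rfl (fun a _ => inner a)]
    symm
    apply Fintype.sum_of_injective (Subtype.val : L → G) Subtype.val_injective
    · intro x hx
      have hxL : x ∉ L := fun h => hx ⟨⟨x, h⟩, rfl⟩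
      have hxA : x ∉ A := fun h => hxL (hD.subset h)
      rw [dif_neg hxA]
    · intro a
      by_cases ha : (a : G) ∈ A
      · rw [dif_pos ha]
      · rw [dif_neg ha, hαA a ha, zero_mul]
  unfold Cfsg.classInner
  rw [h1]
  rw [h3] at h2
  have hL : (Nat.card L : ℂ) ≠ 0 := by
    have : 0 < Nat.card L := Nat.card_pos
    exact_mod_cast this.ne'
  have hG : (Nat.card G : ℂ) ≠ 0 := by
    have : 0 < Nat.card G := Nat.card_pos
    exact_mod_cast this.ne'
  field_simp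
  linear_combination h2

open Classical in
theorem finsum_mem_subgroup_const [Fintype G] (K : Subgroup G) (c : ℂ) :
    ∑ᶠ u ∈ (K : Set G), c = (Nat.card K : ℂ) * c := by
  rw [finsum_mem_def, finsum_eq_sum_of_fintype]
  have : ∀ u : G, Set.indicator (K : Set G) (fun _ => c) u = if u ∈ K then c else 0 := by
    intro u
    by_cases hu : u ∈ K
    · have hu' : u ∈ (K : Set G) := hu
      simp [hu, Set.indicator_of_mem hu']
    · have hu' : u ∉ (K : Set G) := hu
      simp [hu, Set.indicator_of_notMem hu']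
  rw [Finset.sum_congr rfl (fun u _ => this u), Finset.sum_ite, Finset.sum_const_zero, add_zero,
    Finset.sum_const, nsmul_eq_mul, Nat.card_eq_fintype_card, Fintype.card_subtype]

/-- The Dade map is an isometry on class functions supported on `A`. -/
theorem dade_inner_dade [Fintype G] [Fintype L] (hD : Cfsg.DadeHypothesis A L H) {α β : L → ℂ}
    (hα : Cfsg.IsClassFunction L α) (hαA : ∀ x : L, (x : G) ∉ A → α x = 0)
    (hβ : Cfsg.IsClassFunction L β) :
    Cfsg.classInner (Cfsg.dadeIsometry A L H α) (Cfsg.dadeIsometry A L H β) =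
      Cfsg.classInner α β := by
  apply dade_inner hD hα hαA _ _ (dadeIsometry_isClassFunction hD hβ)
  intro a ha
  have h1 : ∑ᶠ u ∈ (H a : Set G), Cfsg.dadeIsometry A L H β (a * u) =
      ∑ᶠ u ∈ (H a : Set G), β a := by
    apply finsum_mem_congr rfl
    intro u hu
    exact dadeIsometry_apply hD hβ ha hu (x₀ := 1) (by simp)
  rw [h1, finsum_mem_subgroup_const]
  have hne : (Nat.card (H a) : ℂ) ≠ 0 := by
    have : 0 < Nat.card (H a) := Nat.card_pos
    exact_mod_cast this.ne'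
  field_simp

end DadeCount

end Cfsg.Agent.H32
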