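import Mathlib
import Cfsg.Agent.H86.Ev2Defs
import Cfsg.Agent.H45.OmInvol
import Cfsg.Agent.H49.Spinor
import Cfsg.Agent.H49.NegOne
import Cfsg.Agent.H49.GeoGlue
import Cfsg.Agent.H49.Plus

set_option autoImplicit false
set_option maxHeartbeats 1000000

/-!
# EV2-INVEXP (helper32, for helper86)

If `-1` is not a square, the product of two reflections in orthogonal vectors of norm `1` is a
non-scalar involution of `Ω⁺_{2d}` fixing no totally singular subspace of dimension `> d - 2`.
Adapted from helper86's `OtInvEx`.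
-/

namespace Cfsg.Agent.H32.Ev2

open Cfsg.Agent.H45 Cfsg.Agent.H42.Spd Cfsg.Agent.H42.Ti Cfsg.Agent.H14.Ot Cfsg.Agent.H95.Oh
  Cfsg.Agent.H86.Ev2 Module

universe u

theorem finrank_sup_singleton_aux {F : Type*} [Field F] {V : Type*} [AddCommGroup V]
    [Module F V] [FiniteDimensional F V] (K : Submodule F V) (z : V) (hz : z ∉ K) :
    finrank F ↥(K ⊔ Submodule.span F {z}) = finrank F K + 1 := by
  have hz0 : z ≠ 0 := by
    rintro rfl
    exact hz K.zero_mem
  have hdisj : K ⊓ Submodule.span F {z} = ⊥ := by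
    rw [eq_bot_iff]
    rintro y ⟨hyK, hyz⟩
    obtain ⟨c, rfl⟩ := Submodule.mem_span_singleton.1 hyz
    rw [Submodule.mem_bot]
    by_cases hc : c = 0
    · rw [hc, zero_smul]
    · exfalso
      apply hz
      have h := K.smul_mem c⁻¹ hyK
      rwa [smul_smul, inv_mul_cancel₀ hc, one_smul] at h
  have h3 := Submodule.finrank_sup_add_finrank_inf_eq K (Submodule.span F {z})
  rw [hdisj, finrank_bot, finrank_span_singleton hz0] at h3
  omega

theorem q_add_aux {F : Type*} [Field F] {V : Type*} [AddCommGroup V] [Module F V]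
    (Q : QuadraticForm F V) (x y : V) :
    Q (x + y) = Q x + Q y + QuadraticMap.polar (⇑Q) x y := by
  unfold QuadraticMap.polar
  ring

theorem invExP (hSum : Cfsg.Agent.H95.Oh.StSumType.{u, u})
    (hH : Cfsg.Agent.H14.Ot.StOHalf.{u, u}) : StInvExP.{u} := by
  intro F _ _ d h2 hns hd
  classical
  obtain ⟨Q, hQ⟩ : ∃ Q : QuadraticForm F (Fin d ⊕ Fin d → F),
      Q = Cfsg.Agent.H49.QP d F := ⟨_, rfl⟩
  have hcoe : (⇑Q : (Fin d ⊕ Fin d → F) → F) = Cfsg.quadFormPlus d F := by
    rw [hQ]
    rfl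
  obtain ⟨B, hB⟩ : ∃ B : (Fin d ⊕ Fin d → F) →ₗ[F] (Fin d ⊕ Fin d → F) →ₗ[F] F,
      B = QuadraticMap.polarBilin Q := ⟨_, rfl⟩
  have hBapp : ∀ u v, B u v = QuadraticMap.polar Q u v := by
    intro u v
    rw [hB]
    rfl
  have hsymm : ∀ u v, B u v = B v u := by
    intro u v
    rw [hBapp, hBapp]
    exact QuadraticMap.polar_comm Q u v
  have hBself : ∀ v, B v v = 2 * Q v := by
    intro v
    rw [hBapp, QuadraticMap.polar_self]
    simp [two_mul]
  have hnd : ∀ u, (∀ v, B u v = 0) → u = 0 := by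
    intro u hu
    have h := (Cfsg.Agent.H49.QP_nondeg d F).1
    apply h u
    intro v
    have := hu v
    rw [hB, hQ] at this
    exact this
  obtain ⟨i0, hi0⟩ : ∃ i0 : Fin d, i0 = ⟨0, by omega⟩ := ⟨_, rfl⟩
  obtain ⟨i1, hi1⟩ : ∃ i1 : Fin d, i1 = ⟨1, by omega⟩ := ⟨_, rfl⟩
  have hi01 : i0 ≠ i1 := by
    intro h
    have := congrArg Fin.val h
    rw [hi0, hi1] at this
    simp at this
  have hi10 : i1 ≠ i0 := fun h => hi01 h.symm
  obtain ⟨u, hu⟩ : ∃ u : Fin d ⊕ Fin d → F,
      u = Pi.single (Sum.inl i0) 1 + Pi.single (Sum.inr i0) 1 := ⟨_, rfl⟩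
  obtain ⟨v, hv⟩ : ∃ v : Fin d ⊕ Fin d → F,
      v = Pi.single (Sum.inl i1) 1 + Pi.single (Sum.inr i1) 1 := ⟨_, rfl⟩
  have hQu : Q u = 1 := by
    rw [hu, hQ, Cfsg.Agent.H49.QP_apply, Finset.sum_eq_single i0]
    · simp
    · intro j _ hj
      simp [Pi.single_apply, hj]
    · intro h
      exact absurd (Finset.mem_univ _) h
  have hQv : Q v = 1 := by
    rw [hv, hQ, Cfsg.Agent.H49.QP_apply, Finset.sum_eq_single i1]
    · simp
    · intro j _ hj
      simp [Pi.single_apply, hj]
    · intro h
      exact absurd (Finset.mem_univ _) h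
  have huv : QuadraticMap.polar (⇑Q) u v = 0 := by
    rw [hu, hQ, QuadraticMap.polar_add_left, Cfsg.Agent.H49.polar_QP_single_inl,
      Cfsg.Agent.H49.polar_QP_single_inr, hv]
    simp [Pi.single_apply, hi01, hi10]
  have hBuu : B u u = 2 := by rw [hBself, hQu, mul_one]
  have hBvv : B v v = 2 := by rw [hBself, hQv, mul_one]
  have hBuv : B u v = 0 := by
    rw [hBapp]
    exact huv
  have hBvu : B v u = 0 := by
    rw [hsymm]
    exact hBuv
  have hpw : [u, v].Pairwise (fun a b => QuadraticMap.polar (⇑Q) a b = 0) :=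
    List.pairwise_pair.2 huv
  obtain ⟨g, hg⟩ : ∃ g : ↥(Cfsg.isometryGroup F (⇑Q)),
      g = ([u, v].map (Cfsg.Agent.H49.reflG Q)).prod := ⟨_, rfl⟩
  have hgcoe : ((g : Matrix.GeneralLinearGroup (Fin d ⊕ Fin d) F) :
      Matrix (Fin d ⊕ Fin d) (Fin d ⊕ Fin d) F) =
      ([u, v].map (fun w => Cfsg.reflectionMatrix (⇑Q) w)).prod := by
    rw [hg]
    exact Cfsg.Agent.H49.coe_prod_reflG Q [u, v]
  have hne : ∀ w ∈ [u, v], Q w ≠ 0 := by
    intro w hw
    simp only [List.mem_cons, List.not_mem_nil, or_false] at hw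
    rcases hw with rfl | rfl
    · rw [hQu]
      exact one_ne_zero
    · rw [hQv]
      exact one_ne_zero
  have hgcomm : g ∈ commutator ↥(Cfsg.isometryGroup F (⇑Q)) := by
    rw [Cfsg.Agent.H49.mem_commutator_iff_of_prod_refl Q h2 g [u, v] hne hgcoe]
    refine ⟨⟨1, rfl⟩, ?_⟩
    simp only [List.map_cons, List.map_nil, List.prod_cons, List.prod_nil, hQu, hQv, mul_one]
    exact ⟨1, (mul_one 1).symm⟩
  have hgg : g * g = 1 := by
    rw [hg]
    exact Cfsg.Agent.H45.prod_reflG_sq Q [u, v] hpw
  have hact : ∀ y, Matrix.mulVec ((g : Matrix.GeneralLinearGroup (Fin d ⊕ Fin d) F) :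
      Matrix (Fin d ⊕ Fin d) (Fin d ⊕ Fin d) F) y =
      y - (B u y) • u - (B v y) • v := by
    intro y
    rw [hgcoe, Cfsg.Agent.H49.prod_refl_orthogonal Q [u, v] hpw y]
    simp only [List.map_cons, List.map_nil, List.sum_cons, List.sum_nil, hQu, hQv, inv_one,
      one_mul, add_zero, hBapp]
    abel
  refine ⟨(g : Matrix.GeneralLinearGroup (Fin d ⊕ Fin d) F), ?_, ?_, ?_, ?_⟩
  · rw [← hcoe]
    exact (Cfsg.Agent.H49.mem_omegaGL_iff (⇑Q) _).2 ⟨g, hgcomm, rfl⟩
  · rw [pow_two, ← Subgroup.coe_mul, hgg, Subgroup.coe_one]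
  · intro z hz
    have h := hact (Pi.single (Sum.inl i0) 1)
    rw [hz, Matrix.smul_mulVec, Matrix.one_mulVec] at h
    have hBu : B u (Pi.single (Sum.inl i0) 1) = 1 := by
      rw [hsymm, hBapp, hQ, Cfsg.Agent.H49.polar_QP_single_inl, hu]
      simp
    have hBv : B v (Pi.single (Sum.inl i0) 1) = 0 := by
      rw [hsymm, hBapp, hQ, Cfsg.Agent.H49.polar_QP_single_inl, hv]
      simp [Pi.single_apply, hi01, hi10]
    rw [hBu, hBv, one_smul, zero_smul, sub_zero] at h
    have h' := congrFun h (Sum.inr i0)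
    rw [hu] at h'
    simp at h'
  · intro W hWQ hWinv
    have hWQ' : ∀ w ∈ W, Q w = 0 := by
      intro w hw
      have h := hWQ w hw
      rw [← hcoe] at h
      exact h
    obtain ⟨K, hK⟩ : ∃ K : Submodule F (Fin d ⊕ Fin d → F),
        K = LinearMap.ker (B u) ⊓ LinearMap.ker (B v) := ⟨_, rfl⟩
    have hmemK : ∀ y, y ∈ K ↔ B u y = 0 ∧ B v y = 0 := by
      intro y
      rw [hK, Submodule.mem_inf, LinearMap.mem_ker, LinearMap.mem_ker]
    have haniso : ∀ a b : F, a * a + b * b = 0 → a = 0 ∧ b = 0 := by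
      intro a b h4
      have hb : b = 0 := by
        by_contra hb
        apply hns
        refine ⟨a / b, ?_⟩
        field_simp
        linear_combination -h4
      have ha : a = 0 := by
        rw [hb, mul_zero, add_zero] at h4
        exact mul_self_eq_zero.1 h4
      exact ⟨ha, hb⟩
    have hWK : W ≤ K := by
      intro w hw
      have h1 : Matrix.toLin' ((g : Matrix.GeneralLinearGroup (Fin d ⊕ Fin d) F) :
          Matrix (Fin d ⊕ Fin d) (Fin d ⊕ Fin d) F) w ∈ W :=
        hWinv (Submodule.mem_map_of_mem hw)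
      rw [Matrix.toLin'_apply, hact] at h1
      have h3 : (B u w) • u + (B v w) • v ∈ W := by
        have h := W.sub_mem hw h1
        have e : w - (w - (B u w) • u - (B v w) • v) = (B u w) • u + (B v w) • v := by abel
        rwa [e] at h
      have h4 := hWQ' _ h3
      rw [q_add_aux, QuadraticMap.map_smul, QuadraticMap.map_smul, QuadraticMap.polar_smul_left,
        QuadraticMap.polar_smul_right, huv, hQu, hQv] at h4
      simp only [smul_eq_mul, mul_one, mul_zero, add_zero] at h4
      exact (hmemK w).2 (haniso _ _ h4)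
    have h2inv : (2 : F)⁻¹ * 2 = 1 := inv_mul_cancel₀ h2
    have hproj : ∀ z, z - ((2 : F)⁻¹ * B u z) • u - ((2 : F)⁻¹ * B v z) • v ∈ K := by
      intro z
      rw [hmemK]
      constructor
      · rw [map_sub, map_sub, map_smul, map_smul, hBuu, hBuv, smul_eq_mul, smul_eq_mul,
          mul_zero, sub_zero]
        linear_combination (-(B u z)) * h2inv
      · rw [map_sub, map_sub, map_smul, map_smul, hBvu, hBvv, smul_eq_mul, smul_eq_mul,
          mul_zero, sub_zero]
        linear_combination (-(B v z)) * h2inv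
    have hKnd : K ⊓ perp B K = ⊥ := by
      rw [eq_bot_iff]
      rintro y ⟨hyK, hyp⟩
      rw [Submodule.mem_bot]
      apply hnd
      intro z
      obtain ⟨hyu, hyv⟩ := (hmemK y).1 hyK
      have h5 := hyp _ (hproj z)
      rw [map_sub, map_sub, map_smul, map_smul, LinearMap.sub_apply, LinearMap.sub_apply,
        LinearMap.smul_apply, LinearMap.smul_apply, hyu, hyv, smul_zero, smul_zero, sub_zero,
        sub_zero] at h5
      rw [hsymm]
      exact h5
    have hTI : TI B W := by
      intro w hw w' hw'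
      rw [hBapp]
      unfold QuadraticMap.polar
      rw [hWQ' _ (W.add_mem hw hw'), hWQ' w hw, hWQ' w' hw']
      simp
    have hhalf := hH F (Fin d ⊕ Fin d → F) B hsymm K W hKnd hWK hTI
    have huK : u ∉ K := by
      intro h
      have h' := ((hmemK u).1 h).1
      rw [hBuu] at h'
      exact h2 h'
    have hvK : v ∉ K ⊔ Submodule.span F {u} := by
      intro h
      obtain ⟨k, hk, w, hw, hkw⟩ := Submodule.mem_sup.1 h
      obtain ⟨c, rfl⟩ := Submodule.mem_span_singleton.1 hw
      have h6 : B v (k + c • u) = 0 := by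
        rw [map_add, map_smul, ((hmemK k).1 hk).2, hBvu, smul_zero, add_zero]
      rw [hkw, hBvv] at h6
      exact h2 h6
    have h7 := finrank_sup_singleton_aux K u huK
    have h8 := finrank_sup_singleton_aux (K ⊔ Submodule.span F {u}) v hvK
    have htop : K ⊔ Submodule.span F {u} ⊔ Submodule.span F {v} = ⊤ := by
      rw [eq_top_iff]
      intro z _
      have e : z = (z - ((2 : F)⁻¹ * B u z) • u - ((2 : F)⁻¹ * B v z) • v) +
          ((2 : F)⁻¹ * B u z) • u + ((2 : F)⁻¹ * B v z) • v := by abel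
      rw [e]
      exact Submodule.add_mem _ (Submodule.add_mem _
        (Submodule.mem_sup_left (Submodule.mem_sup_left (hproj z)))
        (Submodule.mem_sup_left (Submodule.mem_sup_right
          (Submodule.smul_mem _ _ (Submodule.mem_span_singleton_self u)))))
        (Submodule.mem_sup_right (Submodule.smul_mem _ _ (Submodule.mem_span_singleton_self v)))
    have hKdim : finrank F K + 2 = 2 * d := by
      have h := h8
      rw [htop, finrank_top, Cfsg.Agent.H49.finrank_plus] at h
      omega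
    obtain ⟨P, hP⟩ : ∃ P : Submodule F (Fin d ⊕ Fin d → F),
        P = Submodule.span F {u} ⊔ Submodule.span F {v} := ⟨_, rfl⟩
    have hmemP : ∀ y, y ∈ P ↔ ∃ a b : F, y = a • u + b • v := by
      intro y
      rw [hP, Submodule.mem_sup]
      constructor
      · rintro ⟨y1, h1, y2, h2', rfl⟩
        obtain ⟨a, rfl⟩ := Submodule.mem_span_singleton.1 h1
        obtain ⟨b, rfl⟩ := Submodule.mem_span_singleton.1 h2'
        exact ⟨a, b, rfl⟩
      · rintro ⟨a, b, rfl⟩
        exact ⟨_, Submodule.smul_mem _ _ (Submodule.mem_span_singleton_self u), _,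
          Submodule.smul_mem _ _ (Submodule.mem_span_singleton_self v), rfl⟩
    have hPdim : finrank F P = 2 := by
      rw [hP]
      have hu0 : u ≠ 0 := by
        rintro rfl
        rw [map_zero] at hQu
        exact zero_ne_one hQu
      have hvu : v ∉ Submodule.span F {u} := by
        intro h
        obtain ⟨c, hc⟩ := Submodule.mem_span_singleton.1 h
        have h6 : B (c • u) u = 0 := by rw [hc]; exact hBvu
        rw [map_smul, LinearMap.smul_apply, hBuu, smul_eq_mul] at h6
        rcases mul_eq_zero.1 h6 with h | h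
        · rw [h, zero_smul] at hc
          rw [← hc, map_zero] at hQv
          exact zero_ne_one hQv
        · exact h2 h
      have h := finrank_sup_singleton_aux (Submodule.span F {u}) v hvu
      rw [finrank_span_singleton hu0] at h
      exact h
    have hPnd : P ⊓ perp B P = ⊥ := by
      rw [eq_bot_iff]
      rintro y ⟨hyP, hyp⟩
      obtain ⟨a, b, rfl⟩ := (hmemP y).1 hyP
      have hu' : u ∈ P := (hmemP u).2 ⟨1, 0, by simp⟩
      have hv' : v ∈ P := (hmemP v).2 ⟨0, 1, by simp⟩
      have e1 := hyp u hu'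
      have e2 := hyp v hv'
      rw [map_add, map_smul, map_smul, hBuu, hBuv, smul_eq_mul, smul_eq_mul, mul_zero,
        add_zero] at e1
      rw [map_add, map_smul, map_smul, hBvu, hBvv, smul_eq_mul, smul_eq_mul, mul_zero,
        zero_add] at e2
      have ha : a = 0 := (mul_eq_zero.1 e1).resolve_right h2
      have hb : b = 0 := (mul_eq_zero.1 e2).resolve_right h2
      rw [Submodule.mem_bot, ha, hb, zero_smul, zero_smul, add_zero]
    have hPK : P ≤ perp B K := by
      intro y hy k hk
      obtain ⟨a, b, rfl⟩ := (hmemP y).1 hy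
      obtain ⟨hku, hkv⟩ := (hmemK k).1 hk
      rw [map_add, map_smul, map_smul, hsymm k u, hsymm k v, hku, hkv, smul_zero, smul_zero,
        add_zero]
    have hKP : K ⊔ P = ⊤ := by
      rw [hP, ← sup_assoc]
      exact htop
    have hPlusTop : Plus B ⊤ := by
      refine ⟨Cfsg.Agent.H49.U0 d F, le_top, ?_, ?_⟩
      · intro a ha b hb
        have hU := Cfsg.Agent.H49.U0_ts d F
        have e1 : Q a = 0 := by rw [hQ]; exact hU a ha
        have e2 : Q b = 0 := by rw [hQ]; exact hU b hb
        have e3 : Q (a + b) = 0 := by rw [hQ]; exact hU (a + b) (Submodule.add_mem _ ha hb)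
        rw [hBapp]
        unfold QuadraticMap.polar
        rw [e1, e2, e3]
        simp
      · rw [Cfsg.Agent.H49.finrank_U0, finrank_top, Cfsg.Agent.H49.finrank_plus]
    have hnotP : ¬ Plus B P := by
      rintro ⟨U, hUP, hUTI, hUdim⟩
      rw [hPdim] at hUdim
      have hU1 : finrank F U = 1 := by omega
      obtain ⟨y, hyU, hy0⟩ : ∃ y ∈ U, y ≠ 0 := by
        by_contra hcon
        push_neg at hcon
        have hbot : U = ⊥ := by
          rw [eq_bot_iff]
          intro y hy
          rw [Submodule.mem_bot]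
          exact hcon y hy
        rw [hbot, finrank_bot] at hU1
        omega
      obtain ⟨a, b, rfl⟩ := (hmemP y).1 (hUP hyU)
      have e := hUTI _ hyU _ hyU
      rw [hBself, q_add_aux, QuadraticMap.map_smul, QuadraticMap.map_smul,
        QuadraticMap.polar_smul_left, QuadraticMap.polar_smul_right, huv, hQu, hQv] at e
      simp only [smul_eq_mul, mul_one, mul_zero, add_zero] at e
      have e' : a * a + b * b = 0 := (mul_eq_zero.1 e).resolve_left h2
      obtain ⟨ha, hb⟩ := haniso a b e'
      apply hy0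
      rw [ha, hb, zero_smul, zero_smul, add_zero]
    have hsum := hSum F (Fin d ⊕ Fin d → F) B h2 hsymm K P hKnd hPnd hPK
      ⟨d - 1, by omega⟩ (by rw [hPdim]; exact even_two)
    have hKnot : ¬ Plus B K := by
      intro hKp
      have h := hsum.2.2
      rw [hKP] at h
      exact hnotP ((h.1 hPlusTop).1 hKp)
    have hlt : 2 * finrank F W ≠ finrank F K := by
      intro h
      exact hKnot ⟨W, hWK, hTI, h⟩
    omega

example (hSum : Cfsg.Agent.H95.Oh.StSumType.{u, u}) (hH : Cfsg.Agent.H14.Ot.StOHalf.{u, u}) :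
    StInvExP.{u} := invExP hSum hH

end Cfsg.Agent.H32.Ev2
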