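import Mathlib
import Cfsg.Agent.H95.FHDefs

/-!
# helper32: piece S1142-SPEC2 of the Feit–Higman project (helper95)

A polynomial vanishing at every eigenvalue of a real symmetric matrix annihilates the matrix
(spectral theorem).
-/

set_option autoImplicit false

universe u

namespace Cfsg.Agent.H32.FH

open Matrix

section

variable {Ω : Type u} [Fintype Ω] [DecidableEq Ω]

/-- Polynomials of diagonal matrices. -/
theorem aeval_diag (v : Ω → ℝ) (Q : Polynomial ℝ) :
    Polynomial.aeval (Matrix.diagonal v) Q = Matrix.diagonal (fun i => Q.eval (v i)) := by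
  have h := Polynomial.aeval_algHom_apply (Matrix.diagonalAlgHom ℝ (n := Ω) (α := ℝ)) v Q
  have h1 : Matrix.diagonalAlgHom ℝ (n := Ω) (α := ℝ) v = Matrix.diagonal v := rfl
  rw [h1] at h
  rw [h]
  show Matrix.diagonal (Polynomial.aeval v Q) = _
  congr 1
  funext i
  rw [Polynomial.aeval_pi_apply₂]
  rfl

/-- A real symmetric matrix is Hermitian. -/
theorem isHermitian_of_transpose (D : Matrix Ω Ω ℝ) (hD : Dᵀ = D) : D.IsHermitian := by
  show Dᴴ = D
  rw [Matrix.conjTranspose_eq_transpose_of_trivial, hD]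

/-- The spectral theorem for polynomials of a real symmetric matrix. -/
theorem aeval_spectral (D : Matrix Ω Ω ℝ) (hD : D.IsHermitian) (Q : Polynomial ℝ) :
    Polynomial.aeval D Q = (hD.eigenvectorUnitary : Matrix Ω Ω ℝ) *
      Matrix.diagonal (fun i => Q.eval (hD.eigenvalues i)) *
      (star (hD.eigenvectorUnitary : Matrix Ω Ω ℝ)) := by
  have h := hD.spectral_theorem
  have h2 : Polynomial.aeval D Q = Unitary.conjStarAlgAut ℝ _ hD.eigenvectorUnitary
      (Polynomial.aeval (Matrix.diagonal (hD.eigenvalues)) Q) := by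
    conv_lhs => rw [h]
    exact Polynomial.aeval_algHom_apply _ _ _
  rw [h2, aeval_diag, Unitary.conjStarAlgAut_apply]

/-- The eigenvalues of the spectral theorem are eigenvalues. -/
theorem eigenvalues_spec (D : Matrix Ω Ω ℝ) (hD : D.IsHermitian) (i : Ω) :
    ∃ v : Ω → ℝ, v ≠ 0 ∧ D.mulVec v = hD.eigenvalues i • v :=
  ⟨_, (WithLp.ofLp_eq_zero 2).ne.2 <| hD.eigenvectorBasis.orthonormal.ne_zero i,
    hD.mulVec_eigenvectorBasis i⟩

/-- Two polynomials agreeing on the eigenvalues agree on the matrix. -/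
theorem aeval_congr (D : Matrix Ω Ω ℝ) (hD : D.IsHermitian) (P Q : Polynomial ℝ)
    (h : ∀ i, P.eval (hD.eigenvalues i) = Q.eval (hD.eigenvalues i)) :
    Polynomial.aeval D P = Polynomial.aeval D Q := by
  rw [aeval_spectral D hD P, aeval_spectral D hD Q]
  congr 3
  funext i
  exact h i

end

theorem spec2 : Cfsg.Agent.H95.FH.Spec2Stmt.{u} := by
  intro Ω _ _ D hD Q hQ
  have hH := isHermitian_of_transpose D hD
  rw [aeval_spectral D hH Q]
  have h0 : (fun i => Q.eval (hH.eigenvalues i)) = 0 := by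
    funext i
    exact hQ _ (eigenvalues_spec D hH i)
  rw [h0]
  show _ * Matrix.diagonal (fun _ : Ω => (0 : ℝ)) * _ = 0
  rw [Matrix.diagonal_zero, mul_zero, zero_mul]

example : Cfsg.Agent.H95.FH.Spec2Stmt.{u} := spec2

end Cfsg.Agent.H32.FH
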