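import Mathlib
import Cfsg.Agent.H95.FHDefs
import Cfsg.Agent.H32.FHSPEC2

/-!
# helper32: piece S1142-SPEC of the Feit–Higman project (helper95)

The spectral projection of a real symmetric matrix onto an eigenspace is a polynomial in the
matrix: symmetric, idempotent, with trace a positive integer.
-/

set_option autoImplicit false

universe u

namespace Cfsg.Agent.H32.FH

open Matrix

section

variable {Ω : Type u} [Fintype Ω] [DecidableEq Ω]

/-- Polynomials of a symmetric matrix are symmetric. -/
theorem transpose_aeval (D : Matrix Ω Ω ℝ) (hD : Dᵀ = D) (L : Polynomial ℝ) :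
    (Polynomial.aeval D L)ᵀ = Polynomial.aeval D L := by
  rw [Polynomial.aeval_eq_sum_range, Matrix.transpose_sum]
  apply Finset.sum_congr rfl
  intro i _
  rw [Matrix.transpose_smul, Matrix.transpose_pow, hD]

/-- An eigenvalue is one of the eigenvalues of the spectral theorem. -/
theorem exists_eigenvalues_eq (D : Matrix Ω Ω ℝ) (hD : D.IsHermitian) (μ : ℝ)
    (hμ : ∃ v : Ω → ℝ, v ≠ 0 ∧ D.mulVec v = μ • v) : ∃ i, hD.eigenvalues i = μ := by
  obtain ⟨v, hv0, hv⟩ := hμ
  have h0 : Polynomial.aeval D (∏ i : Ω, (Polynomial.X - Polynomial.C (hD.eigenvalues i))) = 0 := by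
    rw [aeval_spectral D hD]
    have h1 : (fun j => (∏ i : Ω, (Polynomial.X - Polynomial.C (hD.eigenvalues i))).eval
        (hD.eigenvalues j)) = fun _ => (0 : ℝ) := by
      funext j
      rw [Polynomial.eval_prod]
      apply Finset.prod_eq_zero (Finset.mem_univ j)
      simp
    rw [h1, Matrix.diagonal_zero, mul_zero, zero_mul]
  have h2 := Polynomial.aeval_algHom_apply (Matrix.toLinAlgEquiv' (R := ℝ) (n := Ω)) D
    (∏ i : Ω, (Polynomial.X - Polynomial.C (hD.eigenvalues i)))
  rw [h0, map_zero] at h2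
  have h3 : (Matrix.toLinAlgEquiv' (R := ℝ) (n := Ω) D) v = μ • v := hv
  have h4 := Module.End.aeval_apply_of_mem_apply_eq_smul
    (p := ∏ i : Ω, (Polynomial.X - Polynomial.C (hD.eigenvalues i))) h3
  rw [h2, LinearMap.zero_apply] at h4
  have h5 : (∏ i : Ω, (Polynomial.X - Polynomial.C (hD.eigenvalues i))).eval μ = 0 := by
    rcases smul_eq_zero.mp h4.symm with h | h
    · exact h
    · exact absurd h hv0
  rw [Polynomial.eval_prod, Finset.prod_eq_zero_iff] at h5
  obtain ⟨i, -, hi⟩ := h5
  refine ⟨i, ?_⟩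
  simp only [Polynomial.eval_sub, Polynomial.eval_X, Polynomial.eval_C] at hi
  linarith

end

theorem spec : Cfsg.Agent.H95.FH.SpecStmt.{u} := by
  intro Ω _ _ D hD μ hμ
  classical
  have hH := isHermitian_of_transpose D hD
  obtain ⟨i₀, hi₀⟩ := exists_eigenvalues_eq D hH μ hμ
  -- the Lagrange polynomial
  let S : Finset ℝ := (Finset.univ.image hH.eigenvalues).erase μ
  let L : Polynomial ℝ := ∏ t ∈ S, (Polynomial.C (μ - t)⁻¹ * (Polynomial.X - Polynomial.C t))
  have hL : ∀ i, L.eval (hH.eigenvalues i) = if hH.eigenvalues i = μ then 1 else 0 := by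
    intro i
    show (∏ t ∈ S, (Polynomial.C (μ - t)⁻¹ * (Polynomial.X - Polynomial.C t))).eval _ = _
    rw [Polynomial.eval_prod]
    split_ifs with h
    · apply Finset.prod_eq_one
      intro t ht
      have htμ : t ≠ μ := (Finset.mem_erase.mp ht).1
      simp only [Polynomial.eval_mul, Polynomial.eval_sub, Polynomial.eval_X, Polynomial.eval_C]
      rw [h]
      exact inv_mul_cancel₀ (sub_ne_zero.mpr (Ne.symm htμ))
    · apply Finset.prod_eq_zero (i := hH.eigenvalues i)
      · exact Finset.mem_erase.mpr ⟨h, Finset.mem_image.mpr ⟨i, Finset.mem_univ i, rfl⟩⟩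
      · simp
  refine ⟨L, transpose_aeval D hD L, ?_, ?_, ?_⟩
  · rw [← map_mul]
    apply aeval_congr D hH
    intro i
    rw [Polynomial.eval_mul, hL]
    split_ifs <;> simp
  · have h1 : D * Polynomial.aeval D L = Polynomial.aeval D (Polynomial.X * L) := by
      rw [map_mul, Polynomial.aeval_X]
    have h2 : μ • Polynomial.aeval D L = Polynomial.aeval D (Polynomial.C μ * L) := by
      rw [map_mul, Polynomial.aeval_C, Algebra.algebraMap_eq_smul_one, smul_mul_assoc, one_mul]
    rw [h1, h2]
    apply aeval_congr D hH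
    intro i
    rw [Polynomial.eval_mul, Polynomial.eval_mul, Polynomial.eval_X, Polynomial.eval_C, hL]
    split_ifs with h
    · rw [h]
    · rw [mul_zero, mul_zero]
  · refine ⟨(Finset.univ.filter (fun i => hH.eigenvalues i = μ)).card, ?_, ?_⟩
    · exact Finset.card_pos.mpr ⟨i₀, Finset.mem_filter.mpr ⟨Finset.mem_univ _, hi₀⟩⟩
    · rw [aeval_spectral D hH L, Matrix.trace_mul_comm, ← mul_assoc, Unitary.coe_star_mul_self,
        one_mul, Matrix.trace_diagonal]
      simp only [hL]
      rw [Finset.sum_boole]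

example : Cfsg.Agent.H95.FH.SpecStmt.{u} := spec

end Cfsg.Agent.H32.FH
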