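import Mathlib
import Cfsg.Agent.H32.Frob66

set_option autoImplicit false

namespace Cfsg.Agent.H32

open scoped commutatorElement

/-- Conjugation action of `L` on the quotient `L ⧸ H`. -/
@[reducible] def conjQuot {L : Type*} [Group L] (H : Subgroup L) [H.Normal] :
    MulAction L (L ⧸ H) where
  smul g a := (g : L ⧸ H) * a * (g : L ⧸ H)⁻¹
  one_smul a := by
    show ((1 : L) : L ⧸ H) * a * ((1 : L) : L ⧸ H)⁻¹ = a
    simp
  mul_smul g h a := by
    show ((g * h : L) : L ⧸ H) * a * ((g * h : L) : L ⧸ H)⁻¹ =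
      (g : L ⧸ H) * ((h : L ⧸ H) * a * (h : L ⧸ H)⁻¹) * (g : L ⧸ H)⁻¹
    simp [mul_assoc]

/-- Frobenius-type divisibility: if the elements of `K` outside `H₁` are centralised
modulo `H₁` exactly by `K`, then `[L:K]` divides `[N:H₁] - 1` for `N` normal in `L` between
`H₁` and `K`. -/
theorem frob_dvd {L : Type*} [Group L] [Finite L] (K H₁ N : Subgroup L) [H₁.Normal] [N.Normal]
    (hcomm : ⁅K, K⁆ ≤ H₁) (hNK : N ≤ K)
    (hfrob : ∀ k ∈ K, k ∉ H₁ → ∀ x : L, x * k * x⁻¹ * k⁻¹ ∈ H₁ → x ∈ K) :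
    K.index ∣ H₁.relIndex N - 1 := by
  classical
  letI := conjQuot H₁
  haveI : Fintype (L ⧸ H₁) := Fintype.ofFinite _
  have hsmul : ∀ (g : L) (a : L ⧸ H₁), g • a = (g : L ⧸ H₁) * a * (g : L ⧸ H₁)⁻¹ :=
    fun _ _ => rfl
  obtain ⟨T, hT⟩ : ∃ T : Finset (L ⧸ H₁), T =
      (Finset.univ.filter (fun a => a ∈ N.map (QuotientGroup.mk' H₁))).erase 1 := ⟨_, rfl⟩
  have hTmem : ∀ a, a ∈ T ↔ a ≠ 1 ∧ a ∈ N.map (QuotientGroup.mk' H₁) := by
    intro a
    rw [hT]
    simp
  have hcard : T.card = H₁.relIndex N - 1 := by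
    have h1 : Nat.card (N.map (QuotientGroup.mk' H₁)) = H₁.relIndex N := by
      rw [← Subgroup.relIndex_ker, QuotientGroup.ker_mk']
    have h2 : Nat.card (N.map (QuotientGroup.mk' H₁)) =
        (Finset.univ.filter (fun a => a ∈ N.map (QuotientGroup.mk' H₁))).card := by
      rw [← Fintype.card_subtype]
      exact Nat.card_eq_fintype_card
    have h3 : (1 : L ⧸ H₁) ∈ Finset.univ.filter (fun a => a ∈ N.map (QuotientGroup.mk' H₁)) :=
      Finset.mem_filter.mpr ⟨Finset.mem_univ _, Subgroup.one_mem _⟩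
    rw [hT, Finset.card_erase_of_mem h3, ← h2, h1]
  have hinv : ∀ g : L, ∀ a ∈ T, g • a ∈ T := by
    intro g a ha
    rw [hTmem] at ha ⊢
    obtain ⟨ha1, n, hn, rfl⟩ := ha
    refine ⟨?_, ?_⟩
    · rw [hsmul]
      intro h
      rw [conj_eq_one_iff] at h
      exact ha1 h
    · exact ⟨g * n * g⁻¹, (inferInstance : N.Normal).conj_mem n hn g, rfl⟩
  have hstab : ∀ a ∈ T, (MulAction.stabilizer L a).index = K.index := by
    intro a ha
    rw [hTmem] at ha
    obtain ⟨ha1, n, hn, rfl⟩ := ha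
    have hnH₁ : n ∉ H₁ := by
      intro h
      apply ha1
      rw [QuotientGroup.mk'_apply, QuotientGroup.eq_one_iff]
      exact h
    have hstabK : MulAction.stabilizer L ((QuotientGroup.mk' H₁) n) = K := by
      ext g
      rw [MulAction.mem_stabilizer_iff, hsmul]
      have key : (g : L ⧸ H₁) * (QuotientGroup.mk' H₁) n * (g : L ⧸ H₁)⁻¹ =
          (QuotientGroup.mk' H₁) n ↔ g * n * g⁻¹ * n⁻¹ ∈ H₁ := by
        rw [← QuotientGroup.eq_one_iff (N := H₁)]
        simp only [QuotientGroup.mk'_apply, QuotientGroup.mk_mul, QuotientGroup.mk_inv,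
          mul_inv_eq_one]
      rw [key]
      constructor
      · exact hfrob n (hNK hn) hnH₁ g
      · intro hg
        have h : ⁅g, n⁆ ∈ ⁅K, K⁆ := Subgroup.commutator_mem_commutator hg (hNK hn)
        rw [commutatorElement_def] at h
        exact hcomm h
    rw [hstabK]
  rw [← hcard]
  exact card_dvd_of_stabilizer_index K.index T hinv hstab

theorem num_odd_ge (e a : ℕ) (he : Odd e) (ha : Odd a) (h1 : 1 < a) (hd : e ∣ a - 1) :
    2 * e + 1 ≤ a := by
  obtain ⟨c, hc⟩ := hd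
  have ha' : a = e * c + 1 := by omega
  rcases Nat.even_or_odd c with hc2 | hc2
  · obtain ⟨c', rfl⟩ := hc2
    have hc' : 1 ≤ c' := by
      rcases Nat.eq_zero_or_pos c' with h0 | h0
      · subst h0
        simp at ha'
        omega
      · exact h0
    nlinarith
  · exfalso
    have h2 : Even (e * c + 1) := (he.mul hc2).add_one
    rw [← ha'] at h2
    exact (Nat.not_even_iff_odd.mpr ha) h2

/-- Case (a) of Peterfalvi (6.6): a normal subgroup strictly between gives the numerical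
bound. -/
theorem frob_between_bound {L : Type*} [Group L] [Finite L] (hodd : Odd (Nat.card L))
    (K H₁ N : Subgroup L) [K.Normal] [H₁.Normal] [N.Normal]
    (hcomm : ⁅K, K⁆ ≤ H₁) (hH₁N : H₁ < N) (hNK : N < K)
    (hfrob : ∀ k ∈ K, k ∉ H₁ → ∀ x : L, x * k * x⁻¹ * k⁻¹ ∈ H₁ → x ∈ K) :
    4 * K.index ^ 2 + 1 < H₁.relIndex K := by
  have hmul : H₁.relIndex N * N.relIndex K = H₁.relIndex K :=
    Subgroup.relIndex_mul_relIndex _ _ _ hH₁N.le hNK.le
  have hd1 := frob_dvd K H₁ N hcomm hNK.le hfrob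
  have hd2 := frob_dvd K H₁ K hcomm le_rfl hfrob
  have ha1 : 1 < H₁.relIndex N := by
    have h0 : H₁.relIndex N ≠ 0 := Subgroup.index_ne_zero_of_finite
    have h1 : H₁.relIndex N ≠ 1 := by
      intro h
      rw [Subgroup.relIndex_eq_one] at h
      exact (not_le_of_gt hH₁N) h
    omega
  have hb1 : 1 < N.relIndex K := by
    have h0 : N.relIndex K ≠ 0 := Subgroup.index_ne_zero_of_finite
    have h1 : N.relIndex K ≠ 1 := by
      intro h
      rw [Subgroup.relIndex_eq_one] at h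
      exact (not_le_of_gt hNK) h
    omega
  have hoddK : Odd (Nat.card K) := hodd.of_dvd_nat (Subgroup.card_subgroup_dvd_card K)
  have hoddN : Odd (Nat.card N) := hodd.of_dvd_nat (Subgroup.card_subgroup_dvd_card N)
  have hao : Odd (H₁.relIndex N) := hoddN.of_dvd_nat (Subgroup.relIndex_dvd_card H₁ N)
  have hbo : Odd (N.relIndex K) := hoddK.of_dvd_nat (Subgroup.relIndex_dvd_card N K)
  have heo : Odd K.index := hodd.of_dvd_nat (Subgroup.index_dvd_card K)
  have hd3 : K.index ∣ N.relIndex K - 1 := by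
    have m1 : H₁.relIndex N ≡ 1 [MOD K.index] :=
      ((Nat.modEq_iff_dvd' ha1.le).mpr hd1).symm
    have m2 : H₁.relIndex N * N.relIndex K ≡ 1 [MOD K.index] := by
      rw [hmul]
      have : 1 ≤ H₁.relIndex K := by
        rw [← hmul]
        exact Nat.mul_pos (by omega) (by omega)
      exact ((Nat.modEq_iff_dvd' this).mpr hd2).symm
    have m3 : N.relIndex K ≡ 1 [MOD K.index] := by
      have : 1 * N.relIndex K ≡ H₁.relIndex N * N.relIndex K [MOD K.index] :=
        Nat.ModEq.mul_right _ m1.symm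
      rw [one_mul] at this
      exact this.trans m2
    exact (Nat.modEq_iff_dvd' hb1.le).mp m3.symm
  have hA := num_odd_ge K.index _ heo hao ha1 hd1
  have hB := num_odd_ge K.index _ heo hbo hb1 hd3
  have hepos : 0 < K.index := Nat.pos_of_ne_zero Subgroup.index_ne_zero_of_finite
  rw [← hmul]
  calc 4 * K.index ^ 2 + 1 < (2 * K.index + 1) * (2 * K.index + 1) := by nlinarith
    _ ≤ H₁.relIndex N * N.relIndex K := Nat.mul_le_mul hA hB

end Cfsg.Agent.H32
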