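import Mathlib
import Cfsg.Agent.H32.Chain

set_option autoImplicit false

namespace Cfsg.Agent.H32

open scoped commutatorElement

/-- If `K/H₁` is abelian and not of prime-power order, some normal subgroup of `L` lies
strictly between `H₁` and `K` (the preimage of a primary component). -/
theorem exists_between_of_not_prime_pow {L : Type*} [Group L] [Finite L] (K H₁ : Subgroup L)
    [K.Normal] [H₁.Normal] (hcomm : ⁅K, K⁆ ≤ H₁) (hH₁K : H₁ < K)
    (hnpp : ¬ ∃ p m : ℕ, p.Prime ∧ H₁.relIndex K = p ^ m) :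
    ∃ N : Subgroup L, N.Normal ∧ H₁ < N ∧ N < K := by
  classical
  obtain ⟨π, hπ⟩ : ∃ π : L →* L ⧸ H₁, π = QuotientGroup.mk' H₁ := ⟨_, rfl⟩
  have hker : ∀ x, π x = 1 ↔ x ∈ H₁ := by
    intro x
    rw [hπ, QuotientGroup.mk'_apply, QuotientGroup.eq_one_iff]
  have hcardK : Nat.card (K.map π) = H₁.relIndex K := by
    rw [← Subgroup.relIndex_ker, hπ, QuotientGroup.ker_mk']
  have hab : ∀ a ∈ K.map π, ∀ b ∈ K.map π, a * b = b * a := by
    rintro _ ⟨k₁, hk₁, rfl⟩ _ ⟨k₂, hk₂, rfl⟩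
    have h : ⁅k₁, k₂⁆ ∈ ⁅K, K⁆ := Subgroup.commutator_mem_commutator hk₁ hk₂
    have h2 := (hker _).mpr (hcomm h)
    rw [map_commutatorElement, commutatorElement_eq_one_iff_mul_comm] at h2
    exact h2
  have hne1 : H₁.relIndex K ≠ 1 := by
    intro h
    rw [Subgroup.relIndex_eq_one] at h
    exact not_le_of_gt hH₁K h
  obtain ⟨p, hp, hpd⟩ := Nat.exists_prime_and_dvd hne1
  haveI : Fact p.Prime := ⟨hp⟩
  obtain ⟨P, hPmem⟩ : ∃ P : Subgroup (L ⧸ H₁), ∀ a, a ∈ P ↔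
      a ∈ K.map π ∧ ∃ n : ℕ, a ^ (p ^ n) = 1 := by
    refine ⟨{ carrier := {a | a ∈ K.map π ∧ ∃ n : ℕ, a ^ (p ^ n) = 1}
              one_mem' := ⟨Subgroup.one_mem _, 0, by simp⟩
              mul_mem' := ?_
              inv_mem' := ?_ }, fun a => Iff.rfl⟩
    · rintro a b ⟨ha, n, hn⟩ ⟨hb, m, hm⟩
      refine ⟨Subgroup.mul_mem _ ha hb, n + m, ?_⟩
      have hc : Commute a b := hab a ha b hb
      rw [hc.mul_pow, pow_add, pow_mul, hn, one_pow, mul_comm (p ^ n) (p ^ m), pow_mul, hm,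
        one_pow, one_mul]
    · rintro a ⟨ha, n, hn⟩
      exact ⟨Subgroup.inv_mem _ ha, n, by rw [inv_pow, hn, inv_one]⟩
  have hKmapN : (K.map π).Normal :=
    Subgroup.Normal.map inferInstance π (by rw [hπ]; exact QuotientGroup.mk'_surjective H₁)
  have hPn : P.Normal := by
    constructor
    intro a ha g
    rw [hPmem] at ha ⊢
    obtain ⟨haK, n, hn⟩ := ha
    exact ⟨hKmapN.conj_mem a haK g, n, by rw [conj_pow, hn, mul_one, mul_inv_cancel]⟩
  refine ⟨P.comap π, hPn.comap π, ?_, ?_⟩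
  · have hle : H₁ ≤ P.comap π := by
      intro h hh
      rw [Subgroup.mem_comap, (hker h).mpr hh]
      exact Subgroup.one_mem _
    refine lt_of_le_of_ne hle ?_
    intro heq
    have hpd' : p ∣ Nat.card (K.map π) := by
      rw [hcardK]
      exact hpd
    obtain ⟨a, ha⟩ := exists_prime_orderOf_dvd_card' p hpd'
    obtain ⟨k, hk, hka⟩ := Subgroup.mem_map.mp a.2
    have hap : a ^ p = 1 := by
      have := pow_orderOf_eq_one a
      rwa [ha] at this
    have hkN : k ∈ P.comap π := by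
      rw [Subgroup.mem_comap, hka, hPmem]
      refine ⟨a.2, 1, ?_⟩
      rw [pow_one, ← Subgroup.coe_pow, hap, Subgroup.coe_one]
    rw [← heq] at hkN
    have h1 : (a : L ⧸ H₁) = 1 := by
      rw [← hka]
      exact (hker k).mpr hkN
    have ha1 : a = 1 := Subtype.ext h1
    rw [ha1, orderOf_one] at ha
    exact hp.one_lt.ne ha
  · have hle : P.comap π ≤ K := by
      intro g hg
      rw [Subgroup.mem_comap, hPmem] at hg
      obtain ⟨k, hk, hkg⟩ := Subgroup.mem_map.mp hg.1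
      have h1 : k⁻¹ * g ∈ H₁ := by
        rw [← hker, map_mul, map_inv, hkg, inv_mul_cancel]
      have := K.mul_mem hk (hH₁K.le h1)
      simpa using this
    refine lt_of_le_of_ne hle ?_
    intro heq
    apply hnpp
    have hPG : IsPGroup p (K.map π) := by
      intro a
      obtain ⟨k, hk, hka⟩ := Subgroup.mem_map.mp a.2
      have hkN : k ∈ P.comap π := by
        rw [heq]
        exact hk
      rw [Subgroup.mem_comap, hka, hPmem] at hkN
      obtain ⟨n, hn⟩ := hkN.2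
      exact ⟨n, Subtype.ext (by rw [Subgroup.coe_pow, hn, Subgroup.coe_one])⟩
    obtain ⟨n, hn⟩ := IsPGroup.iff_card.mp hPG
    exact ⟨p, n, hp, by rw [← hcardK, hn]⟩

/-- A finite nilpotent group of order divisible by `q` has a normal subgroup containing the
commutator subgroup and of index divisible by `q`. -/
theorem nilpotent_exists_normal_index {Q : Type*} [Group Q] [Finite Q]
    [hnil : Group.IsNilpotent Q] (q : ℕ) (hq : q.Prime) (hdvd : q ∣ Nat.card Q) :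
    ∃ N : Subgroup Q, N.Normal ∧ commutator Q ≤ N ∧ q ∣ N.index := by
  classical
  haveI : Fact q.Prime := ⟨hq⟩
  have tfae := isNilpotent_of_finite_tfae (G := Q)
  obtain ⟨ψ⟩ := (tfae.out 0 4).mp hnil
  have hqmem : q ∈ (Nat.card Q).primeFactors :=
    Nat.mem_primeFactors.mpr ⟨hq, hdvd, Nat.card_pos.ne'⟩
  obtain ⟨P⟩ : Nonempty (Sylow q Q) := inferInstance
  obtain ⟨φ₀, hφ₀⟩ : ∃ φ₀ : Q →* ↥(P : Subgroup Q), Function.Surjective φ₀ := by
    refine ⟨((Pi.evalMonoidHom (fun P : Sylow q Q => ↥(P : Subgroup Q)) P).comp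
      (Pi.evalMonoidHom (fun p : (Nat.card Q).primeFactors =>
        ∀ P : Sylow p Q, ↥(P : Subgroup Q)) ⟨q, hqmem⟩)).comp ψ.symm.toMonoidHom, ?_⟩
    intro y
    obtain ⟨f₁, hf₁⟩ := Function.surjective_eval (β := fun P : Sylow q Q => ↥(P : Subgroup Q)) P y
    obtain ⟨f₂, hf₂⟩ := Function.surjective_eval
      (β := fun p : (Nat.card Q).primeFactors => ∀ P : Sylow p Q, ↥(P : Subgroup Q))
      ⟨q, hqmem⟩ f₁
    refine ⟨ψ f₂, ?_⟩
    simp only [MonoidHom.coe_comp, Function.comp_apply, MulEquiv.coe_toMonoidHom,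
      MulEquiv.symm_apply_apply, Pi.evalMonoidHom_apply]
    rw [show f₂ ⟨q, hqmem⟩ = f₁ from hf₂]
    exact hf₁
  haveI : Nontrivial ↥(P : Subgroup Q) :=
    (Subgroup.nontrivial_iff_ne_bot _).mpr (P.ne_bot_of_dvd_card hdvd)
  haveI : Group.IsNilpotent ↥(P : Subgroup Q) := P.isPGroup'.isNilpotent
  have hlt : commutator ↥(P : Subgroup Q) < ⊤ :=
    Group.IsSolvable.commutator_lt_top_of_nontrivial _
  obtain ⟨φ, hφ⟩ : ∃ φ : Q →* Abelianization ↥(P : Subgroup Q), φ = Abelianization.of.comp φ₀ :=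
    ⟨_, rfl⟩
  have hφs : Function.Surjective φ := by
    rw [hφ]
    exact (QuotientGroup.mk'_surjective _).comp hφ₀
  refine ⟨φ.ker, inferInstance, Abelianization.commutator_subset_ker φ, ?_⟩
  have h1 : φ.ker.index = (commutator ↥(P : Subgroup Q)).index := by
    rw [Subgroup.index_ker, MonoidHom.range_eq_top.mpr hφs, Subgroup.card_top,
      Subgroup.index_eq_card]
    rfl
  obtain ⟨n, hn⟩ := IsPGroup.iff_card.mp P.isPGroup'
  have h2 : (commutator ↥(P : Subgroup Q)).index ∣ q ^ n := by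
    rw [← hn]
    exact Subgroup.index_dvd_card _
  obtain ⟨m, -, hm⟩ := (Nat.dvd_prime_pow hq).mp h2
  rw [h1, hm]
  rcases Nat.eq_zero_or_pos m with h0 | h0
  · exfalso
    rw [h0, pow_zero, Subgroup.index_eq_one] at hm
    exact hlt.ne hm
  · exact dvd_pow_self q h0.ne'

/-- If `K/M` is nilpotent and `K/H₁` has prime-power order, `H₁ = [K,K]M`, then `K/M` has
prime-power order for the same prime. -/
theorem relIndex_prime_pow_of_nilpotent {L : Type*} [Group L] [Finite L] (K M H₁ : Subgroup L)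
    (hMK : M ≤ K) [(M.subgroupOf K).Normal]
    (hnil : Group.IsNilpotent (↥K ⧸ M.subgroupOf K)) (hH₁ : H₁ = ⁅K, K⁆ ⊔ M) (p a : ℕ)
    (hp : p.Prime) (h : H₁.relIndex K = p ^ a) : ∃ m, M.relIndex K = p ^ m := by
  classical
  by_contra hcon
  have hcard : Nat.card (↥K ⧸ M.subgroupOf K) = M.relIndex K :=
    (Subgroup.index_eq_card _).symm
  obtain ⟨q, hq, hqd, hqp⟩ : ∃ q, q.Prime ∧ q ∣ M.relIndex K ∧ q ≠ p := by
    by_contra hc
    push Not at hc
    exact hcon ⟨_, Nat.eq_prime_pow_of_unique_prime_dvd Subgroup.index_ne_zero_of_finite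
      (fun {d} hd hdd => hc d hd hdd)⟩
  haveI := hnil
  obtain ⟨N, hNn, hNc, hNq⟩ := nilpotent_exists_normal_index (Q := ↥K ⧸ M.subgroupOf K) q hq
    (by rw [hcard]; exact hqd)
  rw [commutator_def] at hNc
  obtain ⟨N', hN'⟩ : ∃ N' : Subgroup ↥K,
      N' = N.comap (QuotientGroup.mk' (M.subgroupOf K)) := ⟨_, rfl⟩
  have hidx : N'.index = N.index := by
    rw [hN']
    exact Subgroup.index_comap_of_surjective N (QuotientGroup.mk'_surjective _)
  have hle : H₁.subgroupOf K ≤ N' := by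
    have hX : ⁅K, K⁆ ⊔ M ≤ N'.map K.subtype := by
      refine sup_le (Subgroup.commutator_le.mpr ?_) ?_
      · intro k₁ hk₁ k₂ hk₂
        refine Subgroup.mem_map.mpr ⟨⁅(⟨k₁, hk₁⟩ : ↥K), (⟨k₂, hk₂⟩ : ↥K)⁆, ?_, rfl⟩
        rw [hN', Subgroup.mem_comap, map_commutatorElement]
        exact hNc (Subgroup.commutator_mem_commutator (Subgroup.mem_top _) (Subgroup.mem_top _))
      · intro m hm
        refine Subgroup.mem_map.mpr ⟨⟨m, hMK hm⟩, ?_, rfl⟩
        rw [hN', Subgroup.mem_comap]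
        have h1 : (QuotientGroup.mk' (M.subgroupOf K)) ⟨m, hMK hm⟩ = 1 := by
          rw [QuotientGroup.mk'_apply, QuotientGroup.eq_one_iff]
          exact Subgroup.mem_subgroupOf.mpr hm
        rw [h1]
        exact Subgroup.one_mem _
    intro k hk
    rw [Subgroup.mem_subgroupOf, hH₁] at hk
    obtain ⟨k', hk', hkk⟩ := Subgroup.mem_map.mp (hX hk)
    have h1 : k' = k := Subtype.ext hkk
    rw [← h1]
    exact hk'
  have hdvd : N'.index ∣ (H₁.subgroupOf K).index := Subgroup.index_dvd_of_le hle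
  have hqpa : q ∣ p ^ a := by
    rw [← h]
    rw [hidx] at hdvd
    exact hNq.trans hdvd
  exact hqp ((Nat.prime_dvd_prime_iff_eq hq hp).mp (hq.dvd_of_dvd_pow hqpa))

/-- If `K/M` is nilpotent and `K/H₁` has prime order, `H₁ = [K,K]M`, then `K/M` is
abelian. -/
theorem comm_le_of_prime_index {L : Type*} [Group L] [Finite L] (K M H₁ : Subgroup L)
    [K.Normal] [M.Normal] (hMK : M ≤ K) [(M.subgroupOf K).Normal]
    (hnil : Group.IsNilpotent (↥K ⧸ M.subgroupOf K)) (hH₁ : H₁ = ⁅K, K⁆ ⊔ M) (p : ℕ)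
    (hp : p.Prime) (h : H₁.relIndex K = p) : ⁅K, K⁆ ≤ M := by
  classical
  haveI : Fact p.Prime := ⟨hp⟩
  haveI hH₁n : H₁.Normal := by
    rw [hH₁]
    infer_instance
  have hMH₁ : M ≤ H₁ := by
    rw [hH₁]
    exact le_sup_right
  have hH₁K : H₁ ≤ K := by
    rw [hH₁]
    exact sup_le (Subgroup.commutator_le_left _ _) hMK
  have hne : ¬ K ≤ H₁ := by
    intro hle
    have := Subgroup.relIndex_eq_one.mpr hle
    rw [h] at this
    exact hp.one_lt.ne' this
  obtain ⟨x, hxK, hxH₁⟩ := SetLike.not_le_iff_exists.mp hne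
  have hgen : ∀ k ∈ K, ∃ i : ℤ, ∃ h ∈ H₁, k = x ^ i * h := by
    intro k hk
    have hcard : Nat.card (↥K ⧸ H₁.subgroupOf K) = p := by
      rw [← Subgroup.index_eq_card]
      exact h
    have hx1 : (QuotientGroup.mk' (H₁.subgroupOf K)) ⟨x, hxK⟩ ≠ 1 := by
      rw [QuotientGroup.mk'_apply, Ne, QuotientGroup.eq_one_iff]
      exact fun hh => hxH₁ (Subgroup.mem_subgroupOf.mp hh)
    have htop := zpowers_eq_top_of_prime_card hcard hx1
    have hmem : (QuotientGroup.mk' (H₁.subgroupOf K)) ⟨k, hk⟩ ∈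
        Subgroup.zpowers ((QuotientGroup.mk' (H₁.subgroupOf K)) ⟨x, hxK⟩) := by
      rw [htop]
      exact Subgroup.mem_top _
    obtain ⟨i, hi⟩ := Subgroup.mem_zpowers_iff.mp hmem
    refine ⟨i, (x ^ i)⁻¹ * k, ?_, by group⟩
    have h1 : (QuotientGroup.mk' (H₁.subgroupOf K))
        (((⟨x, hxK⟩ : ↥K) ^ i)⁻¹ * ⟨k, hk⟩) = 1 := by
      rw [map_mul, map_inv, map_zpow, hi, inv_mul_cancel]
    rw [QuotientGroup.mk'_apply, QuotientGroup.eq_one_iff, Subgroup.mem_subgroupOf] at h1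
    simpa using h1
  have hB : ⁅K, K⁆ ≤ ⁅H₁, K⁆ ⊔ M := by
    obtain ⟨π, hπ⟩ : ∃ π : L →* L ⧸ (⁅H₁, K⁆ ⊔ M), π = QuotientGroup.mk' (⁅H₁, K⁆ ⊔ M) :=
      ⟨_, rfl⟩
    have hker : ∀ y, π y = 1 ↔ y ∈ ⁅H₁, K⁆ ⊔ M := by
      intro y
      rw [hπ, QuotientGroup.mk'_apply, QuotientGroup.eq_one_iff]
    have hc : ∀ h ∈ H₁, ∀ k ∈ K, Commute (π h) (π k) := by
      intro h hh k hk
      have h1 : ⁅h, k⁆ ∈ ⁅H₁, K⁆ ⊔ M :=
        (le_sup_left : ⁅H₁, K⁆ ≤ ⁅H₁, K⁆ ⊔ M) (Subgroup.commutator_mem_commutator hh hk)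
      have h2 := (hker _).mpr h1
      rw [map_commutatorElement, commutatorElement_eq_one_iff_commute] at h2
      exact h2
    rw [Subgroup.commutator_le]
    intro k₁ hk₁ k₂ hk₂
    obtain ⟨i, h₁, hh₁, rfl⟩ := hgen k₁ hk₁
    obtain ⟨j, h₂, hh₂, rfl⟩ := hgen k₂ hk₂
    rw [← hker, map_commutatorElement, commutatorElement_eq_one_iff_commute, map_mul, map_mul,
      map_zpow, map_zpow]
    have c1 : Commute (π h₁) (π x) := hc h₁ hh₁ x hxK
    have c2 : Commute (π h₂) (π x) := hc h₂ hh₂ x hxK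
    have c3 : Commute (π h₁) (π h₂) := hc h₁ hh₁ h₂ (hH₁K hh₂)
    exact Commute.mul_left
      (Commute.mul_right (Commute.zpow_zpow_self _ i j) (c2.symm.zpow_left i))
      (Commute.mul_right (c1.zpow_right j) c3)
  have heq : ⁅H₁, K⁆ ⊔ M = H₁ := by
    apply le_antisymm
    · exact sup_le (Subgroup.commutator_le_left _ _) hMH₁
    · calc H₁ = ⁅K, K⁆ ⊔ M := hH₁
        _ ≤ ⁅H₁, K⁆ ⊔ M := sup_le hB le_sup_right
  have hch : ∀ n, cchain M H₁ K n = H₁ := by
    intro n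
    induction n with
    | zero => rfl
    | succ n ih => rw [cchain_succ, ih, heq]
  obtain ⟨n, hn⟩ := cchain_eventually M H₁ K hMH₁ hH₁K hnil
  rw [hch n] at hn
  calc ⁅K, K⁆ ≤ ⁅K, K⁆ ⊔ M := le_sup_left
    _ = H₁ := hH₁.symm
    _ = M := hn

end Cfsg.Agent.H32
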