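import Mathlib
import Cfsg.Agent.H48.GUCDefs

set_option autoImplicit false

/-!
# GUC-ORB (S2646): orbit–stabilizer for the commutant of `NN` acting on the nondegenerate
hermitian forms making `NN` self-adjoint (helper32, for helper48)
-/

namespace Cfsg.Agent.H32.GUC

open Cfsg.Agent.H97.Herm Cfsg.Agent.H48.GUC

universe u

section mat

variable {K : Type u} [Field K] {n : ℕ}

local notation "M" => Matrix (Fin n) (Fin n) K

/-- inverse commutes too -/
theorem inv_comm_of_comm {g gi N : M} (h1 : g * gi = 1) (h2 : gi * g = 1) (hg : g * N = N * g) :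
    gi * N = N * gi := by
  calc gi * N = gi * (N * (g * gi)) := by rw [h1, mul_one]
    _ = gi * ((N * g) * gi) := by simp only [mul_assoc]
    _ = gi * ((g * N) * gi) := by rw [hg]
    _ = (gi * g) * (N * gi) := by simp only [mul_assoc]
    _ = N * gi := by rw [h2, one_mul]

variable (σ : K →+* K) (hσ : ∀ x, σ (σ x) = x)

include hσ in
/-- `ψ g = (p g)† (p g)` lies in `Ω`. -/
theorem psi_mem {s NN p : M} (hs : adj σ s = s) (hP : s * p = p * NN)
    {g gi pi : M} (hppi : p * pi = 1) (hpip : pi * p = 1) (h1 : g * gi = 1) (h2 : gi * g = 1)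
    (hg : g * NN = NN * g) :
    adj σ (adj σ (p * g) * (p * g)) = adj σ (p * g) * (p * g) ∧
      (adj σ (p * g) * (p * g)).det ≠ 0 ∧
      adj σ NN * (adj σ (p * g) * (p * g)) = (adj σ (p * g) * (p * g)) * NN := by
  have hw1 : (p * g) * (gi * pi) = 1 := by
    calc (p * g) * (gi * pi) = p * ((g * gi) * pi) := by simp only [mul_assoc]
      _ = 1 := by rw [h1, one_mul, hppi]
  have hw2 : (gi * pi) * (p * g) = 1 := by
    calc (gi * pi) * (p * g) = gi * ((pi * p) * g) := by simp only [mul_assoc]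
      _ = 1 := by rw [hpip, one_mul, h2]
  have hwN : (p * g) * NN = s * (p * g) := by
    calc (p * g) * NN = p * (g * NN) := by simp only [mul_assoc]
      _ = p * (NN * g) := by rw [hg]
      _ = (p * NN) * g := by simp only [mul_assoc]
      _ = (s * p) * g := by rw [hP]
      _ = s * (p * g) := by simp only [mul_assoc]
  have hwN' : adj σ NN * adj σ (p * g) = adj σ (p * g) * s := by
    have := congrArg (adj σ) hwN
    rw [adj_mul σ (p * g) NN, adj_mul σ s (p * g), hs] at this
    exact this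
  refine ⟨?_, ?_, ?_⟩
  · rw [adj_mul, adj_adj σ hσ]
  · apply Matrix.det_ne_zero_of_right_inverse (B := (gi * pi) * adj σ (gi * pi))
    calc adj σ (p * g) * (p * g) * ((gi * pi) * adj σ (gi * pi))
        = adj σ (p * g) * (((p * g) * (gi * pi)) * adj σ (gi * pi)) := by simp only [mul_assoc]
      _ = adj σ (p * g) * adj σ (gi * pi) := by rw [hw1, one_mul]
      _ = adj σ ((gi * pi) * (p * g)) := by rw [adj_mul σ (gi * pi) (p * g)]
      _ = 1 := by rw [hw2, adj_one]
  · calc adj σ NN * (adj σ (p * g) * (p * g))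
        = (adj σ NN * adj σ (p * g)) * (p * g) := by simp only [mul_assoc]
      _ = (adj σ (p * g) * s) * (p * g) := by rw [hwN']
      _ = adj σ (p * g) * (s * (p * g)) := by simp only [mul_assoc]
      _ = adj σ (p * g) * ((p * g) * NN) := by rw [hwN]
      _ = (adj σ (p * g) * (p * g)) * NN := by simp only [mul_assoc]

include hσ in
/-- `ψ` is onto `Ω`. -/
theorem psi_surj [Finite K] (ω₀ : K) (hω₀ : σ ω₀ ≠ ω₀) {s NN p pi : M} (hs : adj σ s = s)
    (hP : s * p = p * NN) (hppi : p * pi = 1) (hpip : pi * p = 1)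
    {G : M} (hG : adj σ G = G) (hdet : G.det ≠ 0) (hGN : adj σ NN * G = G * NN) :
    ∃ g gi : M, g * gi = 1 ∧ gi * g = 1 ∧ g * NN = NN * g ∧ adj σ (p * g) * (p * g) = G := by
  have F1 : pi * s = NN * pi := by
    calc pi * s = pi * (s * (p * pi)) := by rw [hppi, mul_one]
      _ = pi * ((s * p) * pi) := by simp only [mul_assoc]
      _ = pi * ((p * NN) * pi) := by rw [hP]
      _ = (pi * p) * (NN * pi) := by simp only [mul_assoc]
      _ = NN * pi := by rw [hpip, one_mul]
  have F3 : s * adj σ pi = adj σ pi * adj σ NN := by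
    have := congrArg (adj σ) F1
    rw [adj_mul σ pi s, adj_mul σ NN pi, hs] at this
    exact this
  have F4 : adj σ p * adj σ pi = 1 := by rw [← adj_mul, hpip, adj_one]
  have F5 : adj σ pi * adj σ p = 1 := by rw [← adj_mul, hppi, adj_one]
  have hGu : IsUnit G.det := isUnit_iff_ne_zero.mpr hdet
  have hGG : G * G⁻¹ = 1 := Matrix.mul_nonsing_inv G hGu
  have hGG' : G⁻¹ * G = 1 := Matrix.nonsing_inv_mul G hGu
  obtain ⟨h, hdef⟩ : ∃ h, h = adj σ pi * G * pi := ⟨_, rfl⟩
  have hh : adj σ h = h := by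
    rw [hdef, adj_mul, adj_mul, adj_adj σ hσ, hG]; simp only [mul_assoc]
  have hu : IsUnit h := by
    refine ⟨⟨h, p * G⁻¹ * adj σ p, ?_, ?_⟩, rfl⟩
    · calc h * (p * G⁻¹ * adj σ p)
          = adj σ pi * (G * ((pi * p) * (G⁻¹ * adj σ p))) := by rw [hdef]; simp only [mul_assoc]
        _ = adj σ pi * ((G * G⁻¹) * adj σ p) := by rw [hpip, one_mul]; simp only [mul_assoc]
        _ = 1 := by rw [hGG, one_mul, F5]
    · calc p * G⁻¹ * adj σ p * h
          = p * (G⁻¹ * ((adj σ p * adj σ pi) * (G * pi))) := by rw [hdef]; simp only [mul_assoc]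
        _ = p * ((G⁻¹ * G) * pi) := by rw [F4, one_mul]; simp only [mul_assoc]
        _ = 1 := by rw [hGG', one_mul, hppi]
  have hcomm : s * h = h * s := by
    calc s * h = (s * adj σ pi) * (G * pi) := by rw [hdef]; simp only [mul_assoc]
      _ = (adj σ pi * adj σ NN) * (G * pi) := by rw [F3]
      _ = adj σ pi * ((adj σ NN * G) * pi) := by simp only [mul_assoc]
      _ = adj σ pi * ((G * NN) * pi) := by rw [hGN]
      _ = adj σ pi * (G * (NN * pi)) := by simp only [mul_assoc]
      _ = adj σ pi * (G * (pi * s)) := by rw [F1]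
      _ = h * s := by rw [hdef]; simp only [mul_assoc]
  obtain ⟨W, W', hW, hW', hWW', hW'W, hWh⟩ := exists_adj_mul_self σ hσ ω₀ hω₀ h hh hu
  have hcen : ∀ r ∈ Algebra.adjoin K {h}, s * r = r * s := by
    intro r hr
    have hle : Algebra.adjoin K {h} ≤ Subalgebra.centralizer K {s} := Algebra.adjoin_le (by
      intro x hx
      rw [Set.mem_singleton_iff] at hx; subst hx
      rw [SetLike.mem_coe, Subalgebra.mem_centralizer_iff]
      intro g hg
      rw [Set.mem_singleton_iff] at hg; subst hg; exact hcomm)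
    exact ((Subalgebra.mem_centralizer_iff K).mp (hle hr)) s (Set.mem_singleton _)
  refine ⟨pi * W * p, pi * W' * p, ?_, ?_, ?_, ?_⟩
  · calc pi * W * p * (pi * W' * p) = pi * (W * ((p * pi) * (W' * p))) := by
          simp only [mul_assoc]
      _ = pi * ((W * W') * p) := by rw [hppi, one_mul]; simp only [mul_assoc]
      _ = 1 := by rw [hWW', one_mul, hpip]
  · calc pi * W' * p * (pi * W * p) = pi * (W' * ((p * pi) * (W * p))) := by
          simp only [mul_assoc]
      _ = pi * ((W' * W) * p) := by rw [hppi, one_mul]; simp only [mul_assoc]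
      _ = 1 := by rw [hW'W, one_mul, hpip]
  · calc pi * W * p * NN = pi * (W * (p * NN)) := by simp only [mul_assoc]
      _ = pi * (W * (s * p)) := by rw [hP]
      _ = pi * ((W * s) * p) := by simp only [mul_assoc]
      _ = pi * ((s * W) * p) := by rw [hcen W hW]
      _ = (pi * s) * (W * p) := by simp only [mul_assoc]
      _ = (NN * pi) * (W * p) := by rw [F1]
      _ = NN * (pi * W * p) := by simp only [mul_assoc]
  · have e1 : p * (pi * W * p) = W * p := by
      calc p * (pi * W * p) = (p * pi) * (W * p) := by simp only [mul_assoc]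
        _ = W * p := by rw [hppi, one_mul]
    rw [e1, adj_mul]
    calc adj σ p * adj σ W * (W * p) = adj σ p * ((adj σ W * W) * p) := by simp only [mul_assoc]
      _ = adj σ p * ((adj σ pi * G * pi) * p) := by rw [hWh, hdef]
      _ = (adj σ p * adj σ pi) * (G * (pi * p)) := by simp only [mul_assoc]
      _ = G := by rw [F4, hpip, one_mul, mul_one]

/-- from the fibre of `ψ` to the unitary centraliser of `s`. -/
theorem fibre_to_U {s NN p pi : M} (hP : s * p = p * NN) (hppi : p * pi = 1) (hpip : pi * p = 1)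
    {g₀ g₀i g gi : M} (h01 : g₀ * g₀i = 1) (h02 : g₀i * g₀ = 1) (hg₀ : g₀ * NN = NN * g₀)
    (h1 : g * gi = 1) (h2 : gi * g = 1) (hg : g * NN = NN * g)
    (heq : adj σ (p * g) * (p * g) = adj σ (p * g₀) * (p * g₀)) :
    (p * g * g₀i * pi) * (p * g₀ * gi * pi) = 1 ∧ (p * g₀ * gi * pi) * (p * g * g₀i * pi) = 1 ∧
      adj σ (p * g * g₀i * pi) * (p * g * g₀i * pi) = 1 ∧
      (p * g * g₀i * pi) * s = s * (p * g * g₀i * pi) := by
  have F1 : pi * s = NN * pi := by
    calc pi * s = pi * (s * (p * pi)) := by rw [hppi, mul_one]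
      _ = pi * ((s * p) * pi) := by simp only [mul_assoc]
      _ = pi * ((p * NN) * pi) := by rw [hP]
      _ = (pi * p) * (NN * pi) := by simp only [mul_assoc]
      _ = NN * pi := by rw [hpip, one_mul]
  have hg₀i : g₀i * NN = NN * g₀i := inv_comm_of_comm h01 h02 hg₀
  have hw1 : (p * g₀) * (g₀i * pi) = 1 := by
    calc (p * g₀) * (g₀i * pi) = p * ((g₀ * g₀i) * pi) := by simp only [mul_assoc]
      _ = 1 := by rw [h01, one_mul, hppi]
  refine ⟨?_, ?_, ?_, ?_⟩
  · calc p * g * g₀i * pi * (p * g₀ * gi * pi)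
        = p * (g * (g₀i * ((pi * p) * (g₀ * (gi * pi))))) := by simp only [mul_assoc]
      _ = p * (g * ((g₀i * g₀) * (gi * pi))) := by rw [hpip, one_mul]; simp only [mul_assoc]
      _ = p * ((g * gi) * pi) := by rw [h02, one_mul]; simp only [mul_assoc]
      _ = 1 := by rw [h1, one_mul, hppi]
  · calc p * g₀ * gi * pi * (p * g * g₀i * pi)
        = p * (g₀ * (gi * ((pi * p) * (g * (g₀i * pi))))) := by simp only [mul_assoc]
      _ = p * (g₀ * ((gi * g) * (g₀i * pi))) := by rw [hpip, one_mul]; simp only [mul_assoc]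
      _ = p * ((g₀ * g₀i) * pi) := by rw [h2, one_mul]; simp only [mul_assoc]
      _ = 1 := by rw [h01, one_mul, hppi]
  · have e1 : p * g * g₀i * pi = (p * g) * (g₀i * pi) := by simp only [mul_assoc]
    rw [e1, adj_mul]
    calc adj σ (g₀i * pi) * adj σ (p * g) * ((p * g) * (g₀i * pi))
        = adj σ (g₀i * pi) * ((adj σ (p * g) * (p * g)) * (g₀i * pi)) := by
          simp only [mul_assoc]
      _ = adj σ (g₀i * pi) * ((adj σ (p * g₀) * (p * g₀)) * (g₀i * pi)) := by rw [heq]
      _ = (adj σ (g₀i * pi) * adj σ (p * g₀)) * ((p * g₀) * (g₀i * pi)) := by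
          simp only [mul_assoc]
      _ = 1 := by rw [← adj_mul, hw1, adj_one, mul_one]
  · calc p * g * g₀i * pi * s = p * (g * (g₀i * (pi * s))) := by simp only [mul_assoc]
      _ = p * (g * (g₀i * (NN * pi))) := by rw [F1]
      _ = p * (g * ((g₀i * NN) * pi)) := by simp only [mul_assoc]
      _ = p * (g * ((NN * g₀i) * pi)) := by rw [hg₀i]
      _ = p * ((g * NN) * (g₀i * pi)) := by simp only [mul_assoc]
      _ = p * ((NN * g) * (g₀i * pi)) := by rw [hg]
      _ = (p * NN) * (g * (g₀i * pi)) := by simp only [mul_assoc]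
      _ = (s * p) * (g * (g₀i * pi)) := by rw [hP]
      _ = s * (p * g * g₀i * pi) := by simp only [mul_assoc]

/-- from the unitary centraliser of `s` to the fibre of `ψ`. -/
theorem U_to_fibre {s NN p pi : M} (hP : s * p = p * NN) (hppi : p * pi = 1) (hpip : pi * p = 1)
    {g₀ g₀i v vi : M} (h01 : g₀ * g₀i = 1) (h02 : g₀i * g₀ = 1) (hg₀ : g₀ * NN = NN * g₀)
    (h1 : v * vi = 1) (h2 : vi * v = 1) (hv : adj σ v * v = 1) (hvs : v * s = s * v) :
    (pi * v * p * g₀) * (g₀i * pi * vi * p) = 1 ∧ (g₀i * pi * vi * p) * (pi * v * p * g₀) = 1 ∧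
      (pi * v * p * g₀) * NN = NN * (pi * v * p * g₀) ∧
      adj σ (p * (pi * v * p * g₀)) * (p * (pi * v * p * g₀)) = adj σ (p * g₀) * (p * g₀) := by
  have F1 : pi * s = NN * pi := by
    calc pi * s = pi * (s * (p * pi)) := by rw [hppi, mul_one]
      _ = pi * ((s * p) * pi) := by simp only [mul_assoc]
      _ = pi * ((p * NN) * pi) := by rw [hP]
      _ = (pi * p) * (NN * pi) := by simp only [mul_assoc]
      _ = NN * pi := by rw [hpip, one_mul]
  refine ⟨?_, ?_, ?_, ?_⟩
  · calc pi * v * p * g₀ * (g₀i * pi * vi * p)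
        = pi * (v * (p * ((g₀ * g₀i) * (pi * (vi * p))))) := by simp only [mul_assoc]
      _ = pi * (v * ((p * pi) * (vi * p))) := by rw [h01, one_mul]; simp only [mul_assoc]
      _ = pi * ((v * vi) * p) := by rw [hppi, one_mul]; simp only [mul_assoc]
      _ = 1 := by rw [h1, one_mul, hpip]
  · calc g₀i * pi * vi * p * (pi * v * p * g₀)
        = g₀i * (pi * (vi * ((p * pi) * (v * (p * g₀))))) := by simp only [mul_assoc]
      _ = g₀i * (pi * ((vi * v) * (p * g₀))) := by rw [hppi, one_mul]; simp only [mul_assoc]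
      _ = g₀i * ((pi * p) * g₀) := by rw [h2, one_mul]; simp only [mul_assoc]
      _ = 1 := by rw [hpip, one_mul, h02]
  · calc pi * v * p * g₀ * NN = pi * (v * (p * (g₀ * NN))) := by simp only [mul_assoc]
      _ = pi * (v * (p * (NN * g₀))) := by rw [hg₀]
      _ = pi * (v * ((p * NN) * g₀)) := by simp only [mul_assoc]
      _ = pi * (v * ((s * p) * g₀)) := by rw [hP]
      _ = pi * ((v * s) * (p * g₀)) := by simp only [mul_assoc]
      _ = pi * ((s * v) * (p * g₀)) := by rw [hvs]
      _ = (pi * s) * (v * (p * g₀)) := by simp only [mul_assoc]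
      _ = (NN * pi) * (v * (p * g₀)) := by rw [F1]
      _ = NN * (pi * v * p * g₀) := by simp only [mul_assoc]
  · have e1 : p * (pi * v * p * g₀) = v * (p * g₀) := by
      calc p * (pi * v * p * g₀) = (p * pi) * (v * (p * g₀)) := by simp only [mul_assoc]
        _ = v * (p * g₀) := by rw [hppi, one_mul]
    rw [e1, adj_mul]
    calc adj σ (p * g₀) * adj σ v * (v * (p * g₀))
        = adj σ (p * g₀) * ((adj σ v * v) * (p * g₀)) := by simp only [mul_assoc]
      _ = adj σ (p * g₀) * (p * g₀) := by rw [hv, one_mul]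

end mat

theorem orb : OrbStmt.{u} := by
  intro K _ _ n σ hσ ω₀ hω₀ s NN hs P hP
  classical
  have hppi : (P : Matrix (Fin n) (Fin n) K) * ((P⁻¹ : GL (Fin n) K) : Matrix (Fin n) (Fin n) K)
      = 1 := by rw [← Units.val_mul, mul_inv_cancel, Units.val_one]
  have hpip : ((P⁻¹ : GL (Fin n) K) : Matrix (Fin n) (Fin n) K) * (P : Matrix (Fin n) (Fin n) K)
      = 1 := by rw [← Units.val_mul, inv_mul_cancel, Units.val_one]
  have hunit : ∀ g : GL (Fin n) K,
      (g : Matrix (Fin n) (Fin n) K) * ((g⁻¹ : GL (Fin n) K) : Matrix (Fin n) (Fin n) K) = 1 ∧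
      ((g⁻¹ : GL (Fin n) K) : Matrix (Fin n) (Fin n) K) * (g : Matrix (Fin n) (Fin n) K) = 1 :=
    fun g => ⟨by rw [← Units.val_mul, mul_inv_cancel, Units.val_one],
      by rw [← Units.val_mul, inv_mul_cancel, Units.val_one]⟩
  -- a section of `ψ`
  have hsec : ∀ G : Matrix (Fin n) (Fin n) K, ∃ g : GL (Fin n) K,
      (adj σ G = G ∧ G.det ≠ 0 ∧ adj σ NN * G = G * NN) →
      ((g : Matrix (Fin n) (Fin n) K) * NN = NN * (g : Matrix (Fin n) (Fin n) K) ∧
        adj σ ((P : Matrix (Fin n) (Fin n) K) * (g : Matrix (Fin n) (Fin n) K)) *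
          ((P : Matrix (Fin n) (Fin n) K) * (g : Matrix (Fin n) (Fin n) K)) = G) := by
    intro G
    by_cases hG : adj σ G = G ∧ G.det ≠ 0 ∧ adj σ NN * G = G * NN
    · obtain ⟨g, gi, h1, h2, h3, h4⟩ :=
        psi_surj σ hσ ω₀ hω₀ hs hP hppi hpip hG.1 hG.2.1 hG.2.2
      exact ⟨⟨g, gi, h1, h2⟩, fun _ => ⟨h3, h4⟩⟩
    · exact ⟨1, fun h => absurd h hG⟩
  choose c hc using hsec
  rw [← Nat.card_prod]
  symm
  refine Nat.card_congr ?_
  refine
    { toFun := fun g => (⟨P * g.1 * (c (adj σ ((P : Matrix (Fin n) (Fin n) K) *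
          (g.1 : Matrix (Fin n) (Fin n) K)) * ((P : Matrix (Fin n) (Fin n) K) *
          (g.1 : Matrix (Fin n) (Fin n) K))))⁻¹ * P⁻¹, ?_⟩,
        ⟨adj σ ((P : Matrix (Fin n) (Fin n) K) * (g.1 : Matrix (Fin n) (Fin n) K)) *
          ((P : Matrix (Fin n) (Fin n) K) * (g.1 : Matrix (Fin n) (Fin n) K)), ?_⟩)
      invFun := fun x => ⟨P⁻¹ * x.1.1 * P * c x.2.1, ?_⟩
      left_inv := ?_
      right_inv := ?_ }
  · -- the unitary element
    have hmem := psi_mem σ hσ hs hP hppi hpip (hunit g.1).1 (hunit g.1).2 g.2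
    have hc' := hc _ hmem
    have h := fibre_to_U σ hP hppi hpip (hunit (c _)).1 (hunit (c _)).2 hc'.1
      (hunit g.1).1 (hunit g.1).2 g.2 hc'.2.symm
    simp only [Units.val_mul]
    exact ⟨h.2.2.1, h.2.2.2⟩
  · exact psi_mem σ hσ hs hP hppi hpip (hunit g.1).1 (hunit g.1).2 g.2
  · have hc' := hc _ x.2.2
    have h := U_to_fibre σ hP hppi hpip (hunit (c x.2.1)).1 (hunit (c x.2.1)).2 hc'.1
      (hunit x.1.1).1 (hunit x.1.1).2 x.1.2.1 x.1.2.2
    simp only [Units.val_mul]
    exact h.2.2.1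
  · intro g
    apply Subtype.ext
    simp only
    group
  · intro x
    have hc' := hc _ x.2.2
    have h := U_to_fibre σ hP hppi hpip (hunit (c x.2.1)).1 (hunit (c x.2.1)).2 hc'.1
      (hunit x.1.1).1 (hunit x.1.1).2 x.1.2.1 x.1.2.2
    have hψ : adj σ ((P : Matrix (Fin n) (Fin n) K) *
        ((P⁻¹ * x.1.1 * P * c x.2.1 : GL (Fin n) K) : Matrix (Fin n) (Fin n) K)) *
        ((P : Matrix (Fin n) (Fin n) K) *
        ((P⁻¹ * x.1.1 * P * c x.2.1 : GL (Fin n) K) : Matrix (Fin n) (Fin n) K)) = x.2.1 := by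
      simp only [Units.val_mul]
      rw [h.2.2.2]
      exact hc'.2
    apply Prod.ext
    · apply Subtype.ext
      simp only
      rw [hψ]
      group
    · apply Subtype.ext
      simp only
      exact hψ

end Cfsg.Agent.H32.GUC
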