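import Mathlib
import Cfsg.Agent.H48.GUCDefs
import Cfsg.Agent.H32.GUCOrb

set_option autoImplicit false

/-!
# GUC-HERM (S2646): `|GU_a(q)| * #(invertible hermitian matrices) = |GL_a(q²)|`
(helper32, for helper48; the case `s = NN = 0`, `P = 1` of GUC-ORB)
-/

namespace Cfsg.Agent.H32.GUC

open Cfsg.Agent.H97.Herm Cfsg.Agent.H48.GUC

universe u

/-- invertible matrices as a subtype. -/
noncomputable def glEquivDetNeZero {K : Type u} [Field K] (n : ℕ) :
    GL (Fin n) K ≃ {m : Matrix (Fin n) (Fin n) K // m.det ≠ 0} where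
  toFun g := ⟨(g : Matrix (Fin n) (Fin n) K), Matrix.det_ne_zero_of_right_inverse g.mul_inv⟩
  invFun m := Matrix.GeneralLinearGroup.mkOfDetNeZero m.1 m.2
  left_inv g := Units.ext rfl
  right_inv m := Subtype.ext rfl

theorem herm : HermStmt.{u} := by
  intro K _ _ q hcard hq σ hσq hσ ω₀ hω₀ ι _ _ a ha
  classical
  have e : ι ≃ Fin a := Fintype.equivFinOfCardEq ha
  have horb := orb (K := K) (n := a) σ hσ ω₀ hω₀ 0 0 (adj_zero σ) 1 (by simp)
  have h1 : Nat.card ↥(Cfsg.GU a K q) = Nat.card {g : GL (Fin a) K //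
      adj σ (g : Matrix (Fin a) (Fin a) K) * (g : Matrix (Fin a) (Fin a) K) = 1 ∧
      (g : Matrix (Fin a) (Fin a) K) * 0 = 0 * (g : Matrix (Fin a) (Fin a) K)} := by
    apply Nat.card_congr
    apply Equiv.subtypeEquivRight
    intro g
    constructor
    · intro hg
      exact ⟨(herm_iff σ q hq hσq _).mp (fun u v => hg u v), by simp⟩
    · intro hg u v
      exact (herm_iff σ q hq hσq _).mpr hg.1 u v
  have h2 : Nat.card (HermInv σ ι) = Nat.card {G : Matrix (Fin a) (Fin a) K //
      adj σ G = G ∧ G.det ≠ 0 ∧ adj σ 0 * G = G * 0} := by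
    apply Nat.card_congr
    refine Equiv.subtypeEquiv (Matrix.reindex e e) ?_
    intro H
    constructor
    · rintro ⟨hH1, hH2⟩
      refine ⟨?_, ?_, by simp [adj_zero]⟩
      · ext i j
        have h := congrFun (congrFun hH1 (e.symm i)) (e.symm j)
        rw [Matrix.transpose_apply, Matrix.map_apply] at h
        rw [adj_apply, Matrix.reindex_apply, Matrix.submatrix_apply, Matrix.submatrix_apply]
        exact h
      · rw [Matrix.det_reindex_self]; exact hH2
    · rintro ⟨hG1, hG2, -⟩
      refine ⟨?_, ?_⟩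
      · ext i j
        have h := congrFun (congrFun hG1 (e i)) (e j)
        rw [adj_apply, Matrix.reindex_apply, Matrix.submatrix_apply, Matrix.submatrix_apply,
          Equiv.symm_apply_apply, Equiv.symm_apply_apply] at h
        rw [Matrix.transpose_apply, Matrix.map_apply]
        exact h
      · rwa [Matrix.det_reindex_self] at hG2
  have h3 : Nat.card {m : Matrix ι ι K // m.det ≠ 0} = Nat.card {g : GL (Fin a) K //
      (g : Matrix (Fin a) (Fin a) K) * 0 = 0 * (g : Matrix (Fin a) (Fin a) K)} := by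
    apply Nat.card_congr
    have e1 : {m : Matrix ι ι K // m.det ≠ 0} ≃ {m : Matrix (Fin a) (Fin a) K // m.det ≠ 0} := by
      refine Equiv.subtypeEquiv (Matrix.reindex e e) ?_
      intro m
      rw [Matrix.det_reindex_self]
    have e2 : {g : GL (Fin a) K //
        (g : Matrix (Fin a) (Fin a) K) * 0 = 0 * (g : Matrix (Fin a) (Fin a) K)} ≃
        GL (Fin a) K := Equiv.subtypeUnivEquiv (fun g => by simp)
    exact e1.trans ((glEquivDetNeZero a).symm.trans e2.symm)
  rw [h1, h2, h3]
  exact horb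

end Cfsg.Agent.H32.GUC
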