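import Mathlib
import Cfsg.Prelude.Def_Characters
import Cfsg.Prelude.Def_Solvable
import Cfsg.Agent.H32.BrolGar
import Cfsg.Agent.S4461

/-!
# Garrison's theorem (Isaacs 12.21): nilpotent length ≤ number of character degrees (helper32)

The upper Fitting series `fitSeries G`, and the chain of characters of strictly increasing degree
obtained from the Broline–Garrison theorem.
-/

set_option autoImplicit false

namespace Cfsg.Agent.H32

open Cfsg Cfsg.Agent.H4 Cfsg.Agent.Clifford Cfsg.Agent.H82

universe u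

/-- The upper Fitting series. -/
noncomputable def fitSeries (G : Type u) [Group G] : ℕ → {N : Subgroup G // N.Normal}
  | 0 => ⟨⊥, inferInstance⟩
  | (i + 1) =>
    haveI := (fitSeries G i).2
    ⟨(Cfsg.fittingSubgroup (G ⧸ (fitSeries G i).1)).comap (QuotientGroup.mk' (fitSeries G i).1),
      Subgroup.Normal.comap Cfsg.Agent.H1.fitting_normal _⟩

section Fit

variable {G : Type u} [Group G]

theorem fitSeries_zero : (fitSeries G 0).1 = ⊥ := rfl

theorem fitSeries_succ (i : ℕ) :
    haveI := (fitSeries G i).2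
    (fitSeries G (i + 1)).1 =
      (Cfsg.fittingSubgroup (G ⧸ (fitSeries G i).1)).comap
        (QuotientGroup.mk' (fitSeries G i).1) := rfl

theorem le_comap_mk'' (A : Subgroup G) [A.Normal] (B : Subgroup (G ⧸ A)) :
    A ≤ B.comap (QuotientGroup.mk' A) := by
  intro x hx
  rw [Subgroup.mem_comap, QuotientGroup.mk'_apply, (QuotientGroup.eq_one_iff x).mpr hx]
  exact B.one_mem

theorem fitSeries_le_succ (i : ℕ) : (fitSeries G i).1 ≤ (fitSeries G (i + 1)).1 := by
  haveI := (fitSeries G i).2
  rw [fitSeries_succ]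
  exact le_comap_mk'' _ _

theorem fitSeries_mono : Monotone fun i => (fitSeries G i).1 :=
  monotone_nat_of_le_succ fitSeries_le_succ

theorem fitSeries_lt_succ [Finite G] (hsolv : Group.IsSolvable G) (i : ℕ)
    (h : (fitSeries G i).1 ≠ ⊤) : (fitSeries G i).1 ≠ (fitSeries G (i + 1)).1 := by
  haveI := (fitSeries G i).2
  intro heq
  have hnt : Nontrivial (G ⧸ (fitSeries G i).1) := by
    by_contra hnt
    rw [not_nontrivial_iff_subsingleton] at hnt
    exact h (QuotientGroup.subgroup_eq_top_of_subsingleton _ hnt)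
  obtain ⟨q, N, hq, hNn, hNb, hNp⟩ :=
    Cfsg.Agent.H1.exists_normal_pgroup (G := G ⧸ (fitSeries G i).1)
  haveI : Fact q.Prime := ⟨hq⟩
  haveI := hNn
  have hNF : N ≤ Cfsg.fittingSubgroup (G ⧸ (fitSeries G i).1) :=
    Cfsg.Agent.H1.le_fitting N hNp.isNilpotent
  apply hNb
  rw [eq_bot_iff]
  intro x hx
  obtain ⟨g, rfl⟩ := QuotientGroup.mk_surjective x
  have hg : g ∈ (fitSeries G (i + 1)).1 := by
    rw [fitSeries_succ]; exact hNF hx
  rw [← heq] at hg
  exact (QuotientGroup.eq_one_iff g).mpr hg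

theorem fitSeries_eq_top [Finite G] (hsolv : Group.IsSolvable G) :
    ∃ i, (fitSeries G i).1 = ⊤ := by
  have key : ∀ i, (fitSeries G i).1 = ⊤ ∨ i + 1 ≤ Nat.card (fitSeries G i).1 := by
    intro i
    induction i with
    | zero => right; exact Nat.card_pos
    | succ i ih =>
      by_cases htop : (fitSeries G i).1 = ⊤
      · left
        exact top_le_iff.mp (htop ▸ fitSeries_le_succ i)
      · right
        have h1 : i + 1 ≤ Nat.card (fitSeries G i).1 := ih.resolve_left htop
        have hlt : (fitSeries G i).1 < (fitSeries G (i + 1)).1 :=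
          lt_of_le_of_ne (fitSeries_le_succ i) (fitSeries_lt_succ hsolv i htop)
        have h2 : Nat.card (fitSeries G i).1 < Nat.card (fitSeries G (i + 1)).1 :=
          Cfsg.Agent.H1.card_lt_card_of_lt hlt
        omega
  refine ⟨Nat.card G, (key (Nat.card G)).resolve_right ?_⟩
  intro h
  have := Subgroup.card_le_card_group (fitSeries G (Nat.card G)).1
  omega

/-- The quotient of consecutive terms is nilpotent. -/
theorem nilpotent_quot_of_eq_comap (A C : Subgroup G) [A.Normal] (B : Subgroup (G ⧸ A))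
    (hB : Group.IsNilpotent B) (hC : C = B.comap (QuotientGroup.mk' A))
    (h : (A.subgroupOf C).Normal) : Group.IsNilpotent (↥C ⧸ A.subgroupOf C) := by
  subst hC
  let f : ↥(B.comap (QuotientGroup.mk' A)) →* ↥B :=
    ((QuotientGroup.mk' A).comp (Subgroup.subtype _)).codRestrict B (fun x => x.2)
  have hf : Function.Surjective f := by
    rintro ⟨b, hb⟩
    obtain ⟨g, rfl⟩ := QuotientGroup.mk_surjective b
    exact ⟨⟨g, hb⟩, rfl⟩
  have hker : f.ker = A.subgroupOf (B.comap (QuotientGroup.mk' A)) := by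
    ext x
    rw [MonoidHom.mem_ker, Subgroup.mem_subgroupOf, ← QuotientGroup.eq_one_iff (N := A)]
    constructor
    · intro hx
      exact congrArg Subtype.val hx
    · intro hx
      exact Subtype.ext hx
  have e : (↥(B.comap (QuotientGroup.mk' A)) ⧸ A.subgroupOf (B.comap (QuotientGroup.mk' A))) ≃*
      ↥B :=
    (QuotientGroup.quotientMulEquivOfEq hker.symm).trans
      (QuotientGroup.quotientKerEquivOfSurjective f hf)
  exact (Group.isNilpotent_congr e).mpr hB

theorem fitSeries_quot_nilpotent [Finite G] (i : ℕ)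
    (h : ((fitSeries G i).1.subgroupOf (fitSeries G (i + 1)).1).Normal) :
    Group.IsNilpotent (↥(fitSeries G (i + 1)).1 ⧸
      (fitSeries G i).1.subgroupOf (fitSeries G (i + 1)).1) := by
  haveI := (fitSeries G i).2
  exact nilpotent_quot_of_eq_comap (fitSeries G i).1 (fitSeries G (i + 1)).1
    (Cfsg.fittingSubgroup (G ⧸ (fitSeries G i).1)) Cfsg.Agent.H1.fitting_nilpotent
    (fitSeries_succ i) h

end Fit

section Chain

variable {G : Type u} [Group G] [Finite G]

/-- One step of Garrison's argument: a character whose kernel contains `F_{j+1} ≠ G` gives a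
character of larger degree whose kernel contains `F_j`. -/
theorem garrison_step (hsolv : Group.IsSolvable G) (j : ℕ) (htop : (fitSeries G (j + 1)).1 ≠ ⊤)
    (χ : IrrCharacter G) (hχ : (fitSeries G (j + 1)).1 ≤ irrKer χ) :
    ∃ ψ : IrrCharacter G, (fitSeries G j).1 ≤ irrKer ψ ∧ charDegree χ.1 < charDegree ψ.1 := by
  haveI := (fitSeries G j).2
  have hle : (fitSeries G j).1 ≤ irrKer χ := le_trans (fitSeries_le_succ j) hχ
  obtain ⟨χ', hχ'⟩ := exists_deflate (fitSeries G j).1 χ (fun x hx => (mem_irrKer χ x).mp (hle hx))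
  have hFK : Cfsg.fittingSubgroup (G ⧸ (fitSeries G j).1) ≤ irrKer χ' := by
    intro x hx
    obtain ⟨g, rfl⟩ := QuotientGroup.mk_surjective x
    have hg : g ∈ (fitSeries G (j + 1)).1 := by rw [fitSeries_succ]; exact hx
    have h1 := (mem_irrKer χ g).mp (hχ hg)
    rw [← hχ', inflate_apply, inflate_apply, QuotientGroup.mk_one] at h1
    exact (mem_irrKer χ' _).mpr h1
  have hcase : ¬ irrKer χ' ≤ Cfsg.fittingSubgroup (G ⧸ (fitSeries G j).1) ∨
      (irrKer χ' = Cfsg.fittingSubgroup (G ⧸ (fitSeries G j).1) ∧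
        Group.IsSolvable ((G ⧸ (fitSeries G j).1) ⧸ irrKer χ') ∧ irrKer χ' ≠ ⊤) := by
    by_cases hK : irrKer χ' ≤ Cfsg.fittingSubgroup (G ⧸ (fitSeries G j).1)
    · right
      have heq := le_antisymm hK hFK
      refine ⟨heq, inferInstance, ?_⟩
      intro hKtop
      apply htop
      rw [fitSeries_succ, ← heq, hKtop]
      exact Subgroup.comap_top _
    · exact Or.inl hK
  obtain ⟨ψ', hdeg, -⟩ := Cfsg.Agent.S4461.result χ' (irrKer χ') (fun g => mem_irrKer χ' g) hcase
  refine ⟨inflate (fitSeries G j).1 ψ', fun x hx => ?_, ?_⟩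
  · exact (mem_irrKer _ x).mpr (inflate_mem _ ψ' x hx)
  · rw [charDegree_inflate, ← hχ', charDegree_inflate]
    exact hdeg

/-- Garrison's chain of characters. -/
theorem garrison_chain (hsolv : Group.IsSolvable G) (S : Finset ℕ)
    (hS : ∀ χ : IrrCharacter G, charDegree χ.1 ∈ S) (ℓ : ℕ)
    (hℓ : ∀ i < ℓ, (fitSeries G i).1 ≠ ⊤) :
    ∀ m, m + 1 ≤ ℓ → ∃ χ : IrrCharacter G, (fitSeries G (ℓ - 1 - m)).1 ≤ irrKer χ ∧
      m + 1 ≤ (S.filter (· ≤ charDegree χ.1)).card := by
  intro m
  induction m with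
  | zero =>
    intro _
    refine ⟨trivChar G, fun x _ => ?_, ?_⟩
    · rw [mem_irrKer, trivChar_apply, trivChar_apply]
    · exact Finset.card_pos.mpr ⟨_, Finset.mem_filter.mpr ⟨hS (trivChar G), le_rfl⟩⟩
  | succ m ih =>
    intro hm
    obtain ⟨χ, hχ, hcard⟩ := ih (by omega)
    have hj : ℓ - 1 - m = (ℓ - 1 - (m + 1)) + 1 := by omega
    rw [hj] at hχ
    have htop : (fitSeries G ((ℓ - 1 - (m + 1)) + 1)).1 ≠ ⊤ := hℓ _ (by omega)
    obtain ⟨ψ, hψ, hdeg⟩ := garrison_step hsolv _ htop χ hχ
    refine ⟨ψ, hψ, ?_⟩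
    have hsub : S.filter (· ≤ charDegree χ.1) ⊂ S.filter (· ≤ charDegree ψ.1) := by
      rw [Finset.ssubset_iff_of_subset]
      · refine ⟨charDegree ψ.1, Finset.mem_filter.mpr ⟨hS ψ, le_rfl⟩, ?_⟩
        intro hmem
        have := (Finset.mem_filter.mp hmem).2
        omega
      · intro d hd
        rw [Finset.mem_filter] at hd ⊢
        exact ⟨hd.1, by omega⟩
    have := Finset.card_lt_card hsub
    omega

/-- **Garrison.** The upper Fitting series reaches `G` after at most `|cd(G)|` steps. -/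
theorem fitSeries_card_degrees (hsolv : Group.IsSolvable G) (S : Finset ℕ)
    (hS : ∀ χ : IrrCharacter G, charDegree χ.1 ∈ S) : (fitSeries G S.card).1 = ⊤ := by
  classical
  have hex := fitSeries_eq_top (G := G) hsolv
  have hfind := Nat.find_spec hex
  have hmin : ∀ i < Nat.find hex, (fitSeries G i).1 ≠ ⊤ := fun i hi => Nat.find_min hex hi
  have hle : Nat.find hex ≤ S.card := by
    by_cases h0 : Nat.find hex = 0
    · omega
    · obtain ⟨χ, -, hcard⟩ := garrison_chain hsolv S hS (Nat.find hex) hmin (Nat.find hex - 1)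
        (by omega)
      have := Finset.card_le_card (Finset.filter_subset (· ≤ charDegree χ.1) S)
      omega
  exact top_le_iff.mp (hfind ▸ fitSeries_mono hle)

end Chain

end Cfsg.Agent.H32
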