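import Cfsg.Agent.H96.GuDefs

/-!
# helper32: GU-FT (S5700, for helper96)

An isometry mapping the `F[J]`-line of every singular vector into the `F[J]`-line of its image
normalises `F[J]`.
-/

set_option autoImplicit false

namespace Cfsg.Agent.H32.Gu

open Module Matrix Cfsg.Agent.H49 Cfsg.Agent.H95 Cfsg.Agent.H96.Gu

universe u

/-- **GU-FT**. -/
theorem ft (hInd : StInd.{u}) (hSNM : StSNM.{u}) : StFT.{u} := by
  intro ι _ _ F _ _ Q J t N C g hg
  -- existence of the coefficients for singular nonzero `z`
  have hex : ∀ z : ι → F, z ≠ 0 → Q z = 0 →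
      ∃ α β : F, β ≠ 0 ∧ J (act g z) = α • act g z + β • act g (J z) := by
    intro z hz hQz
    obtain ⟨a, b, hab⟩ := hg z hQz
    have hb : b ≠ 0 := by
      intro hb
      rw [hb, zero_smul, add_zero, ← act_smul] at hab
      have h1 := act_injective g hab
      have h2 := (hInd Q J t N C z hz).1 (-a) 1 (by rw [h1]; module)
      exact one_ne_zero h2.2
    refine ⟨-a / b, 1 / b, one_div_ne_zero hb, ?_⟩
    rw [hab]
    match_scalars <;> field_simp <;> ring
  -- uniqueness
  have hstep : ∀ z w : ι → F, z ≠ 0 → Q z = 0 → Q w = 0 → QuadraticMap.polar (⇑Q) z w = 0 →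
      ¬ inK J z w → ∀ α β α' β' : F, J (act g z) = α • act g z + β • act g (J z) →
      J (act g w) = α' • act g w + β' • act g (J w) → α = α' ∧ β = β' := by
    intro z w hz hQz hQw hzw hnk α β α' β' h1 h2
    have hzw0 : z + w ≠ 0 := by
      intro h0
      apply hnk
      refine ⟨-1, 0, ?_⟩
      rw [zero_smul, add_zero, neg_one_smul]
      exact eq_neg_of_add_eq_zero_right h0
    have hQzw : Q (z + w) = 0 := by
      have h5 : QuadraticMap.polar (⇑Q) z w = Q (z + w) - Q z - Q w := rfl
      rw [hzw, hQz, hQw] at h5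
      simpa using h5.symm
    obtain ⟨α'', β'', -, h3⟩ := hex (z + w) hzw0 hQzw
    have h4 : act g ((α - α'') • z + (β - β'') • J z + (α' - α'') • w + (β' - β'') • J w)
        = 0 := by
      simp only [act_add, act_smul, map_add] at h3 ⊢
      rw [h1, h2] at h3
      have h5 : (α - α'') • act g z + (β - β'') • act g (J z) + (α' - α'') • act g w
          + (β' - β'') • act g (J w)
          = (α • act g z + β • act g (J z) + (α' • act g w + β' • act g (J w)))
            - (α'' • (act g z + act g w) + β'' • (act g (J z) + act g (J w))) := by module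
      rw [h5, h3, sub_self]
    have h6 := act_injective g (h4.trans (act_zero g).symm)
    obtain ⟨e1, e2, e3, e4⟩ := (hInd Q J t N C z hz).2 w hnk _ _ _ _ h6
    exact ⟨(sub_eq_zero.mp e1).trans (sub_eq_zero.mp e3).symm,
      (sub_eq_zero.mp e2).trans (sub_eq_zero.mp e4).symm⟩
  have hconst : ∀ z w : ι → F, z ≠ 0 → Q z = 0 → w ≠ 0 → Q w = 0 → ∀ α β α' β' : F,
      J (act g z) = α • act g z + β • act g (J z) →
      J (act g w) = α' • act g w + β' • act g (J w) → α = α' ∧ β = β' := by
    intro z w hz hQz hw hQw α β α' β' h1 h2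
    obtain ⟨e, hQe, hez, hew, hne⟩ := hSNM Q J t N C z w
    have he0 : e ≠ 0 := by
      intro h0
      exact hne 0 0 0 0 (by rw [h0]; simp)
    obtain ⟨αe, βe, -, h3⟩ := hex e he0 hQe
    have hnz : ¬ inK J z e := by
      rintro ⟨a, b, hab⟩
      exact hne a b 0 0 (by rw [hab]; simp)
    have hnw : ¬ inK J w e := by
      rintro ⟨a, b, hab⟩
      exact hne 0 0 a b (by rw [hab]; simp)
    have hze : QuadraticMap.polar (⇑Q) z e = 0 := by
      rw [QuadraticMap.polar_comm]; exact hez.1
    have hwe : QuadraticMap.polar (⇑Q) w e = 0 := by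
      rw [QuadraticMap.polar_comm]; exact hew.1
    obtain ⟨a1, b1⟩ := hstep z e hz hQz hQe hze hnz α β αe βe h1 h3
    obtain ⟨a2, b2⟩ := hstep w e hw hQw hQe hwe hnw α' β' αe βe h2 h3
    exact ⟨a1.trans a2.symm, b1.trans b2.symm⟩
  -- the constants
  obtain ⟨α, β, hβ, hall⟩ : ∃ α β : F, β ≠ 0 ∧
      ∀ z : ι → F, Q z = 0 → J (act g z) = α • act g z + β • act g (J z) := by
    by_cases hne : ∃ z0 : ι → F, z0 ≠ 0 ∧ Q z0 = 0
    · obtain ⟨z0, hz0, hQz0⟩ := hne
      obtain ⟨α, β, hβ, h0⟩ := hex z0 hz0 hQz0
      refine ⟨α, β, hβ, ?_⟩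
      intro z hQz
      by_cases hz : z = 0
      · subst hz
        simp [act_zero]
      · obtain ⟨α', β', -, h1⟩ := hex z hz hQz
        obtain ⟨e1, e2⟩ := hconst z0 z hz0 hQz0 hz hQz α β α' β' h0 h1
        rw [e1, e2]
        exact h1
    · push_neg at hne
      refine ⟨0, 1, one_ne_zero, ?_⟩
      intro z hQz
      have hz : z = 0 := by
        by_contra h
        exact hne z h hQz
      subst hz
      simp [act_zero]
  -- extension by linearity
  have hfull : ∀ x : ι → F, J (act g x) = α • act g x + β • act g (J x) := by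
    let S : Submodule F (ι → F) :=
      { carrier := {x | J (act g x) = α • act g x + β • act g (J x)}
        add_mem' := by
          intro x y hx hy
          simp only [Set.mem_setOf_eq, act_add, map_add] at hx hy ⊢
          rw [hx, hy]
          module
        zero_mem' := by simp [act_zero]
        smul_mem' := by
          intro c x hx
          simp only [Set.mem_setOf_eq, act_smul, map_smul] at hx ⊢
          rw [hx]
          module }
    obtain ⟨e, e', he, he', hee, -, -⟩ := exists_hyp_pair_orth Q C.nd ⊥ (by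
      rw [finrank_bot, Module.finrank_fintype_fun_eq_card]
      have := C.dim
      omega)
    intro x
    have hx := mem_span_singular Q ⊤ e e' Submodule.mem_top Submodule.mem_top he he' hee x
      Submodule.mem_top
    have hle : Submodule.span F {s : ι → F | s ∈ (⊤ : Submodule F (ι → F)) ∧ Q s = 0} ≤ S := by
      rw [Submodule.span_le]
      rintro s ⟨-, hs⟩
      exact hall s hs
    exact hle hx
  refine ⟨-α / β, 1 / β, ?_⟩
  intro x
  rw [hfull x]
  match_scalars <;> field_simp <;> ring

example (hInd : StInd.{u}) (hSNM : StSNM.{u}) : StFT.{u} := ft hInd hSNM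

end Cfsg.Agent.H32.Gu
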