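import Mathlib
import Cfsg.Agent.H79.HcDefs
import Cfsg.Agent.H31.SZ
import Cfsg.Agent.H4.Induction

set_option autoImplicit false

/-! S4440-P6 (team project of helper79): in a split extension by a normal `p`-subgroup, a class
function vanishing at the `p`-singular elements is induced from the complement. -/

namespace Cfsg.Agent.H32.Hc

open Cfsg Cfsg.Agent.H79.Hc
open scoped ComplexConjugate

universe u

variable {G : Type u} [Group G]

/-- `fixCount` is invariant under conjugation of the element (for normal `V`). -/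
theorem fixCount_conj (V : Subgroup G) [hV : V.Normal] (a y : G) :
    fixCount V (a * y * a⁻¹) = fixCount V y := by
  unfold fixCount
  congr 1
  refine Nat.card_congr ⟨fun v => ⟨⟨a⁻¹ * v.1 * a, by
      simpa using hV.conj_mem v.1 v.1.2 a⁻¹⟩, ?_⟩, fun w => ⟨⟨a * w.1 * a⁻¹, hV.conj_mem w.1 w.1.2 a⟩, ?_⟩,
    ?_, ?_⟩
  · have h := v.2
    have h2 := congrArg (fun t => a⁻¹ * t * a) h
    simpa [mul_assoc] using h2
  · have h := w.2
    have h2 := congrArg (fun t => a * t * a⁻¹) h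
    simpa [mul_assoc] using h2
  · intro v
    apply Subtype.ext
    apply Subtype.ext
    simp [mul_assoc]
  · intro w
    apply Subtype.ext
    apply Subtype.ext
    simp [mul_assoc]

theorem fixCount_ne_zero [Finite G] (V : Subgroup G) (y : G) : fixCount V y ≠ 0 := by
  unfold fixCount
  haveI : Nonempty {v : V // (v : G) * y = y * (v : G)} := ⟨⟨1, by simp⟩⟩
  exact_mod_cast (Nat.card_pos (α := {v : V // (v : G) * y = y * (v : G)})).ne'

/-- for `w ∈ V` and `s ∈ Γ₁` (a complement of the normal subgroup `V`): `w⁻¹ s w ∈ Γ₁` iff `w`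
commutes with `s`. -/
theorem conj_mem_compl_iff (V Γ₁ : Subgroup G) [hV : V.Normal] (hc : V.IsComplement' Γ₁)
    {w s : G} (hw : w ∈ V) (hs : s ∈ Γ₁) : w⁻¹ * s * w ∈ Γ₁ ↔ w * s = s * w := by
  constructor
  · intro h
    have h1 : w⁻¹ * (s * w * s⁻¹) ∈ V := V.mul_mem (V.inv_mem hw) (hV.conj_mem w hw s)
    have h2 : w⁻¹ * (s * w * s⁻¹) ∈ Γ₁ := by
      have : w⁻¹ * (s * w * s⁻¹) = (w⁻¹ * s * w) * s⁻¹ := by group
      rw [this]
      exact Γ₁.mul_mem h (Γ₁.inv_mem hs)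
    have h3 : w⁻¹ * (s * w * s⁻¹) ∈ V ⊓ Γ₁ := ⟨h1, h2⟩
    rw [hc.isCompl.inf_eq_bot, Subgroup.mem_bot] at h3
    have h4 : s * w * s⁻¹ = w := by
      have := congrArg (fun t => w * t) h3
      simpa using this
    have h5 := congrArg (fun t => t * s) h4
    simpa using h5.symm
  · intro h
    have : w⁻¹ * s * w = s := by
      rw [mul_assoc, ← h, ← mul_assoc, inv_mul_cancel, one_mul]
    rw [this]
    exact hs

/-- Induction from a complement `Γ₁` of a normal subgroup `V`: only conjugation by `V` matters. -/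
theorem indFun_compl [Fintype G] (V Γ₁ : Subgroup G) [hV : V.Normal] [Fintype V]
    (hc : V.IsComplement' Γ₁)
    (θ : Γ₁ → ℂ) (hθ : IsClassFunction Γ₁ θ) (g : G) :
    indFun Γ₁ θ g = ∑ v : V, extendByZero Γ₁ θ ((v : G)⁻¹ * g * (v : G)) := by
  classical
  rw [Cfsg.Agent.H4.indFun_apply]
  have hinv : ∀ (s : Γ₁) (y : G), extendByZero Γ₁ θ ((s : G)⁻¹ * y * (s : G)) =
      extendByZero Γ₁ θ y := by
    intro s y
    by_cases hy : y ∈ Γ₁
    · have hy' : (s : G)⁻¹ * y * (s : G) ∈ Γ₁ :=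
        Γ₁.mul_mem (Γ₁.mul_mem (Γ₁.inv_mem s.2) hy) s.2
      rw [Cfsg.Agent.H4.extendByZero_of_mem Γ₁ θ hy, Cfsg.Agent.H4.extendByZero_of_mem Γ₁ θ hy']
      have := hθ ⟨y, hy⟩ s⁻¹
      rw [← this]
      congr 1
      apply Subtype.ext
      simp
    · have hy' : (s : G)⁻¹ * y * (s : G) ∉ Γ₁ := by
        intro h
        apply hy
        have h2 : (s : G) * ((s : G)⁻¹ * y * (s : G)) * (s : G)⁻¹ ∈ Γ₁ :=
          Γ₁.mul_mem (Γ₁.mul_mem s.2 h) (Γ₁.inv_mem s.2)
        simpa [mul_assoc] using h2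
      rw [Cfsg.Agent.H4.extendByZero_of_not_mem Γ₁ θ hy,
        Cfsg.Agent.H4.extendByZero_of_not_mem Γ₁ θ hy']
  have hbij : Function.Bijective (fun x : V × Γ₁ => (x.1 : G) * (x.2 : G)) := hc
  rw [← Equiv.sum_comp (Equiv.ofBijective _ hbij)
    (fun x : G => extendByZero Γ₁ θ (x⁻¹ * g * x))]
  rw [Fintype.sum_prod_type]
  have h1 : ∀ v : V, ∑ s : Γ₁, extendByZero Γ₁ θ
      (((Equiv.ofBijective _ hbij) (v, s))⁻¹ * g * ((Equiv.ofBijective _ hbij) (v, s))) =
      (Nat.card Γ₁ : ℂ) * extendByZero Γ₁ θ ((v : G)⁻¹ * g * (v : G)) := by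
    intro v
    have h2 : ∀ s : Γ₁, extendByZero Γ₁ θ
        (((Equiv.ofBijective _ hbij) (v, s))⁻¹ * g * ((Equiv.ofBijective _ hbij) (v, s))) =
        extendByZero Γ₁ θ ((v : G)⁻¹ * g * (v : G)) := by
      intro s
      rw [← hinv s ((v : G)⁻¹ * g * (v : G))]
      congr 1
      simp [Equiv.ofBijective_apply, mul_assoc]
    rw [Finset.sum_congr rfl (fun s _ => h2 s), Finset.sum_const, Finset.card_univ,
      nsmul_eq_mul, Nat.card_eq_fintype_card]
  rw [Finset.sum_congr rfl (fun v _ => h1 v), ← Finset.mul_sum, ← mul_assoc,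
    inv_mul_cancel₀, one_mul]
  have : 0 < Nat.card Γ₁ := Nat.card_pos
  exact_mod_cast this.ne'

/-- the value of an induced function at an element of the complement. -/
theorem indFun_compl_apply_mem [Fintype G] (V Γ₁ : Subgroup G) [hV : V.Normal] [Fintype V]
    (hc : V.IsComplement' Γ₁) (θ : Γ₁ → ℂ) (hθ : IsClassFunction Γ₁ θ) (s : Γ₁) :
    indFun Γ₁ θ (s : G) = fixCount V (s : G) * θ s := by
  classical
  rw [indFun_compl V Γ₁ hc θ hθ]
  have h1 : ∀ w : V, extendByZero Γ₁ θ ((w : G)⁻¹ * (s : G) * (w : G)) =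
      if (w : G) * (s : G) = (s : G) * (w : G) then θ s else 0 := by
    intro w
    by_cases h : (w : G) * (s : G) = (s : G) * (w : G)
    · rw [if_pos h]
      have h2 : (w : G)⁻¹ * (s : G) * (w : G) = (s : G) := by
        rw [mul_assoc, ← h, ← mul_assoc, inv_mul_cancel, one_mul]
      rw [h2, Cfsg.Agent.H4.extendByZero_coe]
    · rw [if_neg h]
      apply Cfsg.Agent.H4.extendByZero_of_not_mem
      intro h2
      exact h ((conj_mem_compl_iff V Γ₁ hc w.2 s.2).mp h2)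
  rw [Finset.sum_congr rfl (fun w _ => h1 w), Finset.sum_ite, Finset.sum_const_zero, add_zero,
    Finset.sum_const, nsmul_eq_mul]
  congr 1
  unfold fixCount
  rw [Nat.card_eq_fintype_card, Fintype.card_subtype]

/-- Schur–Zassenhaus for a cyclic `p'`-subgroup: a `p`-regular element of a split extension
`G = V ⋊ Γ₁` by a normal `p`-subgroup `V` is `V`-conjugate into `Γ₁`. -/
theorem exists_conj_mem_compl [Finite G] (p : ℕ) [hp : Fact p.Prime] (V Γ₁ : Subgroup G)
    [hV : V.Normal] (hVp : IsPGroup p V) (hc : V.IsComplement' Γ₁) (g : G)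
    (hg : ¬ p ∣ orderOf g) : ∃ u ∈ V, u⁻¹ * g * u ∈ Γ₁ := by
  classical
  have hbij : Function.Bijective (fun x : V × Γ₁ => (x.1 : G) * (x.2 : G)) := hc
  obtain ⟨⟨v₀, s₀⟩, hvs⟩ := hbij.2 g
  simp only at hvs
  -- powers of g
  have hpow : ∀ n : ℕ, ∃ v ∈ V, g ^ n = v * (s₀ : G) ^ n := by
    intro n
    induction n with
    | zero => exact ⟨1, V.one_mem, by simp⟩
    | succ n ih =>
      obtain ⟨v, hv, hvn⟩ := ih
      refine ⟨v * ((s₀ : G) ^ n * (v₀ : G) * ((s₀ : G) ^ n)⁻¹), V.mul_mem hv (hV.conj_mem _ v₀.2 _), ?_⟩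
      rw [pow_succ, hvn, ← hvs, pow_succ]
      group
  have hord : orderOf g = orderOf (s₀ : G) := by
    apply Nat.dvd_antisymm
    · obtain ⟨v, hv, hvn⟩ := hpow (orderOf (s₀ : G))
      rw [pow_orderOf_eq_one, mul_one] at hvn
      -- g ^ m ∈ V is a p-element and a p'-element
      obtain ⟨k, hk⟩ := hVp ⟨v, hv⟩
      have hk' : (g ^ orderOf (s₀ : G)) ^ p ^ k = 1 := by
        rw [hvn]
        have := congrArg Subtype.val hk
        simpa using this
      have h1 : orderOf (g ^ orderOf (s₀ : G)) ∣ p ^ k := orderOf_dvd_of_pow_eq_one hk'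
      have h2 : orderOf (g ^ orderOf (s₀ : G)) ∣ orderOf g := orderOf_pow_dvd _
      have hcop : Nat.Coprime (p ^ k) (orderOf g) :=
        Nat.Coprime.pow_left k ((Nat.Prime.coprime_iff_not_dvd hp.out).mpr hg)
      have h3 : orderOf (g ^ orderOf (s₀ : G)) = 1 :=
        Nat.eq_one_of_dvd_coprimes hcop h1 h2
      rw [orderOf_eq_one_iff] at h3
      exact orderOf_dvd_of_pow_eq_one h3
    · obtain ⟨v, hv, hvn⟩ := hpow (orderOf g)
      rw [pow_orderOf_eq_one] at hvn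
      have h1 : (s₀ : G) ^ orderOf g ∈ V ⊓ Γ₁ := by
        refine ⟨?_, Γ₁.pow_mem s₀.2 _⟩
        have : (s₀ : G) ^ orderOf g = v⁻¹ := eq_inv_of_mul_eq_one_right hvn.symm
        rw [this]
        exact V.inv_mem hv
      rw [hc.isCompl.inf_eq_bot, Subgroup.mem_bot] at h1
      exact orderOf_dvd_of_pow_eq_one h1
  have hsol : Group.IsSolvable V := by
    have hnil : Group.IsNilpotent V := hVp.isNilpotent
    infer_instance
  have hcop : (Nat.card V).Coprime (Nat.card (Subgroup.zpowers (s₀ : G))) := by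
    obtain ⟨k, hk⟩ := hVp.exists_card_eq
    rw [hk, Nat.card_zpowers, ← hord]
    exact Nat.Coprime.pow_left k ((Nat.Prime.coprime_iff_not_dvd hp.out).mpr hg)
  have hcard : Nat.card (Subgroup.zpowers g) = Nat.card (Subgroup.zpowers (s₀ : G)) := by
    rw [Nat.card_zpowers, Nat.card_zpowers, hord]
  have hle : Subgroup.zpowers g ≤ V ⊔ Subgroup.zpowers (s₀ : G) := by
    rw [Subgroup.zpowers_le, ← hvs]
    exact Subgroup.mul_mem_sup v₀.2 (Subgroup.mem_zpowers _)
  obtain ⟨x, hx, hxe⟩ := Cfsg.Agent.H31.sz_conj V (Subgroup.zpowers (s₀ : G)) (Subgroup.zpowers g)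
    hsol hcop hcard hle
  have hgm : g ∈ (Subgroup.zpowers (s₀ : G)).map (MulAut.conj x).toMonoidHom := by
    rw [← hxe]
    exact Subgroup.mem_zpowers g
  obtain ⟨y, hy, hyg⟩ := hgm
  refine ⟨x, hx, ?_⟩
  have hy' : y ∈ Γ₁ := by
    have : Subgroup.zpowers (s₀ : G) ≤ Γ₁ := by
      rw [Subgroup.zpowers_le]
      exact s₀.2
    exact this hy
  have : x⁻¹ * g * x = y := by
    rw [← hyg]
    simp [MulAut.conj_apply, mul_assoc]
  rw [this]
  exact hy'

/-- S4440-P6. -/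
theorem stmtInd (p : ℕ) [hp : Fact p.Prime] : StmtInd.{u} p := by
  classical
  intro G _ _ V Γ₁ hV hVp hc f hf hsing g
  set θ : Γ₁ → ℂ := fun s : Γ₁ => f s / fixCount V (s : G) with hθdef
  have hθ : IsClassFunction Γ₁ θ := by
    intro s h
    show f ((h * s * h⁻¹ : Γ₁) : G) / fixCount V ((h * s * h⁻¹ : Γ₁) : G) = f s / fixCount V (s : G)
    have h1 : ((h * s * h⁻¹ : Γ₁) : G) = (h : G) * (s : G) * (h : G)⁻¹ := by simp
    rw [h1, hf, fixCount_conj]
  rw [indFun_compl V Γ₁ hc θ hθ]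
  by_cases hg : p ∣ orderOf g
  · rw [hsing g hg]
    symm
    apply Finset.sum_eq_zero
    intro v _
    by_cases hm : (v : G)⁻¹ * g * (v : G) ∈ Γ₁
    · rw [Cfsg.Agent.H4.extendByZero_of_mem Γ₁ θ hm]
      show f ((v : G)⁻¹ * g * (v : G)) / _ = 0
      have h1 := hf g (v : G)⁻¹
      rw [inv_inv] at h1
      rw [h1, hsing g hg, zero_div]
    · exact Cfsg.Agent.H4.extendByZero_of_not_mem Γ₁ θ hm
  · obtain ⟨u, hu, hug⟩ := exists_conj_mem_compl p V Γ₁ hVp hc g hg
    set g₀ : Γ₁ := ⟨u⁻¹ * g * u, hug⟩ with hg₀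
    have h1 : ∑ v : V, extendByZero Γ₁ θ ((v : G)⁻¹ * g * (v : G)) =
        ∑ w : V, extendByZero Γ₁ θ ((w : G)⁻¹ * (g₀ : G) * (w : G)) := by
      rw [← Equiv.sum_comp (Equiv.mulLeft (⟨u, hu⟩ : V))]
      refine Finset.sum_congr rfl (fun w _ => ?_)
      congr 1
      simp [hg₀, mul_assoc]
    have h2 := indFun_compl_apply_mem V Γ₁ hc θ hθ g₀
    rw [indFun_compl V Γ₁ hc θ hθ] at h2
    rw [h1, h2]
    show f g = fixCount V (g₀ : G) * (f (g₀ : G) / fixCount V (g₀ : G))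
    rw [mul_div_cancel₀ _ (fixCount_ne_zero V (g₀ : G))]
    have h3 := hf g u⁻¹
    rw [inv_inv] at h3
    rw [hg₀]
    exact h3.symm

end Cfsg.Agent.H32.Hc
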