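import Mathlib
import Cfsg.Agent.H79.HcDefs
import Cfsg.Agent.H32.HcInd
import Cfsg.Agent.H32.Virtual
import Cfsg.Agent.H82.Irr
import Cfsg.Agent.H4.Frob
import Cfsg.Agent.H4.Induction

set_option autoImplicit false

/-! S4440-P7 (team project of helper79): closure of `U` under the constituents of `χ · π` on the
complement. -/

namespace Cfsg.Agent.H32.Hc

open Cfsg Cfsg.Agent.H79.Hc Cfsg.Agent.H4
open scoped ComplexConjugate

universe u

variable {G : Type u} [Group G]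

/-- restriction of a function to a subgroup. -/
abbrev resFun (Γ₁ : Subgroup G) (φ : G → ℂ) : Γ₁ → ℂ := fun s => φ (s : G)

open Classical in
theorem wsum_eq_finsum [Finite G] (U : Set (IrrCharacter G)) :
    wsum U = ∑ᶠ χ : IrrCharacter G, (if χ ∈ U then (χ : G → ℂ) 1 else 0) • (χ : G → ℂ) := by
  funext x
  rw [finsum_irr_apply]
  unfold wsum
  rw [finsum_mem_def]
  congr 1
  funext χ
  rw [Set.indicator_apply]
  split_ifs <;> simp

open Classical in
/-- the inner product of the weighted sum with an irreducible character. -/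
theorem classInner_wsum [Fintype G] (U : Set (IrrCharacter G)) (ξ : IrrCharacter G) :
    classInner (wsum U) ξ.1 = if ξ ∈ U then (ξ : G → ℂ) 1 else 0 := by
  rw [wsum_eq_finsum, classInner_finsum_irr]

/-- the projection of `G = V ⋊ Γ₁` onto the complement `Γ₁`. -/
noncomputable def projC (V Γ₁ : Subgroup G) [V.Normal] (hc : V.IsComplement' Γ₁) : G →* Γ₁ :=
  (hc.symm.QuotientMulEquiv).toMonoidHom.comp (QuotientGroup.mk' V)

theorem projC_apply (V Γ₁ : Subgroup G) [V.Normal] (hc : V.IsComplement' Γ₁) (g : G) :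
    projC V Γ₁ hc g = hc.symm.QuotientMulEquiv (QuotientGroup.mk g) := rfl

theorem projC_coe (V Γ₁ : Subgroup G) [V.Normal] (hc : V.IsComplement' Γ₁) (s : Γ₁) :
    projC V Γ₁ hc (s : G) = s := by
  rw [projC_apply, MulEquiv.apply_eq_iff_symm_apply]
  rfl

theorem projC_surjective (V Γ₁ : Subgroup G) [V.Normal] (hc : V.IsComplement' Γ₁) :
    Function.Surjective (projC V Γ₁ hc) := fun s => ⟨s, projC_coe V Γ₁ hc s⟩

/-- inflation of an irreducible character of the complement. -/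
noncomputable def inflC (V Γ₁ : Subgroup G) [V.Normal] (hc : V.IsComplement' Γ₁)
    (η : IrrCharacter Γ₁) : IrrCharacter G :=
  ⟨fun g => η.1 (projC V Γ₁ hc g),
    isIrrCharacter_comp_surjective (projC V Γ₁ hc) (projC_surjective V Γ₁ hc) η.2⟩

theorem inflC_apply (V Γ₁ : Subgroup G) [V.Normal] (hc : V.IsComplement' Γ₁)
    (η : IrrCharacter Γ₁) (g : G) : (inflC V Γ₁ hc η).1 g = η.1 (projC V Γ₁ hc g) := rfl

theorem inflC_coe (V Γ₁ : Subgroup G) [V.Normal] (hc : V.IsComplement' Γ₁)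
    (η : IrrCharacter Γ₁) (s : Γ₁) : (inflC V Γ₁ hc η).1 (s : G) = η.1 s := by
  rw [inflC_apply, projC_coe]

/-- an irreducible character of `G` trivial on `V` is the inflation of its restriction to the
complement, which is irreducible. -/
theorem exists_restr [Finite G] (V Γ₁ : Subgroup G) [V.Normal] (hc : V.IsComplement' Γ₁)
    (χ : IrrCharacter G) (h : ∀ v ∈ V, (χ : G → ℂ) v = (χ : G → ℂ) 1) :
    ∃ η : IrrCharacter Γ₁, inflC V Γ₁ hc η = χ ∧ ∀ s : Γ₁, η.1 s = χ.1 (s : G) := by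
  obtain ⟨χ', hχ'⟩ := Cfsg.Agent.H82.exists_deflate V χ h
  let e := hc.symm.QuotientMulEquiv
  let η : IrrCharacter Γ₁ := ⟨fun s => χ'.1 (e.symm s),
    isIrrCharacter_comp_surjective e.symm.toMonoidHom e.symm.surjective χ'.2⟩
  have h1 : inflC V Γ₁ hc η = χ := by
    apply Subtype.ext
    funext g
    rw [inflC_apply, ← hχ', Cfsg.Agent.H82.inflate_apply]
    show χ'.1 (e.symm (projC V Γ₁ hc g)) = _
    rw [projC_apply, MulEquiv.symm_apply_apply]
  refine ⟨η, h1, fun s => ?_⟩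
  rw [← h1, inflC_coe]

/-- S4440-P7. -/
theorem stmtSplitPi : StmtSplitPi.{u} := by
  classical
  intro G _ _ V Γ₁ hV hc U f₁ hf₁ hw χ hχU hχV ψ hψV hS
  letI : Fintype (IrrCharacter G) := fintypeIrr G
  letI : Fintype (IrrCharacter Γ₁) := fintypeIrr Γ₁
  -- Frobenius reciprocity for the weighted sum
  have K3 : ∀ ξ : IrrCharacter G,
      classInner f₁ (resFun Γ₁ ξ.1) = if ξ ∈ U then (ξ : G → ℂ) 1 else 0 := by
    intro ξ
    rw [← classInner_wsum U ξ, ← frobenius_reciprocity Γ₁ f₁ ξ.1 (irr_isClassFunction ξ)]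
    congr 1
    funext g
    exact (hw g).symm
  -- multiplicities
  have hresChar : ∀ χ' : IrrCharacter G, IsCharacter Γ₁ (resFun Γ₁ χ'.1) := fun χ' =>
    isCharacter_restrict Γ₁ (isCharacter_of_isIrrCharacter χ'.2)
  have hnat : ∀ (χ' : IrrCharacter G) (η : IrrCharacter Γ₁),
      ∃ n : ℕ, classInner (resFun Γ₁ χ'.1) η.1 = n := fun χ' η =>
    classInner_isCharacter_nat (hresChar χ') (isCharacter_of_isIrrCharacter η.2)
  choose M hM using hnat
  have hdeg : ∀ η : IrrCharacter Γ₁, ∃ n : ℕ, 0 < n ∧ (η : Γ₁ → ℂ) 1 = n := irr_one_eq_natCast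
  choose dΓ hdΓpos hdΓ using hdeg
  have hdegG : ∀ ξ : IrrCharacter G, ∃ n : ℕ, 0 < n ∧ (ξ : G → ℂ) 1 = n := irr_one_eq_natCast
  choose dG hdGpos hdG using hdegG
  have hexp : ∀ χ' : IrrCharacter G, resFun Γ₁ χ'.1 =
      ∑ᶠ η : IrrCharacter Γ₁, ((M χ' η : ℕ) : ℂ) • (η : Γ₁ → ℂ) := by
    intro χ'
    have h1 := classFunction_eq_finsum (isClassFunction_of_isCharacter (hresChar χ'))
    refine h1.trans ?_
    congr 1
    funext η
    rw [hM]
  have hf₁exp : f₁ = ∑ᶠ η : IrrCharacter Γ₁,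
      (if inflC V Γ₁ hc η ∈ U then (η : Γ₁ → ℂ) 1 else 0) • (η : Γ₁ → ℂ) := by
    have h1 := classFunction_eq_finsum hf₁
    refine h1.trans ?_
    congr 1
    funext η
    congr 1
    have h2 := K3 (inflC V Γ₁ hc η)
    have h3 : resFun Γ₁ (inflC V Γ₁ hc η).1 = η.1 := by
      funext s
      exact inflC_coe V Γ₁ hc η s
    have h4 : (inflC V Γ₁ hc η).1 1 = η.1 1 := by
      rw [inflC_apply, map_one]
    rw [h3, h4] at h2
    exact h2
  have hA : ∀ χ' : IrrCharacter G, (if χ' ∈ U then (χ' : G → ℂ) 1 else 0) =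
      ∑ η : IrrCharacter Γ₁,
        (if inflC V Γ₁ hc η ∈ U then (η : Γ₁ → ℂ) 1 else 0) * ((M χ' η : ℕ) : ℂ) := by
    intro χ'
    rw [← K3 χ']
    have h1 : classInner f₁ (resFun Γ₁ χ'.1) =
        classInner (∑ᶠ η : IrrCharacter Γ₁,
          (if inflC V Γ₁ hc η ∈ U then (η : Γ₁ → ℂ) 1 else 0) • (η : Γ₁ → ℂ))
          (∑ᶠ η : IrrCharacter Γ₁, ((M χ' η : ℕ) : ℂ) • (η : Γ₁ → ℂ)) := by
      rw [← hexp χ', ← hf₁exp]
    rw [h1, Cfsg.Agent.H32.classInner_finsum_finsum, finsum_irr_eq_sum]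
    refine Finset.sum_congr rfl (fun η _ => ?_)
    rw [Complex.conj_natCast]
  have hB : ∀ χ' : IrrCharacter G, (χ' : G → ℂ) 1 =
      ∑ η : IrrCharacter Γ₁, ((M χ' η : ℕ) : ℂ) * (η : Γ₁ → ℂ) 1 := by
    intro χ'
    have h1 := congrFun (hexp χ') 1
    rw [finsum_irr_apply, finsum_irr_eq_sum] at h1
    exact h1
  have hA' : ∀ χ' : IrrCharacter G, (if χ' ∈ U then dG χ' else 0) =
      ∑ η : IrrCharacter Γ₁, (if inflC V Γ₁ hc η ∈ U then dΓ η else 0) * M χ' η := by
    intro χ'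
    have h := hA χ'
    simp only [hdG, hdΓ] at h
    exact_mod_cast h
  have hB' : ∀ χ' : IrrCharacter G, dG χ' = ∑ η : IrrCharacter Γ₁, M χ' η * dΓ η := by
    intro χ'
    have h := hB χ'
    simp only [hdG, hdΓ] at h
    exact_mod_cast h
  -- compatibility of `U` with restriction
  have hcomp : ∀ (χ' : IrrCharacter G) (η : IrrCharacter Γ₁), M χ' η ≠ 0 →
      (inflC V Γ₁ hc η ∈ U ↔ χ' ∈ U) := by
    intro χ' η hne
    by_cases hχ' : χ' ∈ U
    · refine ⟨fun _ => hχ', fun _ => ?_⟩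
      by_contra hη
      have hA2 := hA' χ'
      rw [if_pos hχ', hB' χ'] at hA2
      have hle : ∀ η ∈ (Finset.univ : Finset (IrrCharacter Γ₁)),
          (if inflC V Γ₁ hc η ∈ U then dΓ η else 0) * M χ' η ≤ M χ' η * dΓ η := by
        intro η _
        split_ifs
        · rw [mul_comm]
        · simp
      have h1 := (Finset.sum_eq_sum_iff_of_le hle).mp hA2.symm η (Finset.mem_univ η)
      rw [if_neg hη, zero_mul] at h1
      exact Nat.mul_ne_zero hne (hdΓpos η).ne' h1.symm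
    · refine ⟨fun hη => ?_, fun h => absurd h hχ'⟩
      exfalso
      have hA2 := hA' χ'
      rw [if_neg hχ'] at hA2
      have h1 := (Finset.sum_eq_zero_iff.mp hA2.symm) η (Finset.mem_univ η)
      rw [if_pos hη] at h1
      rcases Nat.mul_eq_zero.mp h1 with h | h
      · exact (hdΓpos η).ne' h
      · exact hne h
  -- the two characters
  obtain ⟨ηχ, hηχ, hηχs⟩ := exists_restr V Γ₁ hc χ hχV
  obtain ⟨ηψ, hηψ, hηψs⟩ := exists_restr V Γ₁ hc ψ hψV
  have hrχ : resFun Γ₁ χ.1 = ηχ.1 := by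
    funext s
    exact (hηχs s).symm
  by_contra hψU
  apply hS
  have hSsum : (∑ᶠ s ∈ (Γ₁ : Set G), (χ : G → ℂ) s * fixCount V s * conj ((ψ : G → ℂ) s)) =
      ∑ s : Γ₁, (χ : G → ℂ) s * fixCount V s * conj ((ψ : G → ℂ) s) := by
    rw [← finsum_set_coe_eq_finsum_mem]
    exact finsum_eq_sum_of_fintype _
  rw [hSsum]
  -- the induced character of the restriction
  have hΦ : ∀ g : G, indFun Γ₁ (resFun Γ₁ χ.1) g =
      ∑ χ' : IrrCharacter G, ((M χ' ηχ : ℕ) : ℂ) * (χ' : G → ℂ) g := by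
    intro g
    have h1 := classFunction_eq_finsum (indFun_isClassFunction Γ₁ (resFun Γ₁ χ.1))
    have h2 := congrFun h1 g
    rw [finsum_irr_apply, finsum_irr_eq_sum] at h2
    refine h2.trans (Finset.sum_congr rfl (fun χ' _ => ?_))
    congr 1
    rw [frobenius_reciprocity Γ₁ (resFun Γ₁ χ.1) χ'.1 (irr_isClassFunction χ'),
      ← classInner_conj_symm]
    show conj (classInner (resFun Γ₁ χ'.1) (resFun Γ₁ χ.1)) = _
    rw [hrχ, hM, Complex.conj_natCast]
  have hterm : ∀ s : Γ₁, (χ : G → ℂ) s * fixCount V s * conj ((ψ : G → ℂ) s) =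
      ∑ χ' : IrrCharacter G, ((M χ' ηχ : ℕ) : ℂ) * ((χ' : G → ℂ) s * conj (ηψ.1 s)) := by
    intro s
    have h1 := indFun_compl_apply_mem V Γ₁ hc (resFun Γ₁ χ.1)
      (isClassFunction_of_isCharacter (hresChar χ)) s
    rw [hΦ] at h1
    have h2 : (χ : G → ℂ) s * fixCount V s = fixCount V (s : G) * resFun Γ₁ χ.1 s := mul_comm _ _
    rw [h2, ← h1, Finset.sum_mul, hηψs s]
    refine Finset.sum_congr rfl (fun χ' _ => ?_)
    ring
  rw [Finset.sum_congr rfl (fun s _ => hterm s), Finset.sum_comm]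
  apply Finset.sum_eq_zero
  intro χ' _
  rw [← Finset.mul_sum]
  by_cases hM0 : M χ' ηχ = 0
  · rw [hM0, Nat.cast_zero, zero_mul]
  · have h1 : χ' ∈ U := (hcomp χ' ηχ hM0).mp (hηχ ▸ hχU)
    have h2 : M χ' ηψ = 0 := by
      by_contra h3
      exact hψU (hηψ ▸ (hcomp χ' ηψ h3).mpr h1)
    have h3 := hM χ' ηψ
    rw [h2, Nat.cast_zero] at h3
    unfold classInner at h3
    have h4 : (Nat.card Γ₁ : ℂ)⁻¹ ≠ 0 := by
      apply inv_ne_zero
      have : 0 < Nat.card Γ₁ := Nat.card_pos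
      exact_mod_cast this.ne'
    have h5 := (mul_eq_zero.mp h3).resolve_left h4
    rw [show (∑ s : Γ₁, (χ' : G → ℂ) s * conj (ηψ.1 s)) = 0 from h5, mul_zero]

end Cfsg.Agent.H32.Hc
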