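import Mathlib
import Cfsg.Agent.H99.I2Defs

/-!
# I2-POS (helper32, for helper99; S5974 and S5990)

Characteristic `2`: an isometry `T` with `T * T = 1` and `rank (T - 1)` even of a nondegenerate
quadratic space of type `plV` fixes a nondegenerate PLUS-type subspace of every even dimension
`2 ≤ m ≤ dim V - 2`, unless `m ≡ 2 (mod 4)` and `dim V ≡ 0 (mod 4)` (`V` plus) resp.
`dim V ≡ 2 (mod 4)` (`V` minus).
-/

set_option autoImplicit false

namespace Cfsg.Agent.H32.I2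

open Cfsg.Agent.H45 Cfsg.Agent.H48.Ep Cfsg.Agent.H99.I2 Module

universe u v

theorem pos (hPlane : StI2Plane.{u, v}) (hPerp : StI2Perp.{u, v}) (hX4 : StI2X4.{u, v})
    (hA : StI2AType.{u, v}) (hAll : StI2All.{u, v}) (hSum : Cfsg.Agent.H48.Ep.StQSum.{u, v}) :
    Cfsg.Agent.H99.Em.StI2Pos.{u, v} := by
  intro F _ _ V _ _ _ Q T plV m h2 hnd hiso hsq hrk hplV hm hm2 hmn hC
  classical
  have ctx : I2Ctx Q T := ⟨h2, hnd, hiso, hsq⟩
  have hInvTop : Inv Q T ⊤ := by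
    refine ⟨?_, hnd⟩
    rw [Module.End.mem_invtSubmodule]
    exact le_top
  have hrkTop : rk T ⊤ = finrank F (LinearMap.range (T - 1)) := by
    unfold rk
    rw [Submodule.map_top]
  obtain ⟨m', rfl⟩ : ∃ m', m = 2 * m' := by
    obtain ⟨r, hr⟩ := hm
    exact ⟨r, by omega⟩
  by_cases hAT : AType Q T ⊤
  · obtain ⟨t, ht, h4t, hex⟩ := hA F V Q T ctx ⊤ hInvTop hAT
    rw [finrank_top] at h4t hex
    have hshape : ∃ j e : ℕ, j ≤ t ∧ 2 * m' = 4 * j + e ∧ Even e ∧ e ≤ finrank F V - 4 * t ∧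
          ((0 < e ∧ e < finrank F V - 4 * t) ∨ (e = 0 ∧ True) ∨
            (e = finrank F V - 4 * t ∧ 0 < e ∧ (True ↔ QPlus Q ⊤))) := by
      by_cases hgt : 4 * t < 2 * m'
      · refine ⟨t, 2 * m' - 4 * t, le_rfl, by omega, ⟨m' - 2 * t, by omega⟩, by omega,
          Or.inl ⟨by omega, by omega⟩⟩
      · by_cases h0 : m' % 2 = 0
        · exact ⟨m' / 2, 0, by omega, by omega, ⟨0, rfl⟩, by omega, Or.inr (Or.inl ⟨rfl, trivial⟩)⟩
        · have hC' : (plV ∧ finrank F V % 4 = 2) ∨ (¬ plV ∧ finrank F V % 4 = 0) := by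
            rcases hC with h | h
            · omega
            · exact h
          rcases hC' with ⟨hp, hn⟩ | ⟨hp, hn⟩
          · by_cases hk : finrank F V - 4 * t = 2
            · exact ⟨(m' - 1) / 2, 2, by omega, by omega, even_two, by omega,
                Or.inr (Or.inr ⟨by omega, by omega, ⟨fun _ => hplV.2 hp, fun _ => trivial⟩⟩)⟩
            · exact ⟨(m' - 1) / 2, 2, by omega, by omega, even_two, by omega,
                Or.inl ⟨by omega, by omega⟩⟩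
          · have hk0 : finrank F V ≠ 4 * t := by
              intro hk0
              obtain ⟨W, -, hW, hWd, hWp⟩ := hex (finrank F V) True
                ⟨t, 0, le_rfl, by omega, ⟨0, rfl⟩, by omega, Or.inr (Or.inl ⟨rfl, trivial⟩)⟩
              have hWtop : W = ⊤ := Submodule.eq_top_of_finrank_eq hWd
              rw [hWtop] at hWp
              exact hp (hplV.1 (hWp.2 trivial))
            exact ⟨(m' - 1) / 2, 2, by omega, by omega, even_two, by omega,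
              Or.inl ⟨by omega, by omega⟩⟩
    obtain ⟨W, -, hW, hWd, hWp⟩ := hex (2 * m') True hshape
    exact ⟨W, hW.1, hW.2, hWd, hWp.2 trivial⟩
  · obtain ⟨P₁, -, hP₁, hP₁d, hP₁r⟩ := hPlane F V Q T ctx ⊤ hInvTop hAT
    obtain ⟨X₁, hX₁def⟩ : ∃ X₁ : Submodule F V,
        X₁ = ⊤ ⊓ perp (QuadraticMap.polarBilin Q) P₁ := ⟨_, rfl⟩
    have hperp1 := hPerp F V Q T ctx ⊤ P₁ hInvTop hP₁ le_top
    rw [← hX₁def, finrank_top] at hperp1
    obtain ⟨hX₁, hX₁d, -, hX₁o, hX₁r⟩ := hperp1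
    have hX₁odd : ¬ AType Q T X₁ := by
      intro hat
      obtain ⟨t, ht, -, -⟩ := hA F V Q T ctx X₁ hX₁ hat
      rw [← hrkTop, hX₁r, hP₁r, ht] at hrk
      obtain ⟨r, hr⟩ := hrk
      omega
    obtain ⟨P₂, hP₂X, hP₂, hP₂d, hP₂r⟩ := hPlane F V Q T ctx X₁ hX₁ hX₁odd
    obtain ⟨X₂, hX₂def⟩ : ∃ X₂ : Submodule F V,
        X₂ = X₁ ⊓ perp (QuadraticMap.polarBilin Q) P₂ := ⟨_, rfl⟩
    have hperp2 := hPerp F V Q T ctx X₁ P₂ hX₁ hP₂ hP₂X
    rw [← hX₂def] at hperp2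
    obtain ⟨hX₂, hX₂d, -, hX₂o, hX₂r⟩ := hperp2
    have hX₂even : Even (rk T X₂) := by
      rw [← hrkTop, hX₁r, hP₁r, hX₂r, hP₂r] at hrk
      obtain ⟨r, hr⟩ := hrk
      exact ⟨r - 1, by omega⟩
    have hdim₂ : finrank F X₂ + 4 = finrank F V := by omega
    have hX₂X₁ : X₂ ≤ X₁ := by
      rw [hX₂def]
      exact inf_le_left
    have key : (∃ W : Submodule F V, W ∈ T.invtSubmodule ∧ QNd Q W ∧ finrank F W = 2 * m' ∧
          QPlus Q W) ∨
        (∃ W₂ : Submodule F V, W₂ ≤ X₂ ∧ Inv Q T W₂ ∧ finrank F W₂ = 2 * m' - 2) := by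
      rcases hAll F V Q T ctx X₂ hX₂ hX₂even with hat | hall
      · obtain ⟨t, ht, h4t, hex⟩ := hA F V Q T ctx X₂ hX₂ hat
        by_cases hk : finrank F X₂ - 4 * t < 2 ∧ m' % 2 = 0
        · left
          obtain ⟨W, -, hW, hWd, hWp⟩ := hex (2 * m') True
            ⟨m' / 2, 0, by omega, by omega, ⟨0, rfl⟩, by omega, Or.inr (Or.inl ⟨rfl, trivial⟩)⟩
          exact ⟨W, hW.1, hW.2, hWd, hWp.2 trivial⟩
        · right
          have hshape : ∃ (pl : Prop) (j e : ℕ), j ≤ t ∧ 2 * m' - 2 = 4 * j + e ∧ Even e ∧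
              e ≤ finrank F X₂ - 4 * t ∧
              ((0 < e ∧ e < finrank F X₂ - 4 * t) ∨ (e = 0 ∧ pl) ∨
                (e = finrank F X₂ - 4 * t ∧ 0 < e ∧ (pl ↔ QPlus Q X₂))) := by
            by_cases hgt : 4 * t < 2 * m' - 2
            · by_cases hlt : 2 * m' - 2 - 4 * t < finrank F X₂ - 4 * t
              · exact ⟨QPlus Q X₂, t, 2 * m' - 2 - 4 * t, le_rfl, by omega,
                  ⟨m' - 1 - 2 * t, by omega⟩, by omega, Or.inl ⟨by omega, hlt⟩⟩
              · exact ⟨QPlus Q X₂, t, 2 * m' - 2 - 4 * t, le_rfl, by omega,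
                  ⟨m' - 1 - 2 * t, by omega⟩, by omega,
                  Or.inr (Or.inr ⟨by omega, by omega, Iff.rfl⟩)⟩
            · by_cases h0 : m' % 2 = 0
              · by_cases hlt : 2 < finrank F X₂ - 4 * t
                · exact ⟨QPlus Q X₂, (m' - 2) / 2, 2, by omega, by omega, even_two, by omega,
                    Or.inl ⟨by omega, hlt⟩⟩
                · exact ⟨QPlus Q X₂, (m' - 2) / 2, 2, by omega, by omega, even_two, by omega,
                    Or.inr (Or.inr ⟨by omega, by omega, Iff.rfl⟩)⟩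
              · exact ⟨True, (m' - 1) / 2, 0, by omega, by omega, ⟨0, rfl⟩, by omega,
                  Or.inr (Or.inl ⟨rfl, trivial⟩)⟩
          obtain ⟨pl, hsh⟩ := hshape
          obtain ⟨W₂, hW₂X, hW₂, hW₂d, -⟩ := hex (2 * m' - 2) pl hsh
          exact ⟨W₂, hW₂X, hW₂, hW₂d⟩
      · right
        obtain ⟨W₂, hW₂X, hW₂, hW₂d⟩ := hall (2 * m' - 2) ⟨m' - 1, by omega⟩ (by omega)
        exact ⟨W₂, hW₂X, hW₂, hW₂d⟩
    rcases key with hfin | ⟨W₂, hW₂X, hW₂, hW₂d⟩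
    · exact hfin
    · have horth12 : ∀ x ∈ P₁, ∀ y ∈ P₂, QuadraticMap.polar ⇑Q x y = 0 :=
        fun x hx y hy => hX₁o x hx y (hP₂X hy)
      obtain ⟨P, hPle, hP, hPd, hPp⟩ := hX4 F V Q T ctx P₁ P₂ hP₁ hP₂ hP₁d hP₂d hP₁r hP₂r
        horth12 (QPlus Q W₂)
      have hPW : ∀ x ∈ P, ∀ y ∈ W₂, QuadraticMap.polar ⇑Q x y = 0 := by
        intro x hx y hy
        obtain ⟨p1, hp1, p2, hp2, rfl⟩ := Submodule.mem_sup.1 (hPle hx)
        have hy2 : y ∈ X₂ := hW₂X hy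
        have hy1 : y ∈ X₁ := hX₂X₁ hy2
        rw [QuadraticMap.polar_add_left, hX₁o p1 hp1 y hy1, hX₂o p2 hp2 y hy2, add_zero]
      obtain ⟨hnd', hd', hpl'⟩ := hSum F V Q P W₂ hP.2 hW₂.2 hPW (by rw [hPd]; exact even_two)
        (by rw [hW₂d]; exact ⟨m' - 1, by omega⟩)
      refine ⟨P ⊔ W₂, ?_, hnd', by rw [hd', hPd, hW₂d]; omega, hpl'.2 hPp⟩
      rw [Module.End.mem_invtSubmodule]
      intro x hx
      obtain ⟨p, hp, w, hw, rfl⟩ := Submodule.mem_sup.1 hx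
      rw [Submodule.mem_comap, map_add]
      exact Submodule.add_mem _
        (Submodule.mem_sup_left ((Module.End.mem_invtSubmodule T).1 hP.1 hp))
        (Submodule.mem_sup_right ((Module.End.mem_invtSubmodule T).1 hW₂.1 hw))

example (hPlane : StI2Plane.{u, v}) (hPerp : StI2Perp.{u, v}) (hX4 : StI2X4.{u, v})
    (hA : StI2AType.{u, v}) (hAll : StI2All.{u, v}) (hSum : Cfsg.Agent.H48.Ep.StQSum.{u, v}) :
    Cfsg.Agent.H99.Em.StI2Pos.{u, v} := pos hPlane hPerp hX4 hA hAll hSum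

end Cfsg.Agent.H32.I2
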