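import Mathlib
import Cfsg.Agent.H64.JzFinal
import Cfsg.Agent.H61.JkBasic
import Cfsg.Agent.H20.JyPair
import Cfsg.Agent.H59.PushKill2
import Cfsg.Agent.H53.Large2
import Cfsg.Agent.H51.Local
import Cfsg.Agent.H7.JyNotin
import Cfsg.Agent.H62.JyNS

/-!
# JY-PFACTS (S2953, team project JY, piece KILL2): the structure of `P = K ⊔ T` for a
configuration `Base S M T K L`

With `O = O₂(K)` and `D = O₂(K ⊔ T)`: `T ≤ N(K)`, `O = K ∩ M`-facts, `D ≤ T` of index `≤ 2`,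
the elements of `T ∖ D` invert `K / O`, and a nontrivial subgroup of `T` normalized by `K` and `T`
has its normalizer inside `L`, hence meets `S` inside `T`.
-/

set_option autoImplicit false
open Cfsg

namespace Cfsg.Agent.H32.Jy

universe u

section Abs

variable {G : Type u} [Group G]

/-- In a group of order 3 every element is `1`, `q` or `q⁻¹` (for `q ≠ 1`). -/
theorem three_cases {Q : Type*} [Group Q] (hQ : Nat.card Q = 3) (q y : Q) (hq : q ≠ 1) :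
    y = 1 ∨ y = q ∨ y = q⁻¹ := by
  haveI : Fact (Nat.Prime 3) := ⟨Nat.prime_three⟩
  have hq3 : q ^ 3 = 1 := by rw [← hQ]; exact pow_card_eq_one'
  have htop := zpowers_eq_top_of_prime_card hQ hq
  have hmem : y ∈ Subgroup.zpowers q := by rw [htop]; trivial
  obtain ⟨i, hi⟩ := Subgroup.mem_zpowers_iff.mp hmem
  have hq3' : q ^ (3 : ℤ) = 1 := by
    have : q ^ ((3 : ℕ) : ℤ) = 1 := by rw [zpow_natCast]; exact hq3
    exact_mod_cast this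
  have hsplit : q ^ i = q ^ (i % 3) := by
    conv_lhs => rw [← Int.mul_ediv_add_emod i 3]
    rw [zpow_add, zpow_mul, hq3', one_zpow, one_mul]
  have h0 : 0 ≤ i % 3 := Int.emod_nonneg i (by norm_num)
  have h1 : i % 3 < 3 := Int.emod_lt_of_pos i (by norm_num)
  rw [hsplit] at hi
  have hcases : i % 3 = 0 ∨ i % 3 = 1 ∨ i % 3 = 2 := by omega
  rcases hcases with h | h | h
  · left; rw [← hi, h, zpow_zero]
  · right; left; rw [← hi, h, zpow_one]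
  · right; right
    rw [← hi, h]
    have h2 : q ^ (2 : ℤ) * q = 1 := by
      have : q ^ (2 : ℤ) * q = q ^ (3 : ℤ) := by
        rw [show (3 : ℤ) = 2 + 1 from rfl, zpow_add, zpow_one]
      rw [this, hq3']
    exact eq_inv_of_mul_eq_one_left h2

/-- Index-3 facts for `O ≤ K`, `O` normalized by `K`. -/
theorem idx3 (K O : Subgroup G) (hOK : O ≤ K) (hn : ∀ g ∈ K, ∀ o ∈ O, g * o * g⁻¹ ∈ O)
    (h3 : O.relIndex K = 3) :
    (∃ k ∈ K, k ∉ O) ∧ (∀ g ∈ K, g * g ∈ O → g ∈ O) ∧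
    (∀ k ∈ K, k ∉ O → ∀ g ∈ K, g ∈ O ∨ k⁻¹ * g ∈ O ∨ k * g ∈ O) := by
  have hKN : K ≤ Subgroup.normalizer (O : Set G) := by
    intro g hg
    refine Cfsg.Agent.H28.RKill.norm_of_conj O g (hn g hg) ?_
    intro h hh
    have := hn g⁻¹ (K.inv_mem hg) h hh
    rwa [inv_inv] at this
  haveI : (O.subgroupOf K).Normal := Subgroup.normal_subgroupOf_of_le_normalizer hKN
  have hcard : Nat.card (↥K ⧸ O.subgroupOf K) = 3 := by
    rw [← Subgroup.index_eq_card]; exact h3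
  have hmk : ∀ g : ↥K, (QuotientGroup.mk g : ↥K ⧸ O.subgroupOf K) = 1 ↔ (g : G) ∈ O := by
    intro g
    rw [QuotientGroup.eq_one_iff, Subgroup.mem_subgroupOf]
  have h3c : ∀ k ∈ K, k ∉ O → ∀ g ∈ K, g ∈ O ∨ k⁻¹ * g ∈ O ∨ k * g ∈ O := by
    intro k hk hkO g hg
    have hq : (QuotientGroup.mk (⟨k, hk⟩ : ↥K) : ↥K ⧸ O.subgroupOf K) ≠ 1 :=
      fun h => hkO ((hmk _).mp h)
    rcases three_cases hcard (QuotientGroup.mk (⟨k, hk⟩ : ↥K) : ↥K ⧸ O.subgroupOf K)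
      (QuotientGroup.mk (⟨g, hg⟩ : ↥K)) hq with h | h | h
    · left; exact (hmk _).mp h
    · right; left
      have h' : (QuotientGroup.mk ((⟨k, hk⟩ : ↥K)⁻¹ * ⟨g, hg⟩) : ↥K ⧸ O.subgroupOf K) = 1 := by
        rw [QuotientGroup.mk_mul, QuotientGroup.mk_inv, h, inv_mul_cancel]
      exact (hmk _).mp h'
    · right; right
      have h' : (QuotientGroup.mk ((⟨k, hk⟩ : ↥K) * ⟨g, hg⟩) : ↥K ⧸ O.subgroupOf K) = 1 := by
        rw [QuotientGroup.mk_mul, h, mul_inv_cancel]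
      exact (hmk _).mp h'
  have hex : ∃ k ∈ K, k ∉ O := by
    by_contra hcon
    push Not at hcon
    have : O.relIndex K = 1 := Subgroup.relIndex_eq_one.mpr (fun g hg => hcon g hg)
    omega
  refine ⟨hex, ?_, h3c⟩
  intro g hg hgg
  have h1 : (QuotientGroup.mk (⟨g, hg⟩ : ↥K) : ↥K ⧸ O.subgroupOf K) ^ 3 = 1 := by
    rw [← hcard]; exact pow_card_eq_one'
  have h2 : (QuotientGroup.mk (⟨g, hg⟩ : ↥K) : ↥K ⧸ O.subgroupOf K) *
      (QuotientGroup.mk (⟨g, hg⟩ : ↥K) : ↥K ⧸ O.subgroupOf K) = 1 := by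
    rw [← QuotientGroup.mk_mul]
    exact (hmk _).mpr hgg
  have h3' : (QuotientGroup.mk (⟨g, hg⟩ : ↥K) : ↥K ⧸ O.subgroupOf K) = 1 := by
    have e : (QuotientGroup.mk (⟨g, hg⟩ : ↥K) : ↥K ⧸ O.subgroupOf K) ^ 3 =
        (QuotientGroup.mk (⟨g, hg⟩ : ↥K)) * (QuotientGroup.mk (⟨g, hg⟩ : ↥K)) *
          (QuotientGroup.mk (⟨g, hg⟩ : ↥K)) := by
      rw [pow_succ, pow_two]
    rw [h1, h2, one_mul] at e
    exact e.symm
  exact (hmk _).mp h3'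

/-- An element normalizing `K` and `O` (index 3) centralizes or inverts `K / O`. -/
theorem inv_or_cent (K O : Subgroup G) (hOK : O ≤ K) (hn : ∀ g ∈ K, ∀ o ∈ O, g * o * g⁻¹ ∈ O)
    (h3 : O.relIndex K = 3) (x : G) (hxK : ∀ g ∈ K, x * g * x⁻¹ ∈ K)
    (hxO : ∀ o ∈ O, x * o * x⁻¹ ∈ O) (hxO' : ∀ o : G, x * o * x⁻¹ ∈ O → o ∈ O) :
    (∀ g ∈ K, x * g * x⁻¹ * g⁻¹ ∈ O) ∨ (∀ g ∈ K, x * g * x⁻¹ * g ∈ O) := by
  obtain ⟨⟨k, hk, hkO⟩, -, h3c⟩ := idx3 K O hOK hn h3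
  have hc : x * k * x⁻¹ ∈ K := hxK k hk
  have hcO : x * k * x⁻¹ ∉ O := fun h => hkO (hxO' k h)
  have hkinv : k⁻¹ ∈ K := K.inv_mem hk
  rcases h3c k hk hkO (x * k * x⁻¹) hc with h | h | h
  · exact absurd h hcO
  · left
    intro g hg
    rcases h3c k hk hkO g hg with hg1 | hg1 | hg1
    · exact O.mul_mem (hxO g hg1) (O.inv_mem hg1)
    · have e : x * g * x⁻¹ * g⁻¹ = k * ((k⁻¹ * (x * k * x⁻¹)) *
          ((x * (k⁻¹ * g) * x⁻¹) * (k⁻¹ * g)⁻¹)) * k⁻¹ := by group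
      rw [e]
      exact hn k hk _ (O.mul_mem h (O.mul_mem (hxO _ hg1) (O.inv_mem hg1)))
    · have e : x * g * x⁻¹ * g⁻¹ = k⁻¹ * ((k * (k⁻¹ * (x * k * x⁻¹))⁻¹ * k⁻¹) *
          ((x * (k * g) * x⁻¹) * (k * g)⁻¹)) * k⁻¹⁻¹ := by group
      rw [e]
      exact hn k⁻¹ hkinv _ (O.mul_mem (hn k hk _ (O.inv_mem h))
        (O.mul_mem (hxO _ hg1) (O.inv_mem hg1)))
  · right
    intro g hg
    rcases h3c k hk hkO g hg with hg1 | hg1 | hg1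
    · exact O.mul_mem (hxO g hg1) hg1
    · have e : x * g * x⁻¹ * g = (k⁻¹ * (k * (x * k * x⁻¹)) * k⁻¹⁻¹) *
          (k⁻¹ * (x * (k⁻¹ * g) * x⁻¹) * k⁻¹⁻¹) * (k⁻¹ * g) := by group
      rw [e]
      exact O.mul_mem (O.mul_mem (hn k⁻¹ hkinv _ h) (hn k⁻¹ hkinv _ (hxO _ hg1))) hg1
    · have e : x * g * x⁻¹ * g = (k * (x * k * x⁻¹))⁻¹ *
          (k * (x * (k * g) * x⁻¹) * k⁻¹) * (k * g) := by group
      rw [e]
      exact O.mul_mem (O.mul_mem (O.inv_mem h) (hn k hk _ (hxO _ hg1))) hg1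

end Abs

section Main

open Cfsg.Agent.H64.Jz

variable {G : Type u} [Group G] [Finite G]

/-- **JY-PFACTS**: the structure of `P = K ⊔ T` for a configuration `Base S M T K L`
(`O = O₂(K)`, `D = O₂(K ⊔ T)`). -/
theorem pfacts (S : Sylow 2 G) (M T K L : Subgroup G) (hB : Base S M T K L) :
    T ≤ (S : Subgroup G) ∧ (S : Subgroup G) ≤ M ∧ IsPGroup 2 ↥T ∧ T ≤ L ∧ K ≤ L ∧
    T ≤ Subgroup.normalizer (K : Set G) ∧
    pCoreOf 2 K ≤ K ∧ pCoreOf 2 K ≤ pCoreOf 2 (K ⊔ T) ∧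
    (∀ g ∈ K, ∀ o ∈ pCoreOf 2 K, g * o * g⁻¹ ∈ pCoreOf 2 K) ∧
    (∀ t ∈ T, ∀ o ∈ pCoreOf 2 K, t * o * t⁻¹ ∈ pCoreOf 2 K) ∧
    (∀ g ∈ K, g * g ∈ pCoreOf 2 K → g ∈ pCoreOf 2 K) ∧
    (∃ k ∈ K, k ∉ pCoreOf 2 K) ∧
    (∀ k ∈ K, k ∉ pCoreOf 2 K → ∀ g ∈ K,
      g ∈ pCoreOf 2 K ∨ k⁻¹ * g ∈ pCoreOf 2 K ∨ k * g ∈ pCoreOf 2 K) ∧
    (∀ g ∈ K, g ∈ M → g ∈ pCoreOf 2 K) ∧
    pCoreOf 2 (K ⊔ T) ≤ T ∧
    K ≤ Subgroup.normalizer (pCoreOf 2 (K ⊔ T) : Set G) ∧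
    T ≤ Subgroup.normalizer (pCoreOf 2 (K ⊔ T) : Set G) ∧
    (∀ x ∈ T, x ∉ pCoreOf 2 (K ⊔ T) → ∀ g ∈ K, x * g * x⁻¹ * g ∈ pCoreOf 2 K) ∧
    (∀ a ∈ T, ∀ b ∈ T, a ∉ pCoreOf 2 (K ⊔ T) → b ∉ pCoreOf 2 (K ⊔ T) →
      a * b ∈ pCoreOf 2 (K ⊔ T)) ∧
    (∀ U : Subgroup G, U ≠ ⊥ → U ≤ T → K ≤ Subgroup.normalizer (U : Set G) →
      T ≤ Subgroup.normalizer (U : Set G) →
      Subgroup.normalizer (U : Set G) ≤ L ∧
        ∀ y ∈ (S : Subgroup G), y ∈ Subgroup.normalizer (U : Set G) → y ∈ T) := by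
  have hB0 := hB
  obtain ⟨hZN, hO, hM, hMJ, hT, hTS, hK, hLmax, hKJL⟩ := hB
  have hKJ : IsJComponent T K := hK.1.1
  have hKM : ¬ K ≤ M := hK.2.1
  obtain ⟨hT2, hTne, hTM, -⟩ := hT.1
  obtain ⟨hgen, -, hO3, -, -, -⟩ := hKJ
  obtain ⟨-, hsyl⟩ := Cfsg.Agent.H61.Jk.base_facts S M T K L hB0
  have hTL : T ≤ L := hsyl.1
  have hKL : K ≤ L := le_sup_left.trans hKJL
  have hTK : T ≤ Subgroup.normalizer (K : Set G) :=
    normFinal S M T K L hB0 (stMain S M T K L hB0)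
  have hSM : (S : Subgroup G) ≤ M := fun s hs =>
    Cfsg.Agent.H62.Jy.ns S M T K L hB0 (Subgroup.le_normalizer hs)
  have hPL : K ⊔ T ≤ L := sup_le hKL hTL
  have hPK : K ⊔ T ≤ Subgroup.normalizer (K : Set G) := sup_le Subgroup.le_normalizer hTK
  have hOK : pCoreOf 2 K ≤ K := Cfsg.Agent.H51.pCoreOf_le 2 K
  have hOD : pCoreOf 2 K ≤ pCoreOf 2 (K ⊔ T) :=
    Cfsg.Agent.H53.pCoreOf_le_of_normal le_sup_left hPK
  have hsylP : IsSylowTwoIn T (K ⊔ T) := by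
    refine ⟨le_sup_right, hT2, ?_⟩
    have hmul := Subgroup.relIndex_mul_relIndex T (K ⊔ T) L le_sup_right hPL
    have hodd : Odd (T.relIndex (K ⊔ T) * (K ⊔ T).relIndex L) := by rw [hmul]; exact hsyl.2.2
    exact (Nat.odd_mul.mp hodd).1
  have hDT : pCoreOf 2 (K ⊔ T) ≤ T := Cfsg.Agent.Helper55.J48.pCoreOf_le_of_sylowIn hsylP
  have hPD : K ⊔ T ≤ Subgroup.normalizer (pCoreOf 2 (K ⊔ T) : Set G) :=
    Cfsg.Agent.H51.le_normalizer_pCoreOf 2 (K ⊔ T)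
  have hKD : K ≤ Subgroup.normalizer (pCoreOf 2 (K ⊔ T) : Set G) := le_sup_left.trans hPD
  have hTD : T ≤ Subgroup.normalizer (pCoreOf 2 (K ⊔ T) : Set G) := le_sup_right.trans hPD
  have hD2grp : IsPGroup 2 ↥(pCoreOf 2 (K ⊔ T)) := Cfsg.Agent.H51.pCoreOf_isPGroup 2 (K ⊔ T)
  -- `D ⊓ K ≤ O`
  have hDKO : pCoreOf 2 (K ⊔ T) ⊓ K ≤ pCoreOf 2 K := by
    refine Cfsg.Agent.H51.le_pCoreOf 2 inf_le_right ?_ (hD2grp.to_le inf_le_left)
    intro g hg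
    rw [Subgroup.mem_normalizer_iff]
    intro n
    rw [Subgroup.mem_inf, Subgroup.mem_inf]
    have h1 := Subgroup.mem_normalizer_iff.mp (hKD hg) n
    have h2 := Subgroup.mem_normalizer_iff.mp (Subgroup.le_normalizer (H := K) hg) n
    exact and_congr h1 h2
  have hnO : ∀ g ∈ K, ∀ o ∈ pCoreOf 2 K, g * o * g⁻¹ ∈ pCoreOf 2 K := by
    intro g hg o ho
    exact (Subgroup.mem_normalizer_iff.mp (Cfsg.Agent.H51.le_normalizer_pCoreOf 2 K hg) o).mp ho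
  have hTO : ∀ t ∈ T, ∀ o ∈ pCoreOf 2 K, t * o * t⁻¹ ∈ pCoreOf 2 K := by
    intro t ht o ho
    apply hDKO
    exact ⟨(Subgroup.mem_normalizer_iff.mp (hTD ht) o).mp (hOD ho),
      (Subgroup.mem_normalizer_iff.mp (hTK ht) o).mp (hOK ho)⟩
  obtain ⟨hex, hsq, h3c⟩ := idx3 K (pCoreOf 2 K) hOK hnO hO3
  have hOM : pCoreOf 2 K ≤ M := (hOD.trans hDT).trans hTM
  have hKMO : ∀ g ∈ K, g ∈ M → g ∈ pCoreOf 2 K := by
    intro g hg hgM
    by_contra hgO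
    apply hKM
    intro h hh
    rcases h3c g hg hgO h hh with h1 | h1 | h1
    · exact hOM h1
    · have e : h = g * (g⁻¹ * h) := by group
      rw [e]; exact M.mul_mem hgM (hOM h1)
    · have e : h = g⁻¹ * (g * h) := by group
      rw [e]; exact M.mul_mem (M.inv_mem hgM) (hOM h1)
  -- `pstruct`
  obtain ⟨Q, hQT, hPQ, hQ2, hQdich⟩ := Cfsg.Agent.H59.PushKill.pstruct K T (pCoreOf 2 K) hT2 hTK
    hOK (hOD.trans hDT) hO3 hgen
  have hQD : Q ≤ pCoreOf 2 (K ⊔ T) :=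
    Cfsg.Agent.H51.le_pCoreOf 2 (hQT.trans le_sup_right) hPQ (hT2.to_le hQT)
  have hDQ : pCoreOf 2 (K ⊔ T) ≤ Q := by
    rcases hQdich (pCoreOf 2 (K ⊔ T)) (Cfsg.Agent.H51.pCoreOf_le 2 (K ⊔ T))
      (fun x hx => Cfsg.Agent.H59.PushKill.cj_eq_of_mem_normalizer (hPD hx)) with h | h
    · exact h
    · exfalso
      obtain ⟨k, hk, hkO⟩ := hex
      exact hkO (hDKO ⟨h hk, hk⟩)
  have hQeq : Q = pCoreOf 2 (K ⊔ T) := le_antisymm hQD hDQ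
  rw [hQeq] at hQ2
  have hD2 : ∀ a ∈ T, ∀ b ∈ T, a ∉ pCoreOf 2 (K ⊔ T) → b ∉ pCoreOf 2 (K ⊔ T) →
      a * b ∈ pCoreOf 2 (K ⊔ T) := by
    intro a ha b hb haD hbD
    have hne1 : (pCoreOf 2 (K ⊔ T)).relIndex T ≠ 1 := by
      intro h
      exact haD (Subgroup.relIndex_eq_one.mp h ha)
    have hne0 : ((pCoreOf 2 (K ⊔ T)).subgroupOf T).index ≠ 0 := Subgroup.index_ne_zero_of_finite
    have hidx : ((pCoreOf 2 (K ⊔ T)).subgroupOf T).index = 2 := by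
      have h1 : ((pCoreOf 2 (K ⊔ T)).subgroupOf T).index ≤ 2 := hQ2
      have h2 : ((pCoreOf 2 (K ⊔ T)).subgroupOf T).index ≠ 1 := hne1
      omega
    have hmem := Subgroup.mul_mem_iff_of_index_two hidx (a := (⟨a, ha⟩ : ↥T)) (b := ⟨b, hb⟩)
    have : (⟨a, ha⟩ : ↥T) * ⟨b, hb⟩ ∈ (pCoreOf 2 (K ⊔ T)).subgroupOf T := by
      rw [hmem]
      constructor
      · intro h; exact absurd (Subgroup.mem_subgroupOf.mp h) haD
      · intro h; exact absurd (Subgroup.mem_subgroupOf.mp h) hbD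
    exact Subgroup.mem_subgroupOf.mp this
  have hinv : ∀ x ∈ T, x ∉ pCoreOf 2 (K ⊔ T) → ∀ g ∈ K, x * g * x⁻¹ * g ∈ pCoreOf 2 K := by
    intro x hx hxD
    have hxK : ∀ g ∈ K, x * g * x⁻¹ ∈ K := fun g hg =>
      (Subgroup.mem_normalizer_iff.mp (hTK hx) g).mp hg
    have hxO' : ∀ o : G, x * o * x⁻¹ ∈ pCoreOf 2 K → o ∈ pCoreOf 2 K := by
      intro o ho
      have := hTO x⁻¹ (T.inv_mem hx) _ ho
      have e : x⁻¹ * (x * o * x⁻¹) * x⁻¹⁻¹ = o := by group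
      rwa [e] at this
    rcases inv_or_cent K (pCoreOf 2 K) hOK hnO hO3 x hxK (hTO x hx) hxO' with hc | hi
    · exfalso
      -- `K` normalizes `T`
      have hgx : ∀ g ∈ K, g * x * g⁻¹ ∈ T := by
        intro g hg
        have e : g * x * g⁻¹ = (x * g * x⁻¹ * g⁻¹)⁻¹ * x := by group
        rw [e]
        exact T.mul_mem (T.inv_mem ((hOD.trans hDT) (hc g hg))) hx
      have hconj : ∀ g ∈ K, ∀ t ∈ T, g * t * g⁻¹ ∈ T := by
        intro g hg t ht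
        by_cases htD : t ∈ pCoreOf 2 (K ⊔ T)
        · exact hDT ((Subgroup.mem_normalizer_iff.mp (hKD hg) t).mp htD)
        · have hd : t * x ∈ pCoreOf 2 (K ⊔ T) := hD2 t ht x hx htD hxD
          have e : g * t * g⁻¹ = (g * (t * x) * g⁻¹) * (g * x * g⁻¹)⁻¹ := by group
          rw [e]
          exact T.mul_mem (hDT ((Subgroup.mem_normalizer_iff.mp (hKD hg) _).mp hd))
            (T.inv_mem (hgx g hg))
      have hKT : K ≤ Subgroup.normalizer (T : Set G) := by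
        intro g hg
        refine Cfsg.Agent.H28.RKill.norm_of_conj T g (hconj g hg) ?_
        intro t ht
        have := hconj g⁻¹ (K.inv_mem hg) t ht
        rwa [inv_inv] at this
      have hTD' : T ≤ pCoreOf 2 (K ⊔ T) :=
        Cfsg.Agent.H51.le_pCoreOf 2 le_sup_right (sup_le hKT Subgroup.le_normalizer) hT2
      exact hxD (hTD' hx)
    · exact hi
  have hU : ∀ U : Subgroup G, U ≠ ⊥ → U ≤ T → K ≤ Subgroup.normalizer (U : Set G) →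
      T ≤ Subgroup.normalizer (U : Set G) →
      Subgroup.normalizer (U : Set G) ≤ L ∧
        ∀ y ∈ (S : Subgroup G), y ∈ Subgroup.normalizer (U : Set G) → y ∈ T := by
    intro U hUne hUT hKU hTU
    have hloc : IsTwoLocal (Subgroup.normalizer (U : Set G)) := ⟨U, hT2.to_le hUT, hUne, rfl⟩
    obtain ⟨Lm, hLm, hle⟩ := Cfsg.Agent.Helper55.Uq.exists_maximalTwoLocal hloc
    have h1 : K ⊔ thompsonSubgroupOf 2 T ≤ Lm :=
      sup_le (hKU.trans hle) (((Cfsg.Agent.Helper55.ThJ.J_le T).trans hTU).trans hle)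
    have hLmL : Lm = L := Cfsg.Agent.H20.Jy.base_unique S M T K L hB0 Lm hLm h1
    have hNL : Subgroup.normalizer (U : Set G) ≤ L := hLmL ▸ hle
    refine ⟨hNL, ?_⟩
    intro y hyS hyN
    exact Cfsg.Agent.H7.JyNotin.mem_of_sylIn hsyl S.isPGroup' hTS hyS (hNL hyN)
  exact ⟨hTS, hSM, hT2, hTL, hKL, hTK, hOK, hOD, hnO, hTO, hsq, hex, h3c, hKMO, hDT, hKD, hTD,
    hinv, hD2, hU⟩

end Main

end Cfsg.Agent.H32.Jy

#print axioms Cfsg.Agent.H32.Jy.pfacts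
#print axioms Cfsg.Agent.H32.Jy.inv_or_cent
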