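import Mathlib
import Cfsg.Agent.H69.ClassSize

/-!
# Landau's theorem (helper32)

The order of a finite group is bounded in terms of its number of conjugacy classes.
-/

set_option autoImplicit false

namespace Cfsg.Agent.H32

universe u v

/-- Egyptian fraction bound: if `k` unit fractions sum to a positive rational `r` with
`r * D ∈ ℤ`, all denominators are bounded in terms of `k` and `D`. -/
theorem unit_fraction_bound (k : ℕ) : ∀ D : ℕ, 0 < D → ∃ L : ℕ, ∀ {ι : Type v} (s : Finset ι)
    (f : ι → ℕ), s.card ≤ k → (∀ i ∈ s, 0 < f i) → ∀ r : ℚ, 0 < r → (∃ m : ℤ, r * D = m) →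
    ∑ i ∈ s, (1 : ℚ) / (f i) = r → ∀ i ∈ s, f i ≤ L := by
  classical
  induction k with
  | zero =>
    intro D _
    refine ⟨0, ?_⟩
    intro ι s f hs _ r _ _ _ i hi
    have : s = ∅ := Finset.card_eq_zero.mp (Nat.le_zero.mp hs)
    rw [this] at hi
    exact absurd hi (Finset.notMem_empty i)
  | succ k ih =>
    intro D hD
    obtain ⟨L1, hL1⟩ : ∃ L1 : ℕ, L1 = (k + 1) * D := ⟨_, rfl⟩
    have hD' : 0 < D * L1.factorial := Nat.mul_pos hD (Nat.factorial_pos _)
    obtain ⟨L2, hL2⟩ := ih (D * L1.factorial) hD'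
    refine ⟨max L1 L2, ?_⟩
    intro ι s f hs hf r hr hrD hsum
    have hDq : (0 : ℚ) < D := by exact_mod_cast hD
    -- r ≥ 1 / D
    have hrge : (1 : ℚ) / D ≤ r := by
      obtain ⟨m, hm⟩ := hrD
      have hmpos : (0 : ℚ) < m := by rw [← hm]; exact mul_pos hr hDq
      have hm1 : (1 : ℤ) ≤ m := by
        have : (0 : ℤ) < m := by exact_mod_cast hmpos
        omega
      have : (1 : ℚ) ≤ r * D := by rw [hm]; exact_mod_cast hm1
      rw [div_le_iff₀ hDq]
      exact this
    by_cases hne : s.Nonempty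
    swap
    · intro i hi
      exact absurd ⟨i, hi⟩ hne
    obtain ⟨i0, hi0, hmin⟩ := Finset.exists_min_image s f hne
    have hf0 : (0 : ℚ) < f i0 := by exact_mod_cast hf i0 hi0
    -- f i0 ≤ L1
    have hle : r ≤ (s.card : ℚ) * (1 / (f i0 : ℚ)) := by
      rw [← hsum, ← nsmul_eq_mul, ← Finset.sum_const]
      refine Finset.sum_le_sum fun i hi => ?_
      have hfi : (0 : ℚ) < f i := by exact_mod_cast hf i hi
      rw [div_le_div_iff₀ hfi hf0, one_mul, one_mul]
      exact_mod_cast hmin i hi
    have hcard : (s.card : ℚ) ≤ (k + 1 : ℕ) := by exact_mod_cast hs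
    have hi0L : f i0 ≤ L1 := by
      have h1 : (1 : ℚ) / D ≤ ((k + 1 : ℕ) : ℚ) * (1 / (f i0 : ℚ)) :=
        le_trans hrge (le_trans hle (mul_le_mul_of_nonneg_right hcard (by positivity)))
      rw [mul_one_div, div_le_div_iff₀ hDq hf0, one_mul] at h1
      have h2 : (f i0 : ℚ) ≤ (((k + 1) * D : ℕ) : ℚ) := by push_cast; push_cast at h1; linarith
      rw [hL1]
      exact_mod_cast h2
    intro i hi
    by_cases hii : i = i0
    · rw [hii]; exact le_trans hi0L (le_max_left _ _)
    · refine le_trans ?_ (le_max_right _ _)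
      have hi' : i ∈ s.erase i0 := Finset.mem_erase.mpr ⟨hii, hi⟩
      have hcard' : (s.erase i0).card ≤ k := by
        rw [Finset.card_erase_of_mem hi0]; omega
      have hsum' : ∑ j ∈ s.erase i0, (1 : ℚ) / (f j) = r - 1 / (f i0) := by
        rw [← hsum, ← Finset.add_sum_erase s _ hi0]; ring
      have hpos' : (0 : ℚ) < r - 1 / (f i0) := by
        rw [← hsum']
        refine Finset.sum_pos (fun j hj => ?_) ⟨i, hi'⟩
        have hfj : (0 : ℚ) < f j := by exact_mod_cast hf j (Finset.mem_of_mem_erase hj)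
        positivity
      have hint : ∃ m : ℤ, (r - 1 / (f i0)) * ((D * L1.factorial : ℕ) : ℚ) = m := by
        obtain ⟨m, hm⟩ := hrD
        obtain ⟨c, hc⟩ : f i0 ∣ L1.factorial := Nat.dvd_factorial (hf i0 hi0) hi0L
        refine ⟨m * L1.factorial - D * c, ?_⟩
        have hcq : (L1.factorial : ℚ) = (f i0 : ℚ) * c := by exact_mod_cast hc
        push_cast
        rw [sub_mul, ← mul_assoc, hm, hcq]
        field_simp
      exact hL2 (s.erase i0) f hcard' (fun j hj => hf j (Finset.mem_of_mem_erase hj)) _ hpos'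
        hint hsum' i hi'

/-- **Landau's theorem.** The order of a finite group is bounded in terms of the number of its
conjugacy classes. -/
theorem landau_bound (k : ℕ) : ∃ N : ℕ, ∀ (G : Type u) [Group G] [Finite G],
    Nat.card (ConjClasses G) ≤ k → Nat.card G ≤ N := by
  classical
  obtain ⟨L, hL⟩ := unit_fraction_bound.{u} k 1 Nat.one_pos
  refine ⟨L, ?_⟩
  intro G _ _ hk
  haveI := Fintype.ofFinite G
  haveI := Fintype.ofFinite (ConjClasses G)
  have hGpos : 0 < Nat.card G := Nat.card_pos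
  have hdvd : ∀ c : ConjClasses G, c.carrier.ncard ∣ Nat.card G ∧ 0 < c.carrier.ncard := by
    intro c
    obtain ⟨x, rfl⟩ := ConjClasses.mk_surjective c
    rw [← Nat.card_coe_set_eq, Cfsg.Agent.H69.card_carrier_eq_index]
    exact ⟨Subgroup.index_dvd_card _, Nat.pos_of_ne_zero Subgroup.index_ne_zero_of_finite⟩
  have hclass := Group.sum_card_conj_classes_eq_card (G := G)
  rw [finsum_eq_sum_of_fintype] at hclass
  have hfpos : ∀ c ∈ (Finset.univ : Finset (ConjClasses G)),
      0 < Nat.card G / c.carrier.ncard := fun c _ =>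
    Nat.div_pos (Nat.le_of_dvd hGpos (hdvd c).1) (hdvd c).2
  have hsum : ∑ c ∈ (Finset.univ : Finset (ConjClasses G)),
      (1 : ℚ) / ((Nat.card G / c.carrier.ncard : ℕ) : ℚ) = 1 := by
    have hGq : (Nat.card G : ℚ) ≠ 0 := by exact_mod_cast hGpos.ne'
    have h1 : ∀ c : ConjClasses G, (1 : ℚ) / ((Nat.card G / c.carrier.ncard : ℕ) : ℚ) =
        (c.carrier.ncard : ℚ) / (Nat.card G : ℚ) := by
      intro c
      have hc0 : (c.carrier.ncard : ℚ) ≠ 0 := by exact_mod_cast (hdvd c).2.ne'
      rw [Nat.cast_div (hdvd c).1 hc0]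
      field_simp
    rw [Finset.sum_congr rfl (fun c _ => h1 c), ← Finset.sum_div]
    have h2 : (∑ c : ConjClasses G, (c.carrier.ncard : ℚ)) = (Nat.card G : ℚ) := by
      exact_mod_cast hclass
    rw [h2, div_self hGq]
  have hcard : (Finset.univ : Finset (ConjClasses G)).card ≤ k := by
    rw [Finset.card_univ, ← Nat.card_eq_fintype_card]; exact hk
  have hbound := hL (Finset.univ : Finset (ConjClasses G))
    (fun c => Nat.card G / c.carrier.ncard) hcard hfpos 1 one_pos ⟨1, by simp⟩ hsum
    (ConjClasses.mk (1 : G)) (Finset.mem_univ _)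
  have hone : (ConjClasses.mk (1 : G)).carrier.ncard = 1 := by
    rw [← Nat.card_coe_set_eq, Cfsg.Agent.H69.card_carrier_eq_index]
    have : Subgroup.centralizer ({1} : Set G) = ⊤ := by
      rw [eq_top_iff]
      intro g _
      rw [Subgroup.mem_centralizer_iff]
      intro h hh
      rw [Set.mem_singleton_iff] at hh
      rw [hh, one_mul, mul_one]
    rw [this, Subgroup.index_top]
  simp only [hone, Nat.div_one] at hbound
  exact hbound

end Cfsg.Agent.H32
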