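import Mathlib
import Cfsg.Agent.H86.NdDefs
import Cfsg.Agent.H91.Ev2UnipBase

/-!
# ND-UNIP4A (helper32, for helper86; S5989 / S5991)

Jordan type `(3, 1, 2^(d-2))`: an invariant nondegenerate subspace `W` of dimension `≡ 1 (mod 4)`
is `⟨v⟩ ⊥ (hyperbolic space with maximal totally isotropic subspace U = (T - 1) W)`, `v` fixed
with `B v v = c² B p₀ p₀`, `dim U` even.  Uses helper91's `Ev2UnipBase`.
-/

set_option autoImplicit false

namespace Cfsg.Agent.H32.Nd

open Cfsg.Agent.H45 Cfsg.Agent.H42.Spd Cfsg.Agent.H42.Ti Cfsg.Agent.H14.Ot Cfsg.Agent.H95.Oh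
  Cfsg.Agent.H86.Ev2 Cfsg.Agent.H86.Nd Cfsg.Agent.H91.Ev2 Module

universe u v

theorem finrank_sup_span_singleton_nd {F : Type*} [Field F] {V : Type*} [AddCommGroup V]
    [Module F V] [FiniteDimensional F V] (K : Submodule F V) (z : V) (hz : z ∉ K) :
    finrank F ↥(K ⊔ Submodule.span F {z}) = finrank F K + 1 := by
  have hz0 : z ≠ 0 := by
    rintro rfl
    exact hz K.zero_mem
  have hdisj : K ⊓ Submodule.span F {z} = ⊥ := by
    rw [eq_bot_iff]
    rintro y ⟨hyK, hyz⟩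
    obtain ⟨c, rfl⟩ := Submodule.mem_span_singleton.1 hyz
    rw [Submodule.mem_bot]
    by_cases hc : c = 0
    · rw [hc, zero_smul]
    · exfalso
      apply hz
      have h := K.smul_mem c⁻¹ hyK
      rwa [smul_smul, inv_mul_cancel₀ hc, one_smul] at h
  have h3 := Submodule.finrank_sup_add_finrank_inf_eq K (Submodule.span F {z})
  rw [hdisj, finrank_bot, finrank_span_singleton hz0] at h3
  omega

theorem unip4A : StUnip4A.{u, v} := by
  intro F _ V _ _ _ B T h2 hsym hnd hiso hT3 hr2 hr1 hn4 p₀ hp₀ hBp₀ W hW hWnd hW4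
  classical
  have hN3 : ∀ z, (T - 1) ((T - 1) ((T - 1) z)) = 0 := by
    intro z
    have h : (T - 1) ^ 3 = (T - 1) * ((T - 1) * (T - 1)) := by rw [pow_succ', pow_two]
    rw [h] at hT3
    have h3 := congrArg (fun f : Module.End F V => f z) hT3
    simpa using h3
  have hWT : ∀ x ∈ W, T x ∈ W := (Module.End.mem_invtSubmodule_iff_forall_mem_of_mem T).mp hW
  have hWN : ∀ x ∈ W, (T - 1) x ∈ W := by
    intro x hx
    have h1 : (T - 1) x = T x - x := by simp
    rw [h1]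
    exact W.sub_mem (hWT x hx) hx
  have hW'N : ∀ y ∈ perp B W, (T - 1) y ∈ perp B W := perp_inv B T hsym hiso hN3 W hWN
  have hc := isCompl_perp' B W hWnd
  have hWNN : ∀ x ∈ W, ((T - 1) * (T - 1)) x ∈ W := fun x hx => hWN _ (hWN x hx)
  have hW'NN : ∀ y ∈ perp B W, ((T - 1) * (T - 1)) y ∈ perp B W :=
    fun y hy => hW'N _ (hW'N y hy)
  have hadd1 := rank_add (T - 1) W _ hc hWN hW'N
  have hadd2 := rank_add ((T - 1) * (T - 1)) W _ hc hWNN hW'NN
  have hb1 := b1_nonneg (T - 1) W hWN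
  have hb1' := b1_nonneg (T - 1) (perp B W) hW'N
  have hev := rank_even B T h2 hsym hiso hN3 W hWN hWnd
  have hdim := Submodule.finrank_add_eq_of_isCompl hc
  have hnum : finrank F (W.map ((T - 1) * (T - 1))) = 0 ∧
      finrank F W = 2 * finrank F (W.map (T - 1)) + 1 := by
    obtain ⟨s, hs⟩ := hev
    omega
  obtain ⟨hr20, hWd⟩ := hnum
  have hNN0 : ∀ x ∈ W, (T - 1) ((T - 1) x) = 0 := by
    intro x hx
    have hbot : W.map ((T - 1) * (T - 1)) = ⊥ := Submodule.finrank_eq_zero.1 hr20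
    have h3 : ((T - 1) * (T - 1)) x ∈ W.map ((T - 1) * (T - 1)) := Submodule.mem_map_of_mem hx
    rw [hbot] at h3
    exact (Submodule.mem_bot F).1 h3
  have hUW : W.map (T - 1) ≤ W := by
    rintro _ ⟨x, hx, rfl⟩
    exact hWN x hx
  have hTI : TI B (W.map (T - 1)) := by
    rintro _ ⟨x, hx, rfl⟩ _ ⟨y, hy, rfl⟩
    rw [adjN B T hiso hN3, hN3, hNN0 y hy]
    simp
  have hUK : W.map (T - 1) ≤ W ⊓ LinearMap.ker (T - 1) := by
    rintro _ ⟨x, hx, rfl⟩
    exact ⟨hWN x hx, LinearMap.mem_ker.2 (hNN0 x hx)⟩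
  have hrn := rn (T - 1) W
  have hlt : W.map (T - 1) < W ⊓ LinearMap.ker (T - 1) :=
    Submodule.lt_of_le_of_finrank_lt_finrank hUK (by omega)
  obtain ⟨v, hvK, hvU⟩ := SetLike.exists_of_lt hlt
  have hrn2 := rn (T - 1) (LinearMap.range (T - 1))
  have hmapr : (LinearMap.range (T - 1)).map (T - 1) = LinearMap.range ((T - 1) * (T - 1)) := by
    rw [Module.End.mul_eq_comp, LinearMap.range_comp]
  rw [hmapr, hr2] at hrn2
  have hrk := LinearMap.finrank_range_add_finrank_ker (T - 1)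
  have hRperp : ∀ u ∈ LinearMap.range (T - 1), ∀ k ∈ LinearMap.ker (T - 1), B u k = 0 := by
    rintro _ ⟨y, rfl⟩ k hk
    have hk0 : (T - 1) k = 0 := LinearMap.mem_ker.1 hk
    rw [adjN B T hiso hN3, hk0, map_zero, map_zero, sub_zero]
  have hp₀K : p₀ ∈ LinearMap.ker (T - 1) := by
    rw [LinearMap.mem_ker, LinearMap.sub_apply, hp₀]
    simp
  have hp₀R : p₀ ∉ LinearMap.range (T - 1) ⊓ LinearMap.ker (T - 1) :=
    fun h => hBp₀ (hRperp p₀ h.1 p₀ hp₀K)
  have hsupeq : (LinearMap.range (T - 1) ⊓ LinearMap.ker (T - 1)) ⊔ Submodule.span F {p₀} =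
      LinearMap.ker (T - 1) := by
    apply Submodule.eq_of_le_of_finrank_le
    · exact sup_le inf_le_right ((Submodule.span_singleton_le_iff_mem _ _).2 hp₀K)
    · rw [finrank_sup_span_singleton_nd _ p₀ hp₀R]
      omega
  have hvker : v ∈ LinearMap.ker (T - 1) := hvK.2
  rw [← hsupeq] at hvker
  obtain ⟨u, hu, w, hw, rfl⟩ := Submodule.mem_sup.1 hvker
  obtain ⟨c, rfl⟩ := Submodule.mem_span_singleton.1 hw
  have hBuu : B u u = 0 := hRperp u hu.1 u hu.2
  have hBup : B u p₀ = 0 := hRperp u hu.1 p₀ hp₀K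
  have hBpu : B p₀ u = 0 := by
    rw [hsym]
    exact hBup
  have hBvv : B (u + c • p₀) (u + c • p₀) = c * c * B p₀ p₀ := by
    simp only [map_add, map_smul, LinearMap.add_apply, LinearMap.smul_apply, smul_eq_mul, hBuu,
      hBup, hBpu]
    ring
  have hc0 : c ≠ 0 := by
    intro hc0
    subst hc0
    apply hvU
    have hvW : u ∈ W := by simpa using hvK.1
    obtain ⟨y, rfl⟩ := hu.1
    have hy : y ∈ W ⊔ perp B W := by
      rw [hc.sup_eq_top]
      trivial
    obtain ⟨y₁, hy₁, y₂, hy₂, rfl⟩ := Submodule.mem_sup.1 hy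
    have h1 : (T - 1) y₂ ∈ W := by
      have e : (T - 1) y₂ = (T - 1) (y₁ + y₂) - (T - 1) y₁ := by
        rw [map_add]
        abel
      rw [e]
      exact W.sub_mem hvW (hWN y₁ hy₁)
    have h2' : (T - 1) y₂ = 0 := by
      have h3 : (T - 1) y₂ ∈ W ⊓ perp B W := ⟨h1, hW'N y₂ hy₂⟩
      rw [hWnd] at h3
      exact (Submodule.mem_bot F).1 h3
    rw [zero_smul, add_zero, map_add, h2', add_zero]
    exact Submodule.mem_map_of_mem hy₁
  have hvN : (T - 1) (u + c • p₀) = 0 := LinearMap.mem_ker.1 hvK.2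
  have hUv : ∀ u' ∈ W.map (T - 1), B u' (u + c • p₀) = 0 := by
    rintro _ ⟨x, hx, rfl⟩
    rw [adjN B T hiso hN3, hvN, map_zero, map_zero, sub_zero]
  exact ⟨u + c • p₀, c, W.map (T - 1), hvK.1, hc0, hBvv, hUW, hTI, hUv, by omega, hev⟩

example : StUnip4A.{u, v} := unip4A

end Cfsg.Agent.H32.Nd
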