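import Mathlib
import Cfsg.Agent.H14.OtDefs
import Cfsg.Agent.H7.OmegaCenter

/-!
# S5972 piece OT-TUPLES (helper32)

The number of linearly independent `m`-tuples of pairwise orthogonal singular vectors of the
standard quadratic space of dimension `2 d + 1` is `∏_{j<m} (q^(2d-j) - q^j)`, given the count of
zeros of a nondegenerate quadratic form in an odd number of variables (`StOZeros`).
-/

set_option autoImplicit false

namespace Cfsg.Agent.H32.Ot

open Cfsg.Agent.H14.Ot Module

universe u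

section

variable {F : Type u} [Field F]

/-- The singular vectors orthogonal to, but not in the span of, an independent totally singular
`m`-tuple. -/
theorem ot_fib_card (hZ : StOZeros.{u, u}) [Fintype F] (h2 : (2 : F) ≠ 0) (d m : ℕ) (hm : m ≤ d)
    (v : Fin m → (Unit ⊕ (Fin d ⊕ Fin d) → F))
    (hLI : LinearIndependent F v) (hsing : ∀ a, Cfsg.quadFormOdd d F (v a) = 0)
    (horth : ∀ a b, QuadraticMap.polar (Cfsg.quadFormOdd d F) (v a) (v b) = 0) :
    Nat.card {w : (Unit ⊕ (Fin d ⊕ Fin d) → F) //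
        w ∉ Submodule.span F (Set.range v) ∧ Cfsg.quadFormOdd d F w = 0 ∧
          ∀ a, QuadraticMap.polar (Cfsg.quadFormOdd d F) (v a) w = 0} =
      Fintype.card F ^ (2 * d - m) - Fintype.card F ^ m := by
  classical
  set Q := Cfsg.Agent.H7.qOdd d F with hQdef
  have hQ : ⇑Q = Cfsg.quadFormOdd d F := Cfsg.Agent.H7.qOdd_coe d
  rw [← hQ] at hsing horth ⊢
  set B := QuadraticMap.polarBilin Q with hB
  have hnd : B.Nondegenerate := Cfsg.Agent.H7.qOdd_nondeg d h2
  have hBa : ∀ x y, B x y = QuadraticMap.polar Q x y :=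
    fun x y => QuadraticMap.polarBilin_apply_apply ..
  have hsymm : ∀ x y, B x y = B y x := fun x y => by rw [hBa, hBa, QuadraticMap.polar_comm]
  have hrefl : B.IsRefl := fun x y h => by rw [hsymm, h]
  set S := Submodule.span F (Set.range v) with hS
  set K := LinearMap.BilinForm.orthogonal B S with hK
  have hmemK : ∀ w, (∀ a, QuadraticMap.polar Q (v a) w = 0) ↔ w ∈ K := by
    intro w
    constructor
    · intro h n hn
      show B n w = 0
      refine Submodule.span_induction ?_ ?_ ?_ ?_ hn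
      · rintro _ ⟨a, rfl⟩
        rw [hBa]
        exact h a
      · simp
      · intro x y _ _ hx hy
        rw [map_add, LinearMap.add_apply, hx, hy, add_zero]
      · intro c x _ hx
        rw [map_smul, LinearMap.smul_apply, hx, smul_zero]
    · intro h a
      rw [← hBa]
      exact h (v a) (Submodule.subset_span ⟨a, rfl⟩)
  have hSK : S ≤ K := by
    intro w hw
    rw [← hmemK]
    intro a
    rw [← hBa]
    refine Submodule.span_induction ?_ ?_ ?_ ?_ hw
    · rintro _ ⟨b, rfl⟩
      rw [hBa]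
      exact horth a b
    · simp
    · intro x y _ _ hx hy
      rw [map_add, hx, hy, add_zero]
    · intro c x _ hx
      rw [map_smul, hx, smul_zero]
  have hKS : ∀ s ∈ S, ∀ k ∈ K, QuadraticMap.polar Q s k = 0 := by
    intro s hs k hk
    rw [← hBa]
    exact hk s hs
  have hSsing : ∀ s ∈ S, Q s = 0 := by
    intro s hs
    refine Submodule.span_induction ?_ ?_ ?_ ?_ hs
    · rintro _ ⟨a, rfl⟩
      exact hsing a
    · exact map_zero Q
    · intro x y hx hy hx0 hy0
      rw [QuadraticMap.map_add Q x y, hx0, hy0, hKS x hx y (hSK hy), add_zero, add_zero]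
    · intro c x _ hx0
      rw [QuadraticMap.map_smul, hx0, smul_zero]
  have hSr : Module.finrank F S = m := by
    rw [hS, finrank_span_eq_card hLI, Fintype.card_fin]
  have hKr : Module.finrank F K = 2 * d + 1 - m := by
    rw [hK, LinearMap.BilinForm.finrank_orthogonal hnd, hSr,
      Module.finrank_fintype_fun_eq_card, Fintype.card_sum, Fintype.card_sum, Fintype.card_fin,
      Fintype.card_unit]
    omega
  -- a complement of `S` in `K`
  set SK : Submodule F ↥K := Submodule.comap K.subtype S with hSKdef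
  obtain ⟨C, hC⟩ := Submodule.exists_isCompl SK
  have hSKr : Module.finrank F SK = m := by
    rw [← hSr]
    exact (Submodule.comapSubtypeEquivOfLe hSK).finrank_eq
  have hCr : Module.finrank F C = 2 * (d - m) + 1 := by
    have := Submodule.finrank_add_eq_of_isCompl hC
    rw [hSKr, hKr] at this
    omega
  set Q' : QuadraticForm F ↥C := Q.comp (K.subtype.comp C.subtype) with hQ'
  have hQ'a : ∀ c : ↥C, Q' c = Q ((c : ↥K) : Unit ⊕ (Fin d ⊕ Fin d) → F) := fun c => rfl
  have hpol : ∀ x y : ↥C, QuadraticMap.polar ⇑Q' x y =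
      QuadraticMap.polar Q ((x : ↥K) : Unit ⊕ (Fin d ⊕ Fin d) → F)
        ((y : ↥K) : Unit ⊕ (Fin d ⊕ Fin d) → F) := by
    intro x y
    simp only [QuadraticMap.polar, hQ'a]
    rfl
  have hQ'nd : ∀ x : ↥C, (∀ y, QuadraticMap.polar ⇑Q' x y = 0) → x = 0 := by
    intro x hx
    have h1 : ((x : ↥K) : Unit ⊕ (Fin d ⊕ Fin d) → F) ∈ LinearMap.BilinForm.orthogonal B K := by
      intro k hk
      show B k _ = 0
      rw [hsymm, hBa]
      have hk' : (⟨k, hk⟩ : ↥K) ∈ SK ⊔ C := by rw [hC.sup_eq_top]; trivial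
      obtain ⟨s, hs, c, hc, hsc⟩ := Submodule.mem_sup.mp hk'
      have hk2 : k = (s : Unit ⊕ (Fin d ⊕ Fin d) → F) + (c : Unit ⊕ (Fin d ⊕ Fin d) → F) := by
        have := congrArg (Subtype.val) hsc
        exact this.symm
      rw [hk2, QuadraticMap.polar_add_right]
      have e1 : QuadraticMap.polar Q ((x : ↥K) : Unit ⊕ (Fin d ⊕ Fin d) → F)
          (s : Unit ⊕ (Fin d ⊕ Fin d) → F) = 0 := by
        rw [QuadraticMap.polar_comm]
        exact hKS _ hs _ (x : ↥K).2
      have e2 := hx ⟨c, hc⟩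
      rw [hpol] at e2
      rw [e1, e2, add_zero]
    have h1' : ((x : ↥K) : Unit ⊕ (Fin d ⊕ Fin d) → F) ∈ S := by
      have h0 := LinearMap.BilinForm.orthogonal_orthogonal hnd hrefl S
      rw [← h0]
      exact h1
    have h2 : (x : ↥K) ∈ SK ⊓ C := ⟨h1', x.2⟩
    rw [hC.inf_eq_bot] at h2
    exact Subtype.ext ((Submodule.mem_bot F).mp h2)
  have hzC : Nat.card {c : ↥C // Q' c = 0} = Fintype.card F ^ (2 * (d - m)) :=
    hZ F ↥C Q' (d - m) h2 hCr hQ'nd
  -- zeros of `Q` in `K`
  let e : (↥SK × ↥C) ≃ ↥K := (Submodule.prodEquivOfIsCompl SK C hC).toEquiv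
  have he : ∀ p : ↥SK × ↥C, Q ((e p : ↥K) : Unit ⊕ (Fin d ⊕ Fin d) → F) = Q' p.2 := by
    intro p
    have h1 : ((e p : ↥K) : Unit ⊕ (Fin d ⊕ Fin d) → F) =
        ((p.1 : ↥K) : Unit ⊕ (Fin d ⊕ Fin d) → F) + ((p.2 : ↥K) : Unit ⊕ (Fin d ⊕ Fin d) → F) :=
      rfl
    have h3 : Q ((p.1 : ↥K) : Unit ⊕ (Fin d ⊕ Fin d) → F) = 0 := hSsing _ p.1.2
    have h4 : QuadraticMap.polar Q ((p.1 : ↥K) : Unit ⊕ (Fin d ⊕ Fin d) → F)
        ((p.2 : ↥K) : Unit ⊕ (Fin d ⊕ Fin d) → F) = 0 := hKS _ p.1.2 _ (p.2 : ↥K).2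
    rw [h1, QuadraticMap.map_add Q, h3, h4, zero_add, add_zero, hQ'a]
  have hzK : Nat.card {k : ↥K // Q (k : Unit ⊕ (Fin d ⊕ Fin d) → F) = 0} =
      Fintype.card F ^ (2 * d - m) := by
    have e1 : {p : ↥SK × ↥C // Q' p.2 = 0} ≃
        {k : ↥K // Q (k : Unit ⊕ (Fin d ⊕ Fin d) → F) = 0} :=
      Equiv.subtypeEquiv e (fun p => by rw [he])
    have e2 : {p : ↥SK × ↥C // Q' p.2 = 0} ≃ ↥SK × {c : ↥C // Q' c = 0} :=
      { toFun := fun p => (p.1.1, ⟨p.1.2, p.2⟩)
        invFun := fun p => ⟨(p.1, p.2.1), p.2.2⟩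
        left_inv := fun p => rfl
        right_inv := fun p => rfl }
    rw [← Nat.card_congr e1, Nat.card_congr e2, Nat.card_prod, hzC,
      Module.natCard_eq_pow_finrank (K := F) (V := ↥SK), hSKr, Nat.card_eq_fintype_card, ← pow_add]
    congr 1
    omega
  have hset : {w : (Unit ⊕ (Fin d ⊕ Fin d) → F) | w ∉ S ∧ Q w = 0 ∧
        ∀ a, QuadraticMap.polar Q (v a) w = 0} =
      {w : (Unit ⊕ (Fin d ⊕ Fin d) → F) | w ∈ K ∧ Q w = 0} \
        (S : Set (Unit ⊕ (Fin d ⊕ Fin d) → F)) := by
    ext w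
    simp only [Set.mem_ofPred_eq, Set.mem_sdiff, SetLike.mem_coe, hmemK]
    tauto
  have hcard : Nat.card {w : (Unit ⊕ (Fin d ⊕ Fin d) → F) // w ∉ S ∧ Q w = 0 ∧
        ∀ a, QuadraticMap.polar Q (v a) w = 0} =
      ({w : (Unit ⊕ (Fin d ⊕ Fin d) → F) | w ∈ K ∧ Q w = 0} \
        (S : Set (Unit ⊕ (Fin d ⊕ Fin d) → F))).ncard := by
    rw [← hset]
    rfl
  have hZc : ({w : (Unit ⊕ (Fin d ⊕ Fin d) → F) | w ∈ K ∧ Q w = 0}).ncard =
      Fintype.card F ^ (2 * d - m) := by
    rw [← hzK, ← Nat.card_coe_set_eq]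
    exact Nat.card_congr (Equiv.subtypeSubtypeEquivSubtypeInter (· ∈ K) (fun w => Q w = 0)).symm
  have hSc : (S : Set (Unit ⊕ (Fin d ⊕ Fin d) → F)).ncard = Fintype.card F ^ m := by
    rw [← Nat.card_coe_set_eq, ← Nat.card_eq_fintype_card]
    conv_rhs => rw [← hSr]
    exact Module.natCard_eq_pow_finrank (K := F) (V := S)
  have hsub : (S : Set (Unit ⊕ (Fin d ⊕ Fin d) → F)) ⊆
      {w : (Unit ⊕ (Fin d ⊕ Fin d) → F) | w ∈ K ∧ Q w = 0} :=
    fun w hw => ⟨hSK hw, hSsing w hw⟩
  rw [hcard, Set.ncard_sdiff hsub (Set.toFinite _), hZc, hSc]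

end

theorem oTuples (hZ : StOZeros.{u, u}) : StOTuples.{u} := by
  classical
  intro F _ _ d m h2
  induction m with
  | zero =>
    intro _
    rw [Finset.prod_range_zero]
    have : Unique {v : Fin 0 → (Unit ⊕ (Fin d ⊕ Fin d) → F) // LinearIndependent F v ∧
        (∀ a, Cfsg.quadFormOdd d F (v a) = 0) ∧
        ∀ a b, QuadraticMap.polar (Cfsg.quadFormOdd d F) (v a) (v b) = 0} :=
      { default := ⟨fun i => i.elim0, linearIndependent_empty_type, fun a => a.elim0,
          fun a => a.elim0⟩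
        uniq := fun x => Subtype.ext (Subsingleton.elim _ _) }
    exact Nat.card_unique
  | succ m ih =>
    intro hm
    have ih' := ih (by omega)
    rw [Finset.prod_range_succ, ← ih']
    let g : {v : Fin (m + 1) → (Unit ⊕ (Fin d ⊕ Fin d) → F) // LinearIndependent F v ∧
        (∀ a, Cfsg.quadFormOdd d F (v a) = 0) ∧
        ∀ a b, QuadraticMap.polar (Cfsg.quadFormOdd d F) (v a) (v b) = 0} →
        {v : Fin m → (Unit ⊕ (Fin d ⊕ Fin d) → F) // LinearIndependent F v ∧
        (∀ a, Cfsg.quadFormOdd d F (v a) = 0) ∧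
        ∀ a b, QuadraticMap.polar (Cfsg.quadFormOdd d F) (v a) (v b) = 0} :=
      fun u => ⟨Fin.init u.1, u.2.1.comp _ (Fin.castSucc_injective m),
        fun a => u.2.2.1 a.castSucc, fun a b => u.2.2.2 a.castSucc b.castSucc⟩
    have hps : ∀ w : Unit ⊕ (Fin d ⊕ Fin d) → F, Cfsg.quadFormOdd d F w = 0 →
        QuadraticMap.polar (Cfsg.quadFormOdd d F) w w = 0 := by
      intro w hw
      rw [← Cfsg.Agent.H7.qOdd_coe d] at hw ⊢
      rw [QuadraticMap.polar_self, hw, smul_zero]
    have hfib : ∀ v : {v : Fin m → (Unit ⊕ (Fin d ⊕ Fin d) → F) // LinearIndependent F v ∧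
        (∀ a, Cfsg.quadFormOdd d F (v a) = 0) ∧
        ∀ a b, QuadraticMap.polar (Cfsg.quadFormOdd d F) (v a) (v b) = 0},
        Nat.card {u // g u = v} = Fintype.card F ^ (2 * d - m) - Fintype.card F ^ m := by
      intro v
      rw [← ot_fib_card hZ h2 d m (by omega) v.1 v.2.1 v.2.2.1 v.2.2.2]
      refine Nat.card_congr ?_
      refine
        { toFun := fun u => ⟨u.1.1 (Fin.last m), ?_, ?_, ?_⟩
          invFun := fun w => ⟨⟨Fin.snoc v.1 w.1, ?_, ?_, ?_⟩, ?_⟩
          left_inv := ?_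
          right_inv := ?_ }
      · have h1 : Fin.init u.1.1 = v.1 := congrArg Subtype.val u.2
        have h2 := u.1.2.1
        rw [← Fin.snoc_init_self u.1.1, linearIndependent_finSnoc, h1] at h2
        exact h2.2
      · exact u.1.2.2.1 (Fin.last m)
      · intro a
        have h1 : Fin.init u.1.1 = v.1 := congrArg Subtype.val u.2
        rw [← h1]
        exact u.1.2.2.2 a.castSucc (Fin.last m)
      · exact linearIndependent_finSnoc.mpr ⟨v.2.1, w.2.1⟩
      · intro a
        induction a using Fin.lastCases with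
        | last =>
          rw [Fin.snoc_last]
          exact w.2.2.1
        | cast a =>
          rw [Fin.snoc_castSucc]
          exact v.2.2.1 a
      · intro a b
        induction a using Fin.lastCases with
        | last =>
          induction b using Fin.lastCases with
          | last =>
            rw [Fin.snoc_last]
            exact hps _ w.2.2.1
          | cast b =>
            rw [Fin.snoc_last, Fin.snoc_castSucc, QuadraticMap.polar_comm]
            exact w.2.2.2 b
        | cast a =>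
          induction b using Fin.lastCases with
          | last =>
            rw [Fin.snoc_last, Fin.snoc_castSucc]
            exact w.2.2.2 a
          | cast b =>
            rw [Fin.snoc_castSucc, Fin.snoc_castSucc]
            exact v.2.2.2 a b
      · refine Subtype.ext ?_
        show Fin.init (Fin.snoc (α := fun _ => (Unit ⊕ (Fin d ⊕ Fin d) → F)) v.1 w.1) = v.1
        exact Fin.init_snoc _ _
      · intro u
        have h1 : Fin.init u.1.1 = v.1 := congrArg Subtype.val u.2
        refine Subtype.ext (Subtype.ext ?_)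
        show Fin.snoc v.1 (u.1.1 (Fin.last m)) = u.1.1
        rw [← h1]
        exact Fin.snoc_init_self _
      · intro w
        refine Subtype.ext ?_
        show Fin.snoc (α := fun _ => (Unit ⊕ (Fin d ⊕ Fin d) → F)) v.1 w.1 (Fin.last m) = w.1
        exact Fin.snoc_last _ _
    have : Fintype {v : Fin m → (Unit ⊕ (Fin d ⊕ Fin d) → F) // LinearIndependent F v ∧
        (∀ a, Cfsg.quadFormOdd d F (v a) = 0) ∧
        ∀ a b, QuadraticMap.polar (Cfsg.quadFormOdd d F) (v a) (v b) = 0} := Fintype.ofFinite _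
    rw [← Nat.card_congr (Equiv.sigmaFiberEquiv g), Nat.card_sigma,
      Finset.sum_congr rfl (fun v _ => hfib v), Finset.sum_const, Finset.card_univ,
      smul_eq_mul, Nat.card_eq_fintype_card]

example (hZ : StOZeros.{u, u}) : StOTuples.{u} := oTuples hZ

end Cfsg.Agent.H32.Ot
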