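import Mathlib
import Cfsg.Agent.H26.P2Defs
import Cfsg.Agent.H4.Chars
import Cfsg.Agent.H4.Irr
import Cfsg.Agent.H28.BrBase
import Cfsg.Agent.H71.RvB
import Cfsg.Agent.H82.Irr

/-!
# helper32: P2-MIX (S4705, for helper26)

A non-central `2`-element commutes with no non-central `p`-regular element of odd order.
-/

set_option autoImplicit false
set_option linter.style.haveILetI false

namespace Cfsg.Agent.H32.P2

open Cfsg Cfsg.Agent.H26.P2
open scoped ComplexConjugate

universe u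

/-- The sign character of the cyclic group generated by an element `t` of even order with
central square. -/
theorem mix_sgn {G : Type u} [Group G] (t : G) (hev : 2 ∣ orderOf t)
    (ht2 : t * t ∈ Subgroup.center G) :
    ∃ sgn : ↥(Subgroup.zpowers t) →* ℂˣ, sgn ≠ 1 ∧ ∀ a : ↥(Subgroup.zpowers t),
      (sgn a = 1 ∧ (a : G) ∈ Subgroup.center G) ∨
      (sgn a = -1 ∧ ∃ z ∈ Subgroup.center G, (a : G) = z * t) := by
  set g0 : ↥(Subgroup.zpowers t) := ⟨t, Subgroup.mem_zpowers t⟩ with hg0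
  have hgen : ∀ x : ↥(Subgroup.zpowers t), x ∈ Subgroup.zpowers g0 := by
    intro x
    obtain ⟨k, hk⟩ := Subgroup.mem_zpowers_iff.mp x.2
    refine Subgroup.mem_zpowers_iff.mpr ⟨k, ?_⟩
    apply Subtype.ext
    rw [Subgroup.coe_zpow]
    exact hk
  have hord : orderOf (-1 : ℂˣ) ∣ orderOf g0 := by
    have h1 : orderOf g0 = orderOf t := Subgroup.orderOf_mk t _
    rw [h1]
    have h2 : orderOf (-1 : ℂˣ) ∣ 2 := orderOf_dvd_of_pow_eq_one (by simp)
    exact h2.trans hev
  refine ⟨monoidHomOfForallMemZpowers hgen hord, ?_, ?_⟩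
  · intro h
    have h3 := monoidHomOfForallMemZpowers_apply_gen hgen hord
    rw [h, MonoidHom.one_apply] at h3
    have h4 : ((1 : ℂˣ) : ℂ) = ((-1 : ℂˣ) : ℂ) := congrArg Units.val h3
    norm_num at h4
  · intro a
    obtain ⟨k, hk⟩ := Subgroup.mem_zpowers_iff.mp (hgen a)
    have hs : monoidHomOfForallMemZpowers hgen hord a = (-1 : ℂˣ) ^ k := by
      rw [← hk, map_zpow, monoidHomOfForallMemZpowers_apply_gen]
    have ha : (a : G) = t ^ k := by
      rw [← hk, Subgroup.coe_zpow]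
    rcases Int.even_or_odd k with he | ho
    · left
      refine ⟨by rw [hs, Even.neg_one_zpow he], ?_⟩
      obtain ⟨j, rfl⟩ := he
      rw [ha, zpow_add, ← (Commute.refl t).mul_zpow]
      exact Subgroup.zpow_mem _ ht2 j
    · right
      refine ⟨by rw [hs, Odd.neg_one_zpow ho], ?_⟩
      obtain ⟨j, rfl⟩ := ho
      refine ⟨(t * t) ^ j, Subgroup.zpow_mem _ ht2 j, ?_⟩
      rw [ha, zpow_add_one, two_mul, zpow_add, ← (Commute.refl t).mul_zpow]

/-- The two inner products `⟨ψ, ψ⟩` and `⟨ψ, ψ ε⟩` on `⟨t⟩ × ⟨w⟩` are natural numbers. -/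
theorem mix_inner {G : Type u} [Group G] [Finite G] (χ : G → ℂ) (hχ : IsCharacter G χ)
    (hcs : ∀ z ∈ Subgroup.center G, ∀ g : G,
      Complex.normSq (χ (z * g)) = Complex.normSq (χ g))
    (t w : G) (htw : t * w = w * t) (hev : 2 ∣ orderOf t) (ht2 : t * t ∈ Subgroup.center G)
    [Fintype ↥(Subgroup.zpowers w)] :
    ∃ n1 n2 : ℕ,
      (∑ b : ↥(Subgroup.zpowers w), Complex.normSq (χ (b : G))) +
        (∑ b : ↥(Subgroup.zpowers w), Complex.normSq (χ (t * (b : G)))) =
        2 * (Fintype.card ↥(Subgroup.zpowers w) : ℝ) * n1 ∧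
      (∑ b : ↥(Subgroup.zpowers w), Complex.normSq (χ (b : G))) -
        (∑ b : ↥(Subgroup.zpowers w), Complex.normSq (χ (t * (b : G)))) =
        2 * (Fintype.card ↥(Subgroup.zpowers w) : ℝ) * n2 := by
  classical
  letI : Fintype ↥(Subgroup.zpowers t) := Fintype.ofFinite _
  obtain ⟨sgn, hsgn1, hsgn⟩ := mix_sgn t hev ht2
  have hcomm : ∀ (a : ↥(Subgroup.zpowers t)) (b : ↥(Subgroup.zpowers w)),
      Commute ((Subgroup.zpowers t).subtype a) ((Subgroup.zpowers w).subtype b) := by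
    intro a b
    obtain ⟨k, hk⟩ := Subgroup.mem_zpowers_iff.mp a.2
    obtain ⟨l, hl⟩ := Subgroup.mem_zpowers_iff.mp b.2
    show Commute (a : G) (b : G)
    rw [← hk, ← hl]
    exact (show Commute t w from htw).zpow_zpow k l
  let φ : ↥(Subgroup.zpowers t) × ↥(Subgroup.zpowers w) →* G :=
    MonoidHom.noncommCoprod (Subgroup.zpowers t).subtype (Subgroup.zpowers w).subtype hcomm
  have hφ : ∀ (a : ↥(Subgroup.zpowers t)) (b : ↥(Subgroup.zpowers w)),
      φ (a, b) = (a : G) * (b : G) := fun a b => rfl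
  set ψ : ↥(Subgroup.zpowers t) × ↥(Subgroup.zpowers w) → ℂ := fun k => χ (φ k) with hψ
  have hψc : IsCharacter (↥(Subgroup.zpowers t) × ↥(Subgroup.zpowers w)) ψ :=
    Cfsg.Agent.H4.isCharacter_comp φ hχ
  let eps : ↥(Subgroup.zpowers t) × ↥(Subgroup.zpowers w) →* ℂˣ :=
    sgn.comp (MonoidHom.fst _ _)
  set ec : ↥(Subgroup.zpowers t) × ↥(Subgroup.zpowers w) → ℂ :=
    fun k => ((eps k : ℂˣ) : ℂ) with hec
  have hecc : IsCharacter (↥(Subgroup.zpowers t) × ↥(Subgroup.zpowers w)) ec :=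
    Cfsg.Agent.H71.Rv.isCharacter_hom eps
  obtain ⟨n1, hn1⟩ := Cfsg.Agent.H4.classInner_isCharacter_nat hψc hψc
  obtain ⟨n2, hn2⟩ := Cfsg.Agent.H4.classInner_isCharacter_nat hψc
    (Cfsg.Agent.H4.isCharacter_mul hψc hecc)
  -- the real sign
  set e : ↥(Subgroup.zpowers t) → ℝ := fun a => if sgn a = 1 then 1 else -1 with he
  have hne : (-1 : ℂˣ) ≠ 1 := by
    intro h
    have h4 : ((-1 : ℂˣ) : ℂ) = ((1 : ℂˣ) : ℂ) := congrArg Units.val h
    norm_num at h4
  have hee : ∀ a, e a * e a = 1 := by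
    intro a
    simp only [he]
    split_ifs <;> norm_num
  have hec' : ∀ a, ((sgn a : ℂˣ) : ℂ) = ((e a : ℝ) : ℂ) := by
    intro a
    rcases hsgn a with ⟨h1, -⟩ | ⟨h1, -⟩
    · simp [he, h1]
    · simp [he, h1, hne]
  have hesum : ∑ a : ↥(Subgroup.zpowers t), e a = 0 := by
    have h0 := sum_hom_units_eq_zero ((Units.coeHom ℂ).comp sgn) (by
      intro h
      apply hsgn1
      ext a
      have := congrArg (fun f => f a) h
      simpa using this)
    have h1 : ∑ a : ↥(Subgroup.zpowers t), ((e a : ℝ) : ℂ) = 0 := by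
      rw [← h0]
      apply Finset.sum_congr rfl
      intro a _
      rw [← hec' a]
      rfl
    exact_mod_cast h1
  -- the pointwise formula
  have hN : ∀ (a : ↥(Subgroup.zpowers t)) (b : ↥(Subgroup.zpowers w)),
      Complex.normSq (χ ((a : G) * (b : G))) =
        (1 + e a) / 2 * Complex.normSq (χ (b : G)) +
          (1 - e a) / 2 * Complex.normSq (χ (t * (b : G))) := by
    intro a b
    rcases hsgn a with ⟨h1, h2⟩ | ⟨h1, z, hz, h2⟩
    · have : e a = 1 := by simp [he, h1]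
      rw [this, hcs _ h2]
      ring
    · have : e a = -1 := by simp [he, h1, hne]
      rw [this, h2, mul_assoc, hcs _ hz]
      ring
  set A0 : ℝ := ∑ b : ↥(Subgroup.zpowers w), Complex.normSq (χ (b : G)) with hA0
  set A1 : ℝ := ∑ b : ↥(Subgroup.zpowers w), Complex.normSq (χ (t * (b : G))) with hA1
  set cT : ℝ := (Fintype.card ↥(Subgroup.zpowers t) : ℝ) with hcT
  set cW : ℝ := (Fintype.card ↥(Subgroup.zpowers w) : ℝ) with hcW
  have hcTpos : 0 < cT := by
    rw [hcT]
    exact_mod_cast Fintype.card_pos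
  have hcard : (Nat.card (↥(Subgroup.zpowers t) × ↥(Subgroup.zpowers w)) : ℂ) =
      ((cT * cW : ℝ) : ℂ) := by
    rw [Nat.card_prod, Nat.card_eq_fintype_card, Nat.card_eq_fintype_card, hcT, hcW]
    push_cast
    ring
  -- first inner product
  have hR1 : ∑ a : ↥(Subgroup.zpowers t), ∑ b : ↥(Subgroup.zpowers w),
      Complex.normSq (χ ((a : G) * (b : G))) = cT / 2 * (A0 + A1) := by
    have : ∀ a : ↥(Subgroup.zpowers t), ∑ b : ↥(Subgroup.zpowers w),
        Complex.normSq (χ ((a : G) * (b : G))) = (1 + e a) / 2 * A0 + (1 - e a) / 2 * A1 := by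
      intro a
      rw [Finset.sum_congr rfl (fun b _ => hN a b), Finset.sum_add_distrib,
        ← Finset.mul_sum, ← Finset.mul_sum]
    rw [Finset.sum_congr rfl (fun a _ => this a)]
    have h2 : ∀ a : ↥(Subgroup.zpowers t), (1 + e a) / 2 * A0 + (1 - e a) / 2 * A1 =
        (A0 + A1) / 2 + e a * ((A0 - A1) / 2) := by
      intro a; ring
    rw [Finset.sum_congr rfl (fun a _ => h2 a), Finset.sum_add_distrib, ← Finset.sum_mul,
      hesum, Finset.sum_const, Finset.card_univ, nsmul_eq_mul]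
    rw [hcT]; ring
  have hR2 : ∑ a : ↥(Subgroup.zpowers t), ∑ b : ↥(Subgroup.zpowers w),
      Complex.normSq (χ ((a : G) * (b : G))) * e a = cT / 2 * (A0 - A1) := by
    have : ∀ a : ↥(Subgroup.zpowers t), ∑ b : ↥(Subgroup.zpowers w),
        Complex.normSq (χ ((a : G) * (b : G))) * e a =
          ((1 + e a) / 2 * A0 + (1 - e a) / 2 * A1) * e a := by
      intro a
      rw [← Finset.sum_mul, Finset.sum_congr rfl (fun b _ => hN a b), Finset.sum_add_distrib,
        ← Finset.mul_sum, ← Finset.mul_sum]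
    rw [Finset.sum_congr rfl (fun a _ => this a)]
    have h2 : ∀ a : ↥(Subgroup.zpowers t), ((1 + e a) / 2 * A0 + (1 - e a) / 2 * A1) * e a =
        (A0 - A1) / 2 + e a * ((A0 + A1) / 2) := by
      intro a
      have := hee a
      linear_combination ((A0 - A1) / 2) * this
    rw [Finset.sum_congr rfl (fun a _ => h2 a), Finset.sum_add_distrib, ← Finset.sum_mul,
      hesum, Finset.sum_const, Finset.card_univ, nsmul_eq_mul]
    rw [hcT]; ring
  have hI1 : classInner ψ ψ = (((cT * cW)⁻¹ * (cT / 2 * (A0 + A1)) : ℝ) : ℂ) := by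
    rw [classInner, hcard, ← hR1, Fintype.sum_prod_type]
    push_cast
    congr 1
    apply Finset.sum_congr rfl
    intro a _
    apply Finset.sum_congr rfl
    intro b _
    rw [hψ]
    simp only [hφ]
    rw [Complex.mul_conj]
  have hI2 : classInner ψ (ψ * ec) = (((cT * cW)⁻¹ * (cT / 2 * (A0 - A1)) : ℝ) : ℂ) := by
    rw [classInner, hcard, ← hR2, Fintype.sum_prod_type]
    push_cast
    congr 1
    apply Finset.sum_congr rfl
    intro a _
    apply Finset.sum_congr rfl
    intro b _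
    rw [hψ, hec]
    simp only [hφ, Pi.mul_apply, map_mul]
    have h3 : ((eps (a, b) : ℂˣ) : ℂ) = ((e a : ℝ) : ℂ) := hec' a
    rw [h3, Complex.conj_ofReal, ← mul_assoc, Complex.mul_conj]
  rw [hI1] at hn1
  rw [hI2] at hn2
  have hn1' : (cT * cW)⁻¹ * (cT / 2 * (A0 + A1)) = (n1 : ℝ) := by exact_mod_cast hn1
  have hn2' : (cT * cW)⁻¹ * (cT / 2 * (A0 - A1)) = (n2 : ℝ) := by exact_mod_cast hn2
  have hcWpos : 0 < cW := by
    rw [hcW]
    exact_mod_cast Fintype.card_pos
  refine ⟨n1, n2, ?_, ?_⟩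
  · rw [← hn1']
    field_simp
  · rw [← hn2']
    field_simp

/-- **P2-MIX**. -/
theorem mix : StMix.{u} := by
  intro G _ _ p _ P χ μ s h hE1 hOdd hTwoA hTwoB t w i ht htZ hwodd hwp htw
  classical
  let χI : IrrCharacter G := ⟨χ, h.irr⟩
  have hχc : IsCharacter G χ := Cfsg.Agent.H4.isCharacter_of_isIrrCharacter h.irr
  have hcs' : ∀ z ∈ Subgroup.center G, ∃ c : ℂ, (∀ g : G, χ (z * g) = c * χ g) ∧
      Complex.normSq c = 1 := by
    intro z hz
    obtain ⟨c, hc1, hc2⟩ := Cfsg.Agent.H28.Br.central_scalar χI z hz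
    refine ⟨c, hc1, ?_⟩
    have h3 := Complex.mul_conj c
    rw [hc2] at h3
    exact_mod_cast h3.symm
  have hcs : ∀ z ∈ Subgroup.center G, ∀ g : G,
      Complex.normSq (χ (z * g)) = Complex.normSq (χ g) := by
    intro z hz g
    obtain ⟨c, hc1, hc2⟩ := hcs' z hz
    rw [hc1 g, Complex.normSq_mul, hc2, one_mul]
  have ht2 : t * t ∈ Subgroup.center G := hTwoB t i ht
  have ht1 : t ≠ 1 := fun h1 => htZ (h1 ▸ Subgroup.one_mem _)
  have hpp : p.Prime := Fact.out
  have hp5 : 5 < p := h.hp5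
  have hp5R : (5 : ℝ) < (p : ℝ) := by exact_mod_cast hp5
  have hordt : ∃ j : ℕ, orderOf t = 2 ^ j := by
    have hdvd : orderOf t ∣ 2 ^ i := orderOf_dvd_of_pow_eq_one ht
    obtain ⟨j, -, hjo⟩ := (Nat.dvd_prime_pow Nat.prime_two).mp hdvd
    exact ⟨j, hjo⟩
  have hev : 2 ∣ orderOf t := by
    obtain ⟨j, hjo⟩ := hordt
    rcases j with _ | j
    · exfalso
      apply ht1
      rw [pow_zero] at hjo
      exact orderOf_eq_one_iff.mp hjo
    · rw [hjo, pow_succ]
      exact dvd_mul_left 2 _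
  have hpt : ¬ p ∣ orderOf t := by
    obtain ⟨j, hjo⟩ := hordt
    rw [hjo]
    intro hd
    have h2 := (Nat.prime_dvd_prime_iff_eq hpp Nat.prime_two).mp (hpp.dvd_of_dvd_pow hd)
    omega
  have hχ1 : χ 1 = (((p : ℝ) - 2 : ℝ) : ℂ) := by
    have h1 : χ 1 = ((charDegree χ : ℕ) : ℂ) := Cfsg.Agent.H82.irr_one_eq_charDegree χI
    have hd := h.deg
    have h2 : (p : ℂ) = (charDegree χ : ℂ) + 2 := by exact_mod_cast hd.symm
    rw [h1]
    push_cast
    rw [h2]
    ring
  have hχt : χ t = -1 := hTwoA t i ht htZ ht2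
  have hp3 : Complex.normSq ((p : ℂ) - 3) = ((p : ℝ) - 3) ^ 2 := by
    have h1 : ((p : ℂ) - 3) = (((p : ℝ) - 3 : ℝ) : ℂ) := by push_cast; ring
    rw [h1, Complex.normSq_ofReal]
    ring
  letI : Fintype ↥(Subgroup.zpowers w) := Fintype.ofFinite _
  obtain ⟨n1, n2, hsum, hdiff⟩ := mix_inner χ hχc hcs t w htw hev ht2
  -- element facts
  have hbodd : ∀ b : ↥(Subgroup.zpowers w), Odd (orderOf (b : G)) ∧ ¬ p ∣ orderOf (b : G) := by
    intro b
    have hd : orderOf (b : G) ∣ orderOf w := orderOf_dvd_of_mem_zpowers b.2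
    exact ⟨hwodd.of_dvd_nat hd, fun hp => hwp (hp.trans hd)⟩
  have hbcomm : ∀ b : ↥(Subgroup.zpowers w), Commute t (b : G) := by
    intro b
    obtain ⟨l, hl⟩ := Subgroup.mem_zpowers_iff.mp b.2
    rw [← hl]
    exact (show Commute t w from htw).zpow_right l
  have hN0 : ∀ b : ↥(Subgroup.zpowers w), Complex.normSq (χ (b : G)) =
      if (b : G) ∈ Subgroup.center G then ((p : ℝ) - 2) ^ 2 else 0 := by
    intro b
    split_ifs with hb
    · have h1 := hcs (b : G) hb 1
      rw [mul_one] at h1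
      rw [h1, hχ1, Complex.normSq_ofReal]
      ring
    · rw [hOdd (b : G) (hbodd b).1 (hbodd b).2 hb]
      simp
  have hN1c : ∀ b : ↥(Subgroup.zpowers w), (b : G) ∈ Subgroup.center G →
      Complex.normSq (χ (t * (b : G))) = 1 := by
    intro b hb
    rw [Subgroup.mem_center_iff.mp hb t, hcs _ hb, hχt]
    simp
  -- squaring
  have hsqZ : ∀ b : ↥(Subgroup.zpowers w), (b : G) ∉ Subgroup.center G →
      ((b * b : ↥(Subgroup.zpowers w)) : G) ∉ Subgroup.center G := by
    intro b hb hbb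
    apply hb
    obtain ⟨k, hk⟩ := (hbodd b).1
    have h1 : (b : G) ^ (2 * k + 1) = 1 := by rw [← hk]; exact pow_orderOf_eq_one _
    have h2 : (b : G) = ((b : G) * (b : G)) ^ (k + 1) := by
      rw [← pow_two, ← pow_mul]
      have : 2 * (k + 1) = (2 * k + 1) + 1 := by ring
      rw [this, pow_succ, h1, one_mul]
    rw [h2]
    exact Subgroup.pow_mem _ (by simpa using hbb) (k + 1)
  have hsq : ∀ b : ↥(Subgroup.zpowers w), (b : G) ∉ Subgroup.center G →
      χ (t * (b : G)) ^ 2 = ((p : ℂ) - 3) * χ (t * ((b * b : ↥(Subgroup.zpowers w)) : G)) := by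
    intro b hb
    have hc := hbcomm b
    have hreg : ¬ p ∣ orderOf (t * (b : G)) := by
      intro hd
      have h1 := hd.trans hc.orderOf_mul_dvd_mul_orderOf
      rcases (Nat.Prime.dvd_mul hpp).mp h1 with h2 | h2
      · exact hpt h2
      · exact (hbodd b).2 h2
    have hE := hE1 (t * (b : G)) hreg
    have hpow : (t * (b : G)) ^ s = t * ((b : G) * (b : G)) := by
      rw [hc.mul_pow, h.sTwo t i ht, h.sOdd (b : G) (hbodd b).1 (hbodd b).2, pow_two]
    have hmul : (t * (b : G)) * (t * (b : G)) = (t * t) * ((b : G) * (b : G)) :=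
      hc.symm.mul_mul_mul_comm t (b : G)
    obtain ⟨c, hc1, -⟩ := hcs' (t * t) ht2
    have hzero : χ ((b : G) * (b : G)) = 0 := by
      have h3 := hbodd (b * b)
      have h4 := hsqZ b hb
      rw [Subgroup.coe_mul] at h3 h4
      exact hOdd _ h3.1 h3.2 h4
    rw [hpow, hmul, hc1, hzero, mul_zero, sub_zero] at hE
    rw [hE, Subgroup.coe_mul]
  -- the central part of `⟨w⟩`
  set B0 : Finset ↥(Subgroup.zpowers w) :=
    Finset.univ.filter (fun b => (b : G) ∈ Subgroup.center G) with hB0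
  have hB0pos : 0 < B0.card := by
    apply Finset.card_pos.mpr
    exact ⟨1, by simp [hB0]⟩
  have hA0 : ∑ b : ↥(Subgroup.zpowers w), Complex.normSq (χ (b : G)) =
      (B0.card : ℝ) * ((p : ℝ) - 2) ^ 2 := by
    rw [Finset.sum_congr rfl (fun b _ => hN0 b), ← Finset.sum_filter, Finset.sum_const,
      nsmul_eq_mul]
  rw [hA0] at hsum hdiff
  set A1 : ℝ := ∑ b : ↥(Subgroup.zpowers w), Complex.normSq (χ (t * (b : G))) with hA1
  have hcWpos : (0 : ℝ) < (Fintype.card ↥(Subgroup.zpowers w) : ℝ) := by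
    exact_mod_cast Fintype.card_pos
  by_cases hS : ∀ b : ↥(Subgroup.zpowers w), (b : G) ∉ Subgroup.center G → χ (t * (b : G)) = 0
  · -- `A1 = n0`
    have hA1' : A1 = (B0.card : ℝ) := by
      have : ∀ b : ↥(Subgroup.zpowers w), Complex.normSq (χ (t * (b : G))) =
          if (b : G) ∈ Subgroup.center G then (1 : ℝ) else 0 := by
        intro b
        split_ifs with hb
        · exact hN1c b hb
        · rw [hS b hb]; simp
      rw [hA1, Finset.sum_congr rfl (fun b _ => this b), ← Finset.sum_filter, Finset.sum_const,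
        nsmul_eq_mul, mul_one]
    rw [hA1'] at hsum hdiff
    have hkey : (B0.card : ℝ) =
        (Fintype.card ↥(Subgroup.zpowers w) : ℝ) * ((n1 : ℝ) - (n2 : ℝ)) := by
      linarith
    have hkeyZ : (B0.card : ℤ) =
        (Fintype.card ↥(Subgroup.zpowers w) : ℤ) * ((n1 : ℤ) - (n2 : ℤ)) := by
      exact_mod_cast hkey
    have hpos : (0 : ℤ) < (n1 : ℤ) - (n2 : ℤ) := by
      by_contra hneg
      push_neg at hneg
      have h1 : (Fintype.card ↥(Subgroup.zpowers w) : ℤ) * ((n1 : ℤ) - (n2 : ℤ)) ≤ 0 :=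
        mul_nonpos_of_nonneg_of_nonpos (by positivity) hneg
      have h2 : (0 : ℤ) < (B0.card : ℤ) := by exact_mod_cast hB0pos
      omega
    have hge : (Fintype.card ↥(Subgroup.zpowers w) : ℤ) ≤ (B0.card : ℤ) := by
      rw [hkeyZ]
      have h1 : (0 : ℤ) ≤ (Fintype.card ↥(Subgroup.zpowers w) : ℤ) := by positivity
      nlinarith
    have hge' : Fintype.card ↥(Subgroup.zpowers w) ≤ B0.card := by exact_mod_cast hge
    have huniv : B0 = Finset.univ := by
      apply (Finset.card_eq_iff_eq_univ B0).mp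
      exact le_antisymm (Finset.card_le_univ B0) hge'
    have hw : (⟨w, Subgroup.mem_zpowers w⟩ : ↥(Subgroup.zpowers w)) ∈ B0 := by
      rw [huniv]; exact Finset.mem_univ _
    exact (Finset.mem_filter.mp hw).2
  · exfalso
    push_neg at hS
    obtain ⟨u, huZ, hu0⟩ := hS
    -- the nonvanishing set
    set C : Finset ↥(Subgroup.zpowers w) :=
      Finset.univ.filter (fun b => (b : G) ∉ Subgroup.center G ∧ χ (t * (b : G)) ≠ 0) with hC
    have hCsq : ∀ b ∈ C, b * b ∈ C := by
      intro b hb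
      obtain ⟨hb1, hb2⟩ := (Finset.mem_filter.mp hb).2
      refine Finset.mem_filter.mpr ⟨Finset.mem_univ _, hsqZ b hb1, ?_⟩
      intro h0
      have h1 := hsq b hb1
      rw [h0, mul_zero] at h1
      exact hb2 (pow_eq_zero_iff (two_ne_zero) |>.mp h1)
    have huC : u ∈ C := Finset.mem_filter.mpr ⟨Finset.mem_univ _, huZ, hu0⟩
    obtain ⟨b0, hb0C, hb0min⟩ := Finset.exists_min_image C
      (fun b => Complex.normSq (χ (t * (b : G)))) ⟨u, huC⟩
    have hlow0 : ((p : ℝ) - 3) ^ 2 ≤ Complex.normSq (χ (t * (b0 : G))) := by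
      obtain ⟨hb1, hb2⟩ := (Finset.mem_filter.mp hb0C).2
      have h1 := hsq b0 hb1
      have h2 : Complex.normSq (χ (t * (b0 : G))) ^ 2 =
          ((p : ℝ) - 3) ^ 2 * Complex.normSq (χ (t * ((b0 * b0 : ↥(Subgroup.zpowers w)) : G))) := by
        rw [← map_pow, h1, Complex.normSq_mul, hp3]
      have h3 := hb0min (b0 * b0) (hCsq b0 hb0C)
      have h4 : 0 < Complex.normSq (χ (t * (b0 : G))) := Complex.normSq_pos.mpr hb2
      have h5 : 0 ≤ ((p : ℝ) - 3) ^ 2 := sq_nonneg _
      by_contra hlt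
      push_neg at hlt
      nlinarith
    have hlow : ∀ b ∈ C, ((p : ℝ) - 3) ^ 2 ≤ Complex.normSq (χ (t * (b : G))) :=
      fun b hb => hlow0.trans (hb0min b hb)
    -- cosets
    have hcoset : ∀ v ∈ C, ∀ z ∈ B0,
        ((p : ℝ) - 3) ^ 2 ≤ Complex.normSq (χ (t * ((v * z : ↥(Subgroup.zpowers w)) : G))) := by
      intro v hv z hz
      have hzc : (z : G) ∈ Subgroup.center G := (Finset.mem_filter.mp hz).2
      have h1 : t * ((v * z : ↥(Subgroup.zpowers w)) : G) = (z : G) * (t * (v : G)) := by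
        rw [Subgroup.coe_mul, ← mul_assoc, Subgroup.mem_center_iff.mp hzc (t * (v : G))]
      rw [h1, hcs _ hzc]
      exact hlow v hv
    set B1 : Finset ↥(Subgroup.zpowers w) := B0.image (fun z => u * z) with hB1
    set B2 : Finset ↥(Subgroup.zpowers w) := B0.image (fun z => (u * u) * z) with hB2
    have hcard1 : B1.card = B0.card :=
      Finset.card_image_of_injective _ (mul_right_injective u)
    have hcard2 : B2.card = B0.card :=
      Finset.card_image_of_injective _ (mul_right_injective (u * u))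
    have huuZ : ((u * u : ↥(Subgroup.zpowers w)) : G) ∉ Subgroup.center G := hsqZ u huZ
    have hd01 : Disjoint B0 B1 := by
      rw [Finset.disjoint_left]
      intro b hb0 hb1
      obtain ⟨z, hz, rfl⟩ := Finset.mem_image.mp hb1
      have hzc : (z : G) ∈ Subgroup.center G := (Finset.mem_filter.mp hz).2
      have hbc : ((u * z : ↥(Subgroup.zpowers w)) : G) ∈ Subgroup.center G :=
        (Finset.mem_filter.mp hb0).2
      apply huZ
      have : (u : G) = ((u * z : ↥(Subgroup.zpowers w)) : G) * (z : G)⁻¹ := by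
        rw [Subgroup.coe_mul]; group
      rw [this]
      exact Subgroup.mul_mem _ hbc (Subgroup.inv_mem _ hzc)
    have hd02 : Disjoint B0 B2 := by
      rw [Finset.disjoint_left]
      intro b hb0 hb2
      obtain ⟨z, hz, rfl⟩ := Finset.mem_image.mp hb2
      have hzc : (z : G) ∈ Subgroup.center G := (Finset.mem_filter.mp hz).2
      have hbc : ((u * u * z : ↥(Subgroup.zpowers w)) : G) ∈ Subgroup.center G :=
        (Finset.mem_filter.mp hb0).2
      apply huuZ
      have : ((u * u : ↥(Subgroup.zpowers w)) : G) =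
          ((u * u * z : ↥(Subgroup.zpowers w)) : G) * (z : G)⁻¹ := by
        simp only [Subgroup.coe_mul]; group
      rw [this]
      exact Subgroup.mul_mem _ hbc (Subgroup.inv_mem _ hzc)
    have hd12 : Disjoint B1 B2 := by
      rw [Finset.disjoint_left]
      intro b hb1 hb2
      obtain ⟨z, hz, rfl⟩ := Finset.mem_image.mp hb1
      obtain ⟨z', hz', hzz⟩ := Finset.mem_image.mp hb2
      have hzc : (z : G) ∈ Subgroup.center G := (Finset.mem_filter.mp hz).2
      have hzc' : (z' : G) ∈ Subgroup.center G := (Finset.mem_filter.mp hz').2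
      apply huZ
      have h1 : u = z * z'⁻¹ := by
        have h2 : u * u * z' = u * z := hzz
        have h3 : u * z' = z := by
          have : u * (u * z') = u * z := by rw [← mul_assoc]; exact h2
          exact mul_left_cancel this
        rw [← h3]; group
      rw [h1, Subgroup.coe_mul, Subgroup.coe_inv]
      exact Subgroup.mul_mem _ hzc (Subgroup.inv_mem _ hzc')
    have hA1low : (B0.card : ℝ) + (B0.card : ℝ) * ((p : ℝ) - 3) ^ 2 +
        (B0.card : ℝ) * ((p : ℝ) - 3) ^ 2 ≤ A1 := by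
      have hsub : (B0 ∪ B1) ∪ B2 ⊆ Finset.univ := Finset.subset_univ _
      have h1 : ∑ b ∈ (B0 ∪ B1) ∪ B2, Complex.normSq (χ (t * (b : G))) ≤ A1 :=
        Finset.sum_le_sum_of_subset_of_nonneg hsub (fun b _ _ => Complex.normSq_nonneg _)
      have hd : Disjoint (B0 ∪ B1) B2 := Finset.disjoint_union_left.mpr ⟨hd02, hd12⟩
      rw [Finset.sum_union hd, Finset.sum_union hd01] at h1
      have h2 : (B0.card : ℝ) ≤ ∑ b ∈ B0, Complex.normSq (χ (t * (b : G))) := by
        have : ∀ b ∈ B0, Complex.normSq (χ (t * (b : G))) = 1 :=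
          fun b hb => hN1c b (Finset.mem_filter.mp hb).2
        rw [Finset.sum_congr rfl this, Finset.sum_const, nsmul_eq_mul, mul_one]
      have h3 : (B0.card : ℝ) * ((p : ℝ) - 3) ^ 2 ≤
          ∑ b ∈ B1, Complex.normSq (χ (t * (b : G))) := by
        rw [← hcard1, ← nsmul_eq_mul]
        apply Finset.card_nsmul_le_sum
        intro b hb
        obtain ⟨z, hz, rfl⟩ := Finset.mem_image.mp hb
        exact hcoset u huC z hz
      have h4 : (B0.card : ℝ) * ((p : ℝ) - 3) ^ 2 ≤
          ∑ b ∈ B2, Complex.normSq (χ (t * (b : G))) := by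
        rw [← hcard2, ← nsmul_eq_mul]
        apply Finset.card_nsmul_le_sum
        intro b hb
        obtain ⟨z, hz, rfl⟩ := Finset.mem_image.mp hb
        exact hcoset (u * u) (hCsq u huC) z hz
      linarith
    have hA1up : A1 ≤ (B0.card : ℝ) * ((p : ℝ) - 2) ^ 2 := by
      have h1 : (0 : ℝ) ≤ 2 * (Fintype.card ↥(Subgroup.zpowers w) : ℝ) * (n2 : ℝ) := by
        positivity
      linarith
    have hB0R : (1 : ℝ) ≤ (B0.card : ℝ) := by exact_mod_cast hB0pos
    have hfin : (B0.card : ℝ) * (1 + 2 * ((p : ℝ) - 3) ^ 2 - ((p : ℝ) - 2) ^ 2) ≤ 0 := by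
      nlinarith
    have hpos : 0 < 1 + 2 * ((p : ℝ) - 3) ^ 2 - ((p : ℝ) - 2) ^ 2 := by nlinarith
    nlinarith

example : StMix.{u} := mix

end Cfsg.Agent.H32.P2
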