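import Mathlib
import Cfsg.Agent.H52.QSDefs

/-!
# helper32: piece QS-REDA of S2787 (helper52's project)

Linearisation of the conjugation action of `H / C_H(V)` on an elementary abelian `V`.
-/

set_option autoImplicit false

namespace Cfsg.Agent.H32.QS

open Cfsg.Agent.H52.QS

universe u

open scoped IsMulCommutative in
/-- The conjugation action of `H / C_H(V)` on `Additive V`, for any `ZMod p`-module structure. -/
theorem redA_aux {G : Type u} [Group G] {p : ℕ} (V H : Subgroup G)
    [IsMulCommutative ↥V] [Module (ZMod p) (Additive ↥V)]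
    (hHN : H ≤ Subgroup.normalizer (V : Set G))
    [((Subgroup.centralizer (V : Set G)).subgroupOf H).Normal] :
    ∃ ρ : (↥H ⧸ (Subgroup.centralizer (V : Set G)).subgroupOf H) →*
        Module.End (ZMod p) (Additive ↥V),
      Function.Injective ρ ∧ ∀ (h : ↥H) (v w : ↥V), (w : G) = (h : G) * (v : G) * (h : G)⁻¹ →
        ρ (QuotientGroup.mk h) (Additive.ofMul v) = Additive.ofMul w := by
  have hconj_mem : ∀ (h : ↥H) (v : ↥V), (h : G) * (v : G) * (h : G)⁻¹ ∈ V := by
    intro h v
    exact (Subgroup.mem_normalizer_iff.mp (hHN h.2) (v : G)).mp v.2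
  let cj : ↥H → ↥V → ↥V := fun h v => ⟨(h : G) * (v : G) * (h : G)⁻¹, hconj_mem h v⟩
  have hcj : ∀ (h : ↥H) (v : ↥V), ((cj h v : ↥V) : G) = (h : G) * (v : G) * (h : G)⁻¹ :=
    fun h v => rfl
  have hcj_mul : ∀ (h : ↥H) (v w : ↥V), cj h (v * w) = cj h v * cj h w := by
    intro h v w
    apply Subtype.ext
    rw [Subgroup.coe_mul, hcj, hcj, hcj, Subgroup.coe_mul]
    group
  have hcj_one : ∀ v : ↥V, cj 1 v = v := by
    intro v
    apply Subtype.ext
    rw [hcj]
    simp
  have hcj_comp : ∀ (a b : ↥H) (v : ↥V), cj (a * b) v = cj a (cj b v) := by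
    intro a b v
    apply Subtype.ext
    rw [hcj, hcj, hcj, Subgroup.coe_mul]
    group
  let lin : ↥H → Module.End (ZMod p) (Additive ↥V) := fun h =>
    AddMonoidHom.toZModLinearMap p
      (AddMonoidHom.mk' (fun m : Additive ↥V => Additive.ofMul (cj h (Additive.toMul m)))
        (fun a b => congrArg Additive.ofMul (hcj_mul h (Additive.toMul a) (Additive.toMul b))))
  have hlin : ∀ (h : ↥H) (m : Additive ↥V),
      lin h m = Additive.ofMul (cj h (Additive.toMul m)) := fun h m => rfl
  let ρ₀ : ↥H →* Module.End (ZMod p) (Additive ↥V) :=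
    { toFun := lin
      map_one' := by
        apply LinearMap.ext
        intro m
        rw [hlin, hcj_one]
        rfl
      map_mul' := by
        intro a b
        apply LinearMap.ext
        intro m
        have h1 : (lin a * lin b) m = lin a (lin b m) := rfl
        rw [h1, hlin, hlin, hlin, hcj_comp]
        rfl }
  have hρ₀ : ∀ (h : ↥H) (v : ↥V), ρ₀ h (Additive.ofMul v) = Additive.ofMul (cj h v) :=
    fun h v => rfl
  have hker : (Subgroup.centralizer (V : Set G)).subgroupOf H ≤ ρ₀.ker := by
    intro h hh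
    rw [Subgroup.mem_subgroupOf, Subgroup.mem_centralizer_iff] at hh
    rw [MonoidHom.mem_ker]
    apply LinearMap.ext
    intro m
    have h0 : ρ₀ h m = Additive.ofMul (cj h (Additive.toMul m)) := rfl
    have h1 : cj h (Additive.toMul m) = Additive.toMul m := by
      apply Subtype.ext
      rw [hcj, ← hh _ (Additive.toMul m).2]
      simp
    rw [h0, h1]
    rfl
  refine ⟨QuotientGroup.lift _ ρ₀ hker, ?_, ?_⟩
  · intro a b hab
    induction a using QuotientGroup.induction_on with
    | H a =>
    induction b using QuotientGroup.induction_on with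
    | H b =>
    rw [QuotientGroup.lift_mk, QuotientGroup.lift_mk] at hab
    rw [QuotientGroup.eq, Subgroup.mem_subgroupOf, Subgroup.mem_centralizer_iff]
    intro v hv
    have h1 := congrArg (fun f : Module.End (ZMod p) (Additive ↥V) =>
      f (Additive.ofMul (⟨v, hv⟩ : ↥V))) hab
    simp only [hρ₀] at h1
    have h2 : cj a ⟨v, hv⟩ = cj b ⟨v, hv⟩ := Additive.ofMul.injective h1
    have h3 : (a : G) * v * (a : G)⁻¹ = (b : G) * v * (b : G)⁻¹ := congrArg Subtype.val h2
    have h4 : v = (a : G)⁻¹ * ((b : G) * v * (b : G)⁻¹) * (a : G) := by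
      rw [← h3]
      group
    show v * ((a⁻¹ * b : ↥H) : G) = ((a⁻¹ * b : ↥H) : G) * v
    rw [Subgroup.coe_mul, Subgroup.coe_inv]
    conv_lhs => rw [h4]
    group
  · intro h v w hw
    rw [QuotientGroup.lift_mk, hρ₀]
    congr 1
    apply Subtype.ext
    rw [hcj, hw]

open scoped IsMulCommutative in
theorem redA : StRedA.{u} := by
  intro G _ _ p _ V H hV hHN hnorm
  have hp : p.Prime := Fact.out
  haveI : NeZero p := ⟨hp.ne_zero⟩
  haveI iC : IsMulCommutative ↥V := hV.1
  have hpow : ∀ x : Additive ↥V, p • x = 0 := by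
    intro x
    have h1 : (Additive.toMul x : ↥V) ^ p = 1 := by
      apply Subtype.ext
      rw [Subgroup.coe_pow]
      exact hV.2 _ (Additive.toMul x).2
    have h2 : p • x = Additive.ofMul ((Additive.toMul x : ↥V) ^ p) := rfl
    rw [h2, h1]
    rfl
  obtain ⟨ρ, h1, h2⟩ := @redA_aux G _ p V H iC (AddCommGroup.zmodModule hpow) hHN hnorm
  exact ⟨Additive ↥V, inferInstance, AddCommGroup.zmodModule hpow, Additive.ofMul, ρ,
    Additive.ofMul.bijective, fun v w => rfl, h1, h2⟩

example : Cfsg.Agent.H52.QS.StRedA.{u} := redA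

end Cfsg.Agent.H32.QS
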