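import Mathlib
import Cfsg.Agent.H52.QSDefs

/-!
# helper32: piece QS-REDB of S2787 (helper52's project)

The reduction of S2787 to a faithful irreducible module with a nontrivial quadratic element,
from the linearisation `StRedA`.
-/

set_option autoImplicit false

namespace Cfsg.Agent.H32.QS

open Cfsg.Agent.H52.QS

universe u

open scoped commutatorElement in
theorem red (hA : StRedA.{u}) : StRed.{u} := by
  intro G _ _ p _ V H hV hHN hirr hnorm A hAH hVAA hVA
  obtain ⟨M, _, _, φ, ρ, hφ, hφmul, hρinj, hρ⟩ := hA V H hV hHN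
  have hφ1 : φ 1 = 0 := by
    have h := hφmul 1 1
    rw [mul_one] at h
    exact add_eq_left.mp h.symm
  have hφinv : ∀ v : ↥V, φ v⁻¹ = -φ v := by
    intro v
    have h := hφmul v v⁻¹
    rw [mul_inv_cancel, hφ1] at h
    exact (neg_eq_of_add_eq_zero_right h.symm).symm
  haveI : Finite M := Finite.of_surjective φ hφ.2
  have hex : ∃ v ∈ V, ∃ a ∈ A, ⁅v, a⁆ ≠ 1 := by
    by_contra hcon
    push Not at hcon
    exact hVA (le_bot_iff.mp (Subgroup.commutator_le.mpr
      (fun v hv a ha => Subgroup.mem_bot.mpr (hcon v hv a ha))))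
  obtain ⟨v₀, hv₀, a, ha, hne⟩ := hex
  have hconj_mem : ∀ w : ↥V, a * (w : G) * a⁻¹ ∈ V := fun w =>
    (Subgroup.mem_normalizer_iff.mp (hHN (hAH ha)) (w : G)).mp w.2
  obtain ⟨aH, haH⟩ : ∃ aH : ↥H, (aH : G) = a := ⟨⟨a, hAH ha⟩, rfl⟩
  have hKey : ∀ w : ↥V, (ρ (QuotientGroup.mk aH) - 1) (φ w) =
      φ (⟨a * (w : G) * a⁻¹, hconj_mem w⟩ * w⁻¹) := by
    intro w
    rw [LinearMap.sub_apply, Module.End.one_apply,
      hρ aH w ⟨a * (w : G) * a⁻¹, hconj_mem w⟩ (by rw [haH]), hφmul, hφinv, sub_eq_add_neg]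
  refine ⟨M, inferInstance, inferInstance, inferInstance, ρ, QuotientGroup.mk aH, hρinj,
    ?_, ?_, ?_⟩
  · intro h1
    rw [QuotientGroup.eq_one_iff, Subgroup.mem_subgroupOf, Subgroup.mem_centralizer_iff, haH] at h1
    apply hne
    have h2 : v₀ * a = a * v₀ := h1 v₀ hv₀
    rw [commutatorElement_def, h2]
    group
  · apply LinearMap.ext
    intro m
    obtain ⟨w, rfl⟩ := hφ.2 m
    rw [Module.End.mul_apply, hKey, hKey, LinearMap.zero_apply]
    have h1 : (⟨a * ((⟨a * (w : G) * a⁻¹, hconj_mem w⟩ * w⁻¹ : ↥V) : G) * a⁻¹, hconj_mem _⟩ : ↥V) *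
        (⟨a * (w : G) * a⁻¹, hconj_mem w⟩ * w⁻¹ : ↥V)⁻¹ = 1 := by
      apply Subtype.ext
      simp only [Subgroup.coe_mul, Subgroup.coe_inv, Subgroup.coe_one]
      have hc : ⁅a, (w : G)⁆ ∈ ⁅V, A⁆ := by
        rw [Subgroup.commutator_comm]
        exact Subgroup.commutator_mem_commutator ha w.2
      have hc2 : ⁅⁅a, (w : G)⁆, a⁆ = 1 := by
        have h3 := Subgroup.commutator_mem_commutator hc ha
        rw [hVAA] at h3
        exact Subgroup.mem_bot.mp h3
      rw [commutatorElement_def, commutatorElement_def] at hc2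
      generalize a * (w : G) * a⁻¹ * (w : G)⁻¹ = c at hc2 ⊢
      have h5 : c * a = a * c := by
        rw [mul_inv_eq_one, mul_inv_eq_iff_eq_mul] at hc2
        exact hc2
      rw [← h5]
      group
    rw [h1, hφ1]
  · intro U' hU'
    let U : Subgroup G :=
      { carrier := {g | ∃ hg : g ∈ V, φ ⟨g, hg⟩ ∈ U'}
        one_mem' := ⟨V.one_mem, by
          have h1 : (⟨1, V.one_mem⟩ : ↥V) = 1 := rfl
          rw [h1, hφ1]
          exact U'.zero_mem⟩
        mul_mem' := by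
          rintro x y ⟨hx, hx'⟩ ⟨hy, hy'⟩
          refine ⟨V.mul_mem hx hy, ?_⟩
          have h1 : (⟨x * y, V.mul_mem hx hy⟩ : ↥V) = ⟨x, hx⟩ * ⟨y, hy⟩ := rfl
          rw [h1, hφmul]
          exact U'.add_mem hx' hy'
        inv_mem' := by
          rintro x ⟨hx, hx'⟩
          refine ⟨V.inv_mem hx, ?_⟩
          have h1 : (⟨x⁻¹, V.inv_mem hx⟩ : ↥V) = (⟨x, hx⟩ : ↥V)⁻¹ := rfl
          rw [h1, hφinv]
          exact U'.neg_mem hx' }
    have hUmem : ∀ g, g ∈ U ↔ ∃ hg : g ∈ V, φ ⟨g, hg⟩ ∈ U' := fun g => Iff.rfl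
    have hUV : U ≤ V := fun g hg => ((hUmem g).mp hg).1
    have hstab : ∀ h ∈ H, ∀ g ∈ U, h * g * h⁻¹ ∈ U := by
      intro h hh g hg
      obtain ⟨hgV, hg'⟩ := (hUmem g).mp hg
      have hmem : h * g * h⁻¹ ∈ V := (Subgroup.mem_normalizer_iff.mp (hHN hh) g).mp hgV
      refine (hUmem _).mpr ⟨hmem, ?_⟩
      have h1 := hρ ⟨h, hh⟩ ⟨g, hgV⟩ ⟨h * g * h⁻¹, hmem⟩ rfl
      rw [← h1]
      exact hU' _ _ hg'
    have hHU : H ≤ Subgroup.normalizer (U : Set G) := by
      intro h hh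
      rw [Subgroup.mem_normalizer_iff]
      intro g
      constructor
      · exact hstab h hh g
      · intro hg
        have h1 := hstab h⁻¹ (H.inv_mem hh) _ hg
        have e : h⁻¹ * (h * g * h⁻¹) * h⁻¹⁻¹ = g := by group
        rw [e] at h1
        exact h1
    rcases hirr U hUV hHU with hU | hU
    · left
      rw [eq_bot_iff]
      intro m hm
      obtain ⟨w, rfl⟩ := hφ.2 m
      have h1 : (w : G) ∈ U := (hUmem _).mpr ⟨w.2, hm⟩
      rw [hU, Subgroup.mem_bot] at h1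
      have hw1 : w = 1 := Subtype.ext h1
      rw [hw1, hφ1]
      exact Submodule.zero_mem _
    · right
      rw [eq_top_iff]
      intro m _
      obtain ⟨w, rfl⟩ := hφ.2 m
      have h1 : (w : G) ∈ U := by
        rw [hU]
        exact w.2
      obtain ⟨_, h2⟩ := (hUmem _).mp h1
      exact h2

example (hA : StRedA.{u}) : Cfsg.Agent.H52.QS.StRed.{u} := red hA

end Cfsg.Agent.H32.QS
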