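import Cfsg.Agent.H22.ReeSimple
import Cfsg.Agent.H7.RCDefs1

set_option autoImplicit false
open Cfsg Cfsg.Lie

namespace Cfsg.Agent.H32.RC

open Cfsg.Agent.H22 Cfsg.Agent.H22.GEx Cfsg.Agent.H22.Ree Cfsg.Agent.H7.RC Matrix

universe u

theorem faith {K : Type u} [Field K] [Fintype K] [CharP K 3] {m : ℕ} (C : Ctx K (3 ^ m))
    (hK : Fintype.card K = 3 ^ (2 * m + 1)) (hm : 1 ≤ m) (hcan : CanonG2 K) (hW : WeylG2 K)
    (htw : StInvTw K (3 ^ m)) (hb : StBlockHom.{0, u}) : StFaith K (3 ^ m) := by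
  obtain ⟨f, hf⟩ := hb chevG2.Idx K bS (twistedG2 K (3 ^ m)) htw 0
  refine ⟨f, ?_⟩
  have hsimple := (C.simple hK hm hcan hW).1
  rw [← MonoidHom.ker_eq_bot_iff]
  rcases hsimple.eq_bot_or_eq_top_of_normal f.ker (MonoidHom.normal_ker f) with h | h
  · exact h
  · exfalso
    let g : ↥(twistedG2 K (3 ^ m)) := ⟨(C.hh (-1) (-1) : GL chevG2.Idx K), C.hh_neg_one_mem⟩
    have hg : f g = 1 := by
      have hmem : g ∈ f.ker := by rw [h]; trivial
      exact hmem
    let i : SIdx := ⟨Sum.inr ⟨7, by decide⟩, by decide⟩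
    have h1 := hf g i i
    rw [hg] at h1
    have h2 : ((g : GL chevG2.Idx K) : Matrix chevG2.Idx chevG2.Idx K) i.1 i.1 = -1 := by
      show ((C.hh (-1) (-1) : GL chevG2.Idx K) : Matrix chevG2.Idx chevG2.Idx K) _ _ = -1
      rw [C.hh_val (-1) (-1) (by simp) (by simp)]
      unfold dg
      rw [Matrix.diagonal_apply_eq, torusDiag_inr]
      have c07 : chevG2.cartan 0 (7 : ℕ) = 2 := by decide
      have c17 : chevG2.cartan 1 (7 : ℕ) = -1 := by decide
      simp only [cc, if_true, one_ne_zero, if_false]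
      rw [c07, c17]
      norm_num
    rw [h2] at h1
    have h3 : (1 : K) = -1 := by
      simpa using h1
    have h4 : ((2 : ℕ) : K) = 0 := by
      push_cast
      linear_combination h3
    have h5 := (CharP.cast_eq_zero_iff K 3 2).mp h4
    omega

end Cfsg.Agent.H32.RC
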