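import Cfsg.Agent.H7.RCDefs

set_option autoImplicit false
open Cfsg Cfsg.Lie

namespace Cfsg.Agent.H32.RC

open Cfsg.Agent.H22 Cfsg.Agent.H22.GEx Cfsg.Agent.H22.Ree Cfsg.Agent.H45.R2 Cfsg.Agent.H7.RC Matrix

theorem psiImg {K : Type*} [Field K] [CharP K 3] {e : ℕ} (C : Ctx K e) (hc : CommStmt (K := K))
    (hmem : MemStmt C) (hk : KerStmt C) : StPsiImg C := by
  intro p hp hp2 P₀ hP₀ hcyc
  let ψ' : SpecialLinearGroup (Fin 2) K →* ↥(twistedG2 K e) :=
    (psiHom hc C.τ).codRestrict (twistedG2 K e) (fun g => hmem g)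
  let f : ↥P₀ →* ↥(twistedG2 K e) := ψ'.comp P₀.subtype
  have hinj : Function.Injective f := by
    rw [injective_iff_map_eq_one]
    intro x hx
    have h1 : psi C.τ (x : SpecialLinearGroup (Fin 2) K) = 1 := by
      have := congrArg Subtype.val hx
      exact this
    rcases hk.1 _ h1 with h | h
    · exact Subtype.ext h
    · -- x = -1 in a p-group with p odd
      obtain ⟨k, hk'⟩ := hP₀ x
      have hx2 : x ^ 2 = 1 := by
        apply Subtype.ext
        show (x : SpecialLinearGroup (Fin 2) K) ^ 2 = 1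
        rw [h]
        simp
      have hodd : Odd (p ^ k) := Odd.pow (hp.odd_of_ne_two hp2)
      obtain ⟨m, hm⟩ := hodd
      have : x = 1 := by
        have h3 : x ^ (p ^ k) = x := by
          rw [hm, pow_succ, pow_mul, hx2, one_pow, one_mul]
        rw [← h3, hk']
      exact this
  refine ⟨f.range, ?_, ?_⟩
  · haveI := hcyc
    exact isCyclic_of_surjective f.rangeRestrict f.rangeRestrict_surjective
  · exact (Nat.card_congr (MonoidHom.ofInjective hinj).toEquiv).symm

end Cfsg.Agent.H32.RC
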