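import Mathlib
import Cfsg.Agent.H96.RoDefs

/-!
# RO-NORMA (helper32 for helper96, S2127): after an inner automorphism, an automorphism
preserves the Sylow 3-subgroup `U`.
-/

set_option autoImplicit false

namespace Cfsg.Agent.H32.Ro

open Cfsg.Agent.H96.Ro
open scoped Pointwise

universe u v

theorem normA : StNormA.{u, v} := by
  intro K _ _ G _ _ n D α
  obtain ⟨P, hP⟩ := D.syl
  obtain ⟨g, hg⟩ := MulAction.exists_smul_eq G ((α : MulAut G) • P) P
  refine ⟨g, fun t u v => ?_⟩
  have h1 : D.R t u v ∈ P := (hP _).2 ⟨t, u, v, rfl⟩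
  have h2 : α (D.R t u v) ∈ ((α : MulAut G) • (P : Subgroup G)) :=
    Subgroup.smul_mem_pointwise_smul (D.R t u v) (α : MulAut G) (P : Subgroup G) h1
  have h3' : g * α (D.R t u v) * g⁻¹ ∈
      (MulAut.conj g • ((α : MulAut G) • (P : Subgroup G))) :=
    Subgroup.smul_mem_pointwise_smul _ (MulAut.conj g) _ h2
  have h3 : g * α (D.R t u v) * g⁻¹ ∈ (g • ((α : MulAut G) • P) : Sylow 3 G) := h3'
  rw [hg] at h3
  exact (hP _).1 h3

example : StNormA.{u, v} := normA

end Cfsg.Agent.H32.Ro
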