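import Mathlib
import Cfsg.Agent.H96.RoDefs

/-!
# RO-NORMB (helper32 for helper96, S2127): an automorphism preserving `U` maps `H` to a
`U`-conjugate of `H`.
-/

set_option autoImplicit false

namespace Cfsg.Agent.H32.Ro

open Cfsg.Agent.H96.Ro

universe u v

theorem normB : StNormB.{u, v} := by
  intro K _ _ G _ n D β hβ
  classical
  obtain ⟨P, hP⟩ := D.syl
  have Rmem : ∀ t u v, D.R t u v ∈ P := fun t u v => (hP _).2 ⟨t, u, v, rfl⟩
  have h1 : D.h 1 = 1 := by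
    have := D.h_mul 1 1
    rw [mul_one] at this
    exact (mul_eq_left.mp this.symm)
  have hinv : ∀ κ : Kˣ, D.h κ⁻¹ = (D.h κ)⁻¹ := by
    intro κ
    apply eq_inv_of_mul_eq_one_left
    rw [← D.h_mul, inv_mul_cancel, h1]
  have hnU : ∀ (κ : Kˣ) (x : G), x ∈ P → D.h κ * x * (D.h κ)⁻¹ ∈ P := by
    intro κ x hx
    obtain ⟨t, u, v, rfl⟩ := (hP x).1 hx
    rw [D.h_conj]; exact Rmem _ _ _
  have hnU' : ∀ (κ : Kˣ) (x : G), x ∈ P → (D.h κ)⁻¹ * x * D.h κ ∈ P := by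
    intro κ x hx
    have := hnU κ⁻¹ x hx
    rwa [hinv, inv_inv] at this
  have hβP : ∀ x, x ∈ P → β x ∈ P := by
    intro x hx
    obtain ⟨t, u, v, rfl⟩ := (hP x).1 hx
    obtain ⟨t', u', v', h⟩ := hβ t u v
    rw [h]; exact Rmem _ _ _
  have hfin : (P : Set G).Finite := by
    have : (P : Set G) ⊆ Set.range (fun a : K × K × K => D.R a.1 a.2.1 a.2.2) := by
      intro x hx
      obtain ⟨t, u, v, rfl⟩ := (hP x).1 hx
      exact ⟨(t, u, v), rfl⟩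
    exact (Set.finite_range _).subset this
  have hβP' : ∀ x, x ∈ P → β.symm x ∈ P := by
    haveI : Finite {x : G // x ∈ P} := hfin.to_subtype
    let φ : {x : G // x ∈ P} → {x : G // x ∈ P} := fun x => ⟨β x.1, hβP x.1 x.2⟩
    have hinj : Function.Injective φ := by
      intro x y hxy
      have := congrArg Subtype.val hxy
      exact Subtype.ext (β.injective this)
    have hsurj := Finite.surjective_of_injective hinj
    intro x hx
    obtain ⟨y, hy⟩ := hsurj ⟨x, hx⟩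
    have : β y.1 = x := congrArg Subtype.val hy
    rw [← this, β.symm_apply_apply]; exact y.2
  let B : Subgroup G :=
    { carrier := {x | ∃ y ∈ P, ∃ κ : Kˣ, x = y * D.h κ}
      mul_mem' := by
        rintro _ _ ⟨y, hy, κ, rfl⟩ ⟨y', hy', κ', rfl⟩
        refine ⟨y * (D.h κ * y' * (D.h κ)⁻¹), mul_mem hy (hnU κ y' hy'), κ * κ', ?_⟩
        rw [D.h_mul]; group
      one_mem' := ⟨1, one_mem P, 1, by rw [h1, mul_one]⟩
      inv_mem' := by
        rintro _ ⟨y, hy, κ, rfl⟩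
        refine ⟨(D.h κ)⁻¹ * y⁻¹ * D.h κ, hnU' κ _ (inv_mem hy), κ⁻¹, ?_⟩
        rw [hinv]; group }
  have hBm : ∀ x, x ∈ B ↔ ∃ y ∈ P, ∃ κ : Kˣ, x = y * D.h κ := fun x => Iff.rfl
  have hw : ¬ ∀ x, x ∈ P → D.w⁻¹ * x * D.w ∈ P := by
    intro hc
    have := hc _ (Rmem 1 0 0)
    obtain ⟨t', u', v', h⟩ := (hP _).1 this
    have h2 := D.BwB 1 0 0 1 t' u' v' 1 (by rw [h1, mul_one, mul_one]; exact h)
    exact one_ne_zero h2.1
  have hN : ∀ x : G, (∀ y, y ∈ P → x⁻¹ * y * x ∈ P) → x ∈ B := by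
    intro x hx
    rcases D.bruhat x with ⟨t, u, v, κ, rfl⟩ | ⟨t, u, v, κ, t', u', v', rfl⟩
    · exact ⟨_, Rmem t u v, κ, rfl⟩
    · exfalso
      apply hw
      intro y hy
      have e1 : D.R t u v * (D.h κ * y * (D.h κ)⁻¹) * (D.R t u v)⁻¹ ∈ P :=
        mul_mem (mul_mem (Rmem _ _ _) (hnU κ y hy)) (inv_mem (Rmem _ _ _))
      have e2 := hx _ e1
      have e3 : D.R t' u' v' * ((D.R t u v * D.h κ * D.w * D.R t' u' v')⁻¹ *
          (D.R t u v * (D.h κ * y * (D.h κ)⁻¹) * (D.R t u v)⁻¹) *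
          (D.R t u v * D.h κ * D.w * D.R t' u' v')) * (D.R t' u' v')⁻¹ ∈ P :=
        mul_mem (mul_mem (Rmem _ _ _) e2) (inv_mem (Rmem _ _ _))
      convert e3 using 1
      group
  have hβh : ∀ κ : Kˣ, β (D.h κ) ∈ B := by
    intro κ
    apply hN
    intro y hy
    have hy' := hβP' y hy
    have := hβP _ (hnU' κ _ hy')
    rw [map_mul, map_mul, map_inv, β.apply_symm_apply] at this
    exact this
  have hβsh : ∀ κ : Kˣ, β.symm (D.h κ) ∈ B := by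
    intro κ
    apply hN
    intro y hy
    have hy' := hβP y hy
    have := hβP' _ (hnU' κ _ hy')
    rw [map_mul, map_mul, map_inv, β.symm_apply_apply] at this
    exact this
  have hPB : ∀ y, y ∈ P → y ∈ B := fun y hy => ⟨y, hy, 1, by rw [h1, mul_one]⟩
  have hβsB : ∀ x, x ∈ B → β.symm x ∈ B := by
    rintro _ ⟨y, hy, κ, rfl⟩
    rw [map_mul]
    exact B.mul_mem (hPB _ (hβP' y hy)) (hβsh κ)
  have hwB : D.w ∉ B := by
    rintro ⟨y, hy, κ, h⟩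
    apply hw
    intro z hz
    rw [h]
    have := hnU' κ _ (mul_mem (mul_mem (inv_mem hy) hz) hy)
    convert this using 1
    group
  have hnn : β D.w ∉ B := by
    intro h
    apply hwB
    have := hβsB _ h
    rwa [β.symm_apply_apply] at this
  rcases D.bruhat (β D.w) with ⟨t, u, v, κ, h⟩ | ⟨a, b, c, κ₀, t', u', v', hnn'⟩
  · exact absurd ⟨_, Rmem t u v, κ, h⟩ hnn
  refine ⟨a, b, c, fun κ => ?_⟩
  obtain ⟨κ', hκ'⟩ := D.wH κ
  have hpB : D.R a b c * D.h κ₀ ∈ B := ⟨_, Rmem a b c, κ₀, rfl⟩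
  have hy' : (D.R a b c * D.h κ₀)⁻¹ * β (D.h κ) * (D.R a b c * D.h κ₀) ∈ B :=
    B.mul_mem (B.mul_mem (B.inv_mem hpB) (hβh κ)) hpB
  obtain ⟨y1, hy1, κ'', hy''⟩ := hy'
  obtain ⟨t1, u1, v1, rfl⟩ := (hP _).1 hy1
  have hin : D.w⁻¹ * (D.R t1 u1 v1 * D.h κ'') * D.w ∈ B := by
    have e1 : (β D.w)⁻¹ * β (D.h κ) * β D.w ∈ B := by
      have : (β D.w)⁻¹ * β (D.h κ) * β D.w = β (D.h κ') := by
        rw [← hκ']; simp [map_mul]
      rw [this]; exact hβh κ'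
    have e2 : D.R t' u' v' * ((β D.w)⁻¹ * β (D.h κ) * β D.w) * (D.R t' u' v')⁻¹ ∈ B :=
      B.mul_mem (B.mul_mem (hPB _ (Rmem _ _ _)) e1) (B.inv_mem (hPB _ (Rmem _ _ _)))
    rw [← hy'']
    rw [hnn'] at e2
    convert e2 using 1
    group
  obtain ⟨y2, hy2, κ2, h2⟩ := hin
  obtain ⟨t2, u2, v2, rfl⟩ := (hP _).1 hy2
  obtain ⟨rfl, rfl, rfl⟩ := D.BwB _ _ _ _ _ _ _ _ h2
  have hR0 : D.R 0 0 0 = 1 := by
    have := D.R_mul 0 0 0 0 0 0
    simp only [add_zero, mul_zero, sub_zero, ne_eq, OfNat.ofNat_ne_zero, not_false_eq_true,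
      zero_pow] at this
    exact (mul_eq_left.mp this)
  rw [hR0, one_mul] at hy''
  refine ⟨κ₀ * κ'' * κ₀⁻¹, ?_⟩
  rw [D.h_mul, D.h_mul, hinv, ← hy'']; group

example : StNormB.{u, v} := normB

end Cfsg.Agent.H32.Ro
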