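import Mathlib
import Cfsg.Prelude.Def_KGroupFacts
import Cfsg.Agent.H56.UnivExt

set_option autoImplicit false

/-!
# Schur multiplier from a universal central extension (S2105-SCHUR, helper32 for helper46)
-/

namespace Cfsg.Agent.H32.SchurCover

open scoped commutatorElement

universe u v

theorem hasSchur_of_cover {G : Type u} [Group G] [Finite G] {Δ : Type u} [Group Δ] (θ₀ : Δ →* G)
    (hs : Function.Surjective θ₀) (hc : θ₀.ker ≤ Subgroup.center Δ) (hperf : commutator Δ = ⊤)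
    (hsplit : ∀ (E : Type u) [Group E] (ψ : E →* Δ), Function.Surjective ψ →
      ψ.ker ≤ Subgroup.center E → ∃ θ : Δ →* E, ψ.comp θ = MonoidHom.id Δ)
    {A : Type v} [CommGroup A] [Finite A] (e : θ₀.ker ≃* A) : Cfsg.HasSchurMultiplier G A := by
  have hfinK : Finite θ₀.ker := Finite.of_equiv A e.symm.toEquiv
  have hfinQ : Finite (Δ ⧸ θ₀.ker) :=
    Finite.of_equiv G (QuotientGroup.quotientKerEquivOfSurjective θ₀ hs).symm.toEquiv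
  have hfinΔ : Finite Δ := by
    apply Nat.finite_of_card_ne_zero
    rw [Subgroup.card_eq_card_quotient_mul_card_subgroup θ₀.ker]
    exact mul_ne_zero Nat.card_pos.ne' Nat.card_pos.ne'
  refine ⟨⟨Δ, inferInstance, hfinΔ, θ₀, ⟨hs, hc, ?_⟩, ⟨e⟩⟩, ?_⟩
  · rw [hperf]; exact le_top
  · intro Γ _ _ σ hσ
    obtain ⟨hσs, hσc, hσk⟩ := hσ
    obtain ⟨τ, hτ⟩ := Cfsg.Agent.H56.Univ.lift_of_split.{u, u, u} hsplit σ hσs hσc θ₀
    have hτ' : ∀ d, σ (τ d) = θ₀ d := fun d => by rw [← hτ]; rfl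
    -- every element is central times an element of the range
    have hdec : ∀ γ : Γ, ∃ k ∈ σ.ker, ∃ d : Δ, γ = k * τ d := by
      intro γ
      obtain ⟨d, hd⟩ := hs (σ γ)
      refine ⟨γ * (τ d)⁻¹, ?_, d, by group⟩
      rw [MonoidHom.mem_ker, map_mul, map_inv, hτ', hd, mul_inv_cancel]
    have hcomm : commutator Γ ≤ τ.range := by
      rw [commutator_def, Subgroup.commutator_le]
      intro g₁ _ g₂ _
      obtain ⟨k₁, hk₁, d₁, rfl⟩ := hdec g₁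
      obtain ⟨k₂, hk₂, d₂, rfl⟩ := hdec g₂
      have hz₁ := Subgroup.mem_center_iff.1 (hσc hk₁)
      have hz₂ := Subgroup.mem_center_iff.1 (hσc hk₂)
      have h1 : ⁅k₁ * τ d₁, k₂ * τ d₂⁆ = τ ⁅d₁, d₂⁆ := by
        rw [commutatorElement_def, commutatorElement_def, map_mul, map_mul, map_mul, map_inv,
          map_inv]
        have e1 : k₁ * τ d₁ * (k₂ * τ d₂) * (k₁ * τ d₁)⁻¹ * (k₂ * τ d₂)⁻¹ =
            k₁ * (τ d₁ * k₂) * τ d₂ * (τ d₁)⁻¹ * k₁⁻¹ * (τ d₂)⁻¹ * k₂⁻¹ := by group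
        rw [e1, hz₂ (τ d₁)]
        have e2 : k₁ * (k₂ * τ d₁) * τ d₂ * (τ d₁)⁻¹ * k₁⁻¹ * (τ d₂)⁻¹ * k₂⁻¹ =
            k₁ * (k₂ * (τ d₁ * τ d₂ * (τ d₁)⁻¹)) * k₁⁻¹ * (τ d₂)⁻¹ * k₂⁻¹ := by group
        rw [e2, ← hz₂ (τ d₁ * τ d₂ * (τ d₁)⁻¹)]
        have e3 : k₁ * (τ d₁ * τ d₂ * (τ d₁)⁻¹ * k₂) * k₁⁻¹ * (τ d₂)⁻¹ * k₂⁻¹ =
            (k₁ * (τ d₁ * τ d₂ * (τ d₁)⁻¹ * k₂)) * k₁⁻¹ * (τ d₂)⁻¹ * k₂⁻¹ := by group
        rw [e3, ← hz₁ (τ d₁ * τ d₂ * (τ d₁)⁻¹ * k₂)]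
        have e4 : τ d₁ * τ d₂ * (τ d₁)⁻¹ * k₂ * k₁ * k₁⁻¹ * (τ d₂)⁻¹ * k₂⁻¹ =
            τ d₁ * τ d₂ * (τ d₁)⁻¹ * (k₂ * (τ d₂)⁻¹) * k₂⁻¹ := by group
        rw [e4, ← hz₂ (τ d₂)⁻¹]
        group
      rw [h1]
      exact ⟨_, rfl⟩
    have hτs : Function.Surjective τ := by
      intro γ
      obtain ⟨k, hk, d, rfl⟩ := hdec γ
      obtain ⟨d', hd'⟩ := hcomm (hσk hk)
      exact ⟨d' * d, by rw [map_mul, hd']⟩
    have hmem : ∀ x : θ₀.ker, (τ.comp θ₀.ker.subtype) x ∈ σ.ker := by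
      intro x
      rw [MonoidHom.mem_ker]
      show σ (τ (x : Δ)) = 1
      rw [hτ']
      exact x.2
    refine ⟨((τ.comp θ₀.ker.subtype).codRestrict σ.ker hmem).comp e.symm.toMonoidHom, ?_⟩
    intro k
    obtain ⟨d, hd⟩ := hτs (k : Γ)
    have hdk : d ∈ θ₀.ker := by
      rw [MonoidHom.mem_ker, ← hτ', hd]
      exact k.2
    refine ⟨e ⟨d, hdk⟩, ?_⟩
    apply Subtype.ext
    show τ ((e.symm (e ⟨d, hdk⟩) : θ₀.ker) : Δ) = (k : Γ)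
    rw [e.symm_apply_apply]
    exact hd

theorem nonempty_mulEquiv_zmod {H : Type*} [Group H] (d : ℕ) (hd : d = 1 ∨ d.Prime)
    (h : Nat.card H = d) : Nonempty (H ≃* Multiplicative (ZMod d)) := by
  subst h
  have hcyc : IsCyclic H := by
    rcases hd with h1 | hp
    · have : Subsingleton H := (Nat.card_eq_one_iff_unique.mp h1).1
      exact isCyclic_of_subsingleton
    · have : Fact (Nat.card H).Prime := ⟨hp⟩
      exact isCyclic_of_prime_card rfl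
  exact ⟨(zmodCyclicMulEquiv hcyc).symm⟩

end Cfsg.Agent.H32.SchurCover
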