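import Mathlib
import Cfsg.Agent.H42.SpnDefs
import Cfsg.Agent.H45.IsoConj
import Cfsg.Agent.H45.IsoSp

/-!
# helper32: piece SPN-ISOMCARD of S5956 (helper42's project)

The isometry group of a nondegenerate subspace of dimension `2 k` of the standard symplectic
space has the order of `Sp_{2k}(F)`: the subspace is isometric to the standard space of
dimension `2 k` (helper45's `isoConj_of_charpoly_eq` with `g = 1`), and the isometries of the
standard space are the symplectic matrices.
-/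

set_option autoImplicit false

namespace Cfsg.Agent.H32.Spn

open Cfsg.Agent.H45 Cfsg.Agent.H42.Spd Cfsg.Agent.H42.Spn Module Matrix

universe u

section

variable {F : Type u} [Field F]

/-- The standard form with the identity. -/
theorem good_std (k : ℕ) :
    Good (RingHom.id F) (-1) (stdB k F) (1 : Module.End F (Fin k ⊕ Fin k → F)) := by
  refine ⟨?_, stdB_nondeg k, fun _ x => stdB_alt k x, fun x y => rfl,
    Module.End.isSemisimple_id⟩
  intro x y
  rw [RingHom.id_apply, stdB_skew]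
  ring

/-- The restriction of the standard form to a nondegenerate subspace, with the identity. -/
theorem good_sub (d : ℕ) (W : Submodule F (Fin d ⊕ Fin d → F))
    (hW : W ⊓ perp (stdB d F) W = ⊥) :
    Good (RingHom.id F) (-1) ((stdB d F).domRestrict₁₂ W W) (1 : Module.End F W) := by
  refine ⟨?_, ?_, ?_, fun x y => rfl, Module.End.isSemisimple_id⟩
  · intro x y
    show stdB d F y x = -1 * stdB d F x y
    rw [stdB_skew]
    ring
  · intro x hx
    have h1 : (x : Fin d ⊕ Fin d → F) ∈ W ⊓ perp (stdB d F) W := by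
      refine ⟨x.2, ?_⟩
      intro w hw
      rw [stdB_skew]
      have h2 : stdB d F (x : Fin d ⊕ Fin d → F) w = 0 := hx ⟨w, hw⟩
      rw [h2, neg_zero]
    rw [hW] at h1
    exact Subtype.ext ((Submodule.mem_bot F).mp h1)
  · intro _ x
    exact stdB_alt d (x : Fin d ⊕ Fin d → F)

/-- The matrix of an isometry of the standard space is symplectic. -/
theorem toMatrix_mem_symp (k : ℕ) (E : (Fin k ⊕ Fin k → F) →ₗ[F] (Fin k ⊕ Fin k → F))
    (hiso : ∀ x y, stdB k F (E x) (E y) = stdB k F x y) :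
    LinearMap.toMatrix' E ∈ Matrix.symplecticGroup (Fin k) F := by
  rw [SymplecticGroup.mem_iff']
  apply (Matrix.toLinearMap₂' F (S₁ := F) (S₂ := F) (N₂ := F) (n := Fin k ⊕ Fin k)
    (m := Fin k ⊕ Fin k)).injective
  apply LinearMap.ext
  intro x
  apply LinearMap.ext
  intro y
  have h1 := hiso x y
  unfold stdB at h1
  rw [Matrix.toLinearMap₂'_apply', Matrix.toLinearMap₂'_apply'] at h1
  have h2 : ∀ z, E z = LinearMap.toMatrix' E *ᵥ z := by
    intro z
    rw [← Matrix.toLin'_apply, Matrix.toLin'_toMatrix']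
  rw [h2, h2] at h1
  rw [Matrix.toLinearMap₂'_apply', Matrix.toLinearMap₂'_apply', ← h1, form_mulVec]

/-- The linear equivalence of a symplectic matrix. -/
noncomputable def sympEquiv (k : ℕ) (g : ↥(Matrix.symplecticGroup (Fin k) F)) :
    (Fin k ⊕ Fin k → F) ≃ₗ[F] (Fin k ⊕ Fin k → F) :=
  LinearEquiv.ofLinear
    (Matrix.toLin' (g : Matrix (Fin k ⊕ Fin k) (Fin k ⊕ Fin k) F))
    (Matrix.toLin' ((g⁻¹ : ↥(Matrix.symplecticGroup (Fin k) F)) :
      Matrix (Fin k ⊕ Fin k) (Fin k ⊕ Fin k) F))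
    (by
      rw [← Matrix.toLin'_mul]
      have h : ((g * g⁻¹ : ↥(Matrix.symplecticGroup (Fin k) F)) :
          Matrix (Fin k ⊕ Fin k) (Fin k ⊕ Fin k) F) = 1 := by
        rw [mul_inv_cancel]
        rfl
      have h' : (g : Matrix (Fin k ⊕ Fin k) (Fin k ⊕ Fin k) F) *
          ((g⁻¹ : ↥(Matrix.symplecticGroup (Fin k) F)) :
            Matrix (Fin k ⊕ Fin k) (Fin k ⊕ Fin k) F) = 1 := h
      rw [h', Matrix.toLin'_one])
    (by
      rw [← Matrix.toLin'_mul]
      have h : ((g⁻¹ * g : ↥(Matrix.symplecticGroup (Fin k) F)) :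
          Matrix (Fin k ⊕ Fin k) (Fin k ⊕ Fin k) F) = 1 := by
        rw [inv_mul_cancel]
        rfl
      have h' : ((g⁻¹ : ↥(Matrix.symplecticGroup (Fin k) F)) :
            Matrix (Fin k ⊕ Fin k) (Fin k ⊕ Fin k) F) *
          (g : Matrix (Fin k ⊕ Fin k) (Fin k ⊕ Fin k) F) = 1 := h
      rw [h', Matrix.toLin'_one])

theorem sympEquiv_apply (k : ℕ) (g : ↥(Matrix.symplecticGroup (Fin k) F))
    (x : Fin k ⊕ Fin k → F) :
    sympEquiv k g x = Matrix.toLin' (g : Matrix (Fin k ⊕ Fin k) (Fin k ⊕ Fin k) F) x := rfl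

/-- The isometries of the standard space are the symplectic matrices. -/
noncomputable def isomEquivSymp (k : ℕ) :
    {e : (Fin k ⊕ Fin k → F) ≃ₗ[F] (Fin k ⊕ Fin k → F) //
      ∀ x y, stdB k F (e x) (e y) = stdB k F x y} ≃ ↥(Matrix.symplecticGroup (Fin k) F) where
  toFun e := ⟨LinearMap.toMatrix' (e.1 : (Fin k ⊕ Fin k → F) →ₗ[F] (Fin k ⊕ Fin k → F)),
    toMatrix_mem_symp k _ (fun x y => e.2 x y)⟩
  invFun g := ⟨sympEquiv k g, fun x y => by
    rw [sympEquiv_apply, sympEquiv_apply]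
    exact stdB_isom k _ g.2 x y⟩
  left_inv e := by
    apply Subtype.ext
    apply LinearEquiv.ext
    intro x
    show Matrix.toLin' (LinearMap.toMatrix'
      (e.1 : (Fin k ⊕ Fin k → F) →ₗ[F] (Fin k ⊕ Fin k → F))) x = e.1 x
    rw [Matrix.toLin'_toMatrix']
    rfl
  right_inv g := by
    apply Subtype.ext
    show LinearMap.toMatrix' (Matrix.toLin' (g : Matrix (Fin k ⊕ Fin k) (Fin k ⊕ Fin k) F)) = _
    rw [LinearMap.toMatrix'_toLin']

end

theorem isomCard : StIsomCard.{u} := by
  intro F _ _ d k W hfr hW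
  classical
  obtain ⟨φ, -, hφ⟩ := isoConj_of_charpoly_eq (RingHom.id F) (fun _ => rfl) (-1) (2 * k)
    ((stdB d F).domRestrict₁₂ W W) (stdB k F) 1 1 hfr (good_sub d W hW) (good_std k) (by
      rw [LinearMap.charpoly_one, LinearMap.charpoly_one, hfr,
        Module.finrank_fintype_fun_eq_card, Fintype.card_sum, Fintype.card_fin, two_mul])
  have hφ' : ∀ x y : ↥W, stdB k F (φ x) (φ y)
      = stdB d F (x : Fin d ⊕ Fin d → F) (y : Fin d ⊕ Fin d → F) := hφ
  have hφs : ∀ x y : Fin k ⊕ Fin k → F,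
      stdB d F (φ.symm x : Fin d ⊕ Fin d → F) (φ.symm y : Fin d ⊕ Fin d → F)
        = stdB k F x y := by
    intro x y
    rw [← hφ', LinearEquiv.apply_symm_apply, LinearEquiv.apply_symm_apply]
  let E1 : {e : ↥W ≃ₗ[F] ↥W // ∀ x y : ↥W, stdB d F (e x) (e y) = stdB d F x y} ≃
      {e : (Fin k ⊕ Fin k → F) ≃ₗ[F] (Fin k ⊕ Fin k → F) //
        ∀ x y, stdB k F (e x) (e y) = stdB k F x y} :=
    { toFun := fun e => ⟨(φ.symm.trans e.1).trans φ, fun x y => by
        show stdB k F (φ (e.1 (φ.symm x))) (φ (e.1 (φ.symm y))) = _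
        rw [hφ', e.2, hφs]⟩
      invFun := fun e => ⟨(φ.trans e.1).trans φ.symm, fun x y => by
        show stdB d F (φ.symm (e.1 (φ x)) : Fin d ⊕ Fin d → F)
          (φ.symm (e.1 (φ y)) : Fin d ⊕ Fin d → F) = _
        rw [hφs, e.2, hφ']⟩
      left_inv := fun e => by
        apply Subtype.ext
        apply LinearEquiv.ext
        intro x
        show φ.symm (φ (e.1 (φ.symm (φ x)))) = e.1 x
        rw [LinearEquiv.symm_apply_apply, LinearEquiv.symm_apply_apply]
      right_inv := fun e => by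
        apply Subtype.ext
        apply LinearEquiv.ext
        intro x
        show φ (φ.symm (e.1 (φ (φ.symm x)))) = e.1 x
        rw [LinearEquiv.apply_symm_apply, LinearEquiv.apply_symm_apply] }
  exact Nat.card_congr (E1.trans (isomEquivSymp k))

example : Cfsg.Agent.H42.Spn.StIsomCard.{u} := isomCard

end Cfsg.Agent.H32.Spn
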