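import Mathlib
import Cfsg.Agent.H42.SpnDefs
import Cfsg.Agent.H50.SpCard
import Cfsg.Agent.H17.Symp
import Cfsg.Agent.H32.SpnIsomCard

/-!
# helper32: piece SPN-CNT of S5956 (helper42's project)

If a prime `r` invertible in `F` divides the number of nondegenerate `2 m'`-spaces of the
standard symplectic space `F^(2d)`, then `cc F r ∣ 2 j` for some `d - m' < j ≤ d`:
the number is `|Sp_2d| / (|Sp_2m'| |Sp_2(d-m')|)` by transitivity (SPN-TRANS), the splitting of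
the stabiliser (SPN-SPLIT) and SPN-ISOMCARD.
-/

set_option autoImplicit false

namespace Cfsg.Agent.H32.Spn

open Cfsg Cfsg.Agent.H45 Cfsg.Agent.H42.Spd Cfsg.Agent.H42.Spn Module Matrix

universe u

section

variable {F : Type u} [Field F]

/-- Symplectic matrices permute the nondegenerate subspaces of a given dimension. -/
theorem nd_map (d m : ℕ) (W : Submodule F (Fin d ⊕ Fin d → F))
    (hW : Module.finrank F ↥W = m ∧
      (∀ u ∈ W, u ≠ 0 → ∃ v ∈ W, Cfsg.sympForm d F u v ≠ 0))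
    (g : ↥(Matrix.symplecticGroup (Fin d) F)) :
    Module.finrank F
        ↥(W.map (Matrix.toLin' (g : Matrix (Fin d ⊕ Fin d) (Fin d ⊕ Fin d) F))) = m ∧
      (∀ u ∈ W.map (Matrix.toLin' (g : Matrix (Fin d ⊕ Fin d) (Fin d ⊕ Fin d) F)), u ≠ 0 →
        ∃ v ∈ W.map (Matrix.toLin' (g : Matrix (Fin d ⊕ Fin d) (Fin d ⊕ Fin d) F)),
          Cfsg.sympForm d F u v ≠ 0) := by
  have hform := (Cfsg.Agent.H17.mem_symplecticGroup_iff_form d
    (g : Matrix (Fin d ⊕ Fin d) (Fin d ⊕ Fin d) F)).mp g.2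
  constructor
  · have hmap : W.map (Matrix.toLin' (g : Matrix (Fin d ⊕ Fin d) (Fin d ⊕ Fin d) F)) =
        W.map ((sympEquiv d g : (Fin d ⊕ Fin d → F) ≃ₗ[F] (Fin d ⊕ Fin d → F)) :
          (Fin d ⊕ Fin d → F) →ₗ[F] (Fin d ⊕ Fin d → F)) := rfl
    rw [hmap, LinearEquiv.finrank_map_eq]
    exact hW.1
  · intro u hu hu0
    obtain ⟨u₀, hu₀, rfl⟩ := Submodule.mem_map.mp hu
    have hu₀0 : u₀ ≠ 0 := by
      rintro rfl
      exact hu0 (map_zero _)
    obtain ⟨v, hv, hne⟩ := hW.2 u₀ hu₀ hu₀0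
    refine ⟨Matrix.toLin' (g : Matrix (Fin d ⊕ Fin d) (Fin d ⊕ Fin d) F) v,
      Submodule.mem_map_of_mem hv, ?_⟩
    rw [Matrix.toLin'_apply, Matrix.toLin'_apply, hform]
    exact hne

/-- The orthogonal of a nondegenerate subspace is nondegenerate. -/
theorem perp_nd [Finite F] (d : ℕ) (W : Submodule F (Fin d ⊕ Fin d → F))
    (hW : W ⊓ perp (stdB d F) W = ⊥) :
    perp (stdB d F) W ⊓ perp (stdB d F) (perp (stdB d F) W) = ⊥ := by
  have hc := isCompl_perp (stdB d F) W hW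
  rw [eq_bot_iff]
  rintro x ⟨hx1, hx2⟩
  rw [Submodule.mem_bot]
  apply stdB_nondeg d
  intro y
  have hy : y ∈ W ⊔ perp (stdB d F) W := by
    rw [hc.sup_eq_top]
    exact Submodule.mem_top
  obtain ⟨a, ha, b, hb, rfl⟩ := Submodule.mem_sup.mp hy
  have h1 : stdB d F a x = 0 := hx1 a ha
  have h2 : stdB d F b x = 0 := hx2 b hb
  rw [map_add, stdB_skew d a x, stdB_skew d b x, h1, h2, neg_zero, add_zero]

/-- The dimension of the orthogonal of a nondegenerate subspace. -/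
theorem finrank_perp [Finite F] (d m' : ℕ) (W : Submodule F (Fin d ⊕ Fin d → F))
    (hW : W ⊓ perp (stdB d F) W = ⊥) (hfr : Module.finrank F ↥W = 2 * m') :
    Module.finrank F ↥(perp (stdB d F) W) = 2 * (d - m') := by
  have hc := isCompl_perp (stdB d F) W hW
  have h1 := Submodule.finrank_add_eq_of_isCompl hc
  rw [Module.finrank_fintype_fun_eq_card, Fintype.card_sum, Fintype.card_fin, hfr] at h1
  omega

/-- The number of nondegenerate `2 m'`-spaces times `|Sp_2m'| |Sp_2(d-m')|` is `|Sp_2d|`. -/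
theorem card_sp_eq (hT : StNdTrans.{u}) (hS : StStabSplit.{u}) (hI : StIsomCard.{u})
    [Fintype F] (d m' : ℕ)
    (W₀ : Submodule F (Fin d ⊕ Fin d → F))
    (hW₀ : Module.finrank F ↥W₀ = 2 * m' ∧
      (∀ u ∈ W₀, u ≠ 0 → ∃ v ∈ W₀, Cfsg.sympForm d F u v ≠ 0)) :
    Nat.card ↥(Matrix.symplecticGroup (Fin d) F) =
      Nat.card {W : Submodule F (Fin d ⊕ Fin d → F) // Module.finrank F ↥W = 2 * m' ∧
        (∀ u ∈ W, u ≠ 0 → ∃ v ∈ W, Cfsg.sympForm d F u v ≠ 0)} *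
      (Nat.card ↥(Matrix.symplecticGroup (Fin m') F) *
        Nat.card ↥(Matrix.symplecticGroup (Fin (d - m')) F)) := by
  have h := Cfsg.Agent.H50.SpCard.card_eq_card_mul_stab
    (G := ↥(Matrix.symplecticGroup (Fin d) F))
    (X := {W : Submodule F (Fin d ⊕ Fin d → F) // Module.finrank F ↥W = 2 * m' ∧
        (∀ u ∈ W, u ≠ 0 → ∃ v ∈ W, Cfsg.sympForm d F u v ≠ 0)})
    (fun g W => ⟨W.1.map (Matrix.toLin' (g : Matrix (Fin d ⊕ Fin d) (Fin d ⊕ Fin d) F)),
      nd_map d (2 * m') W.1 W.2 g⟩)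
    (by
      intro W
      apply Subtype.ext
      show W.1.map (Matrix.toLin' (1 : Matrix (Fin d ⊕ Fin d) (Fin d ⊕ Fin d) F)) = W.1
      rw [Matrix.toLin'_one]
      exact Submodule.map_id _)
    (by
      intro g h W
      apply Subtype.ext
      show W.1.map (Matrix.toLin' ((g : Matrix (Fin d ⊕ Fin d) (Fin d ⊕ Fin d) F) *
        (h : Matrix (Fin d ⊕ Fin d) (Fin d ⊕ Fin d) F))) =
        (W.1.map (Matrix.toLin' (h : Matrix (Fin d ⊕ Fin d) (Fin d ⊕ Fin d) F))).map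
          (Matrix.toLin' (g : Matrix (Fin d ⊕ Fin d) (Fin d ⊕ Fin d) F))
      rw [Matrix.toLin'_mul]
      exact Submodule.map_comp _ _ _)
    ⟨W₀, hW₀⟩
    (by
      intro W
      obtain ⟨g, hg⟩ := hT F d W₀ W.1 (hW₀.1.trans W.2.1.symm) hW₀.2 W.2.2
      exact ⟨g, Subtype.ext hg⟩)
  rw [h]
  congr 1
  have hnd : W₀ ⊓ perp (stdB d F) W₀ = ⊥ := (nd_iff d W₀).mpr hW₀.2
  refine (Nat.card_congr (Equiv.subtypeEquivRight (fun g => Subtype.ext_iff))).trans ?_
  show Nat.card {g : ↥(Matrix.symplecticGroup (Fin d) F) //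
      W₀.map (Matrix.toLin' (g : Matrix (Fin d ⊕ Fin d) (Fin d ⊕ Fin d) F)) = W₀} = _
  rw [hS F d W₀ hnd, hI F d m' W₀ hW₀.1 hnd,
    hI F d (d - m') (perp (stdB d F) W₀) (finrank_perp d m' W₀ hnd hW₀.1) (perp_nd d W₀ hnd)]

theorem cancel_aux (a Q P N A b : ℕ) (hP : 0 < P) (h : a * (P * Q) = N * (A * (b * P))) :
    a * Q = N * (A * b) := by
  apply Nat.eq_of_mul_eq_mul_right hP
  calc a * Q * P = a * (P * Q) := by ring
    _ = N * (A * (b * P)) := h
    _ = N * (A * b) * P := by ring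

end

theorem ndCnt (hT : StNdTrans.{u}) (hS : StStabSplit.{u}) (hI : StIsomCard.{u}) :
    StNdCnt.{u} := by
  intro F _ _ d m m' r hr hrF hm hm'd hex hdiv
  subst hm
  obtain ⟨W₀, hW₀⟩ := hex
  have hcard := card_sp_eq hT hS hI d m' W₀ hW₀
  rw [Cfsg.Agent.H50.SpCard.card_sp (F := F) (q := Fintype.card F) rfl d,
    Cfsg.Agent.H50.SpCard.card_sp (F := F) (q := Fintype.card F) rfl m',
    Cfsg.Agent.H50.SpCard.card_sp (F := F) (q := Fintype.card F) rfl (d - m')] at hcard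
  have hq1 : 1 < Fintype.card F := Fintype.one_lt_card
  -- r does not divide q
  have hq : ¬ r ∣ Fintype.card F := by
    intro hdvd
    obtain ⟨p, hpchar⟩ := CharP.exists F
    have := hpchar
    obtain ⟨k, hp, hk⟩ := FiniteField.card F p
    rw [hk] at hdvd
    have hrp : r = p := (Nat.prime_dvd_prime_iff_eq hr hp).mp (hr.dvd_of_dvd_pow hdvd)
    apply hrF
    rw [hrp]
    exact CharP.cast_eq_zero F p
  have hsplit := Finset.prod_range_mul_prod_Ico
    (fun i => Fintype.card F ^ (2 * (i + 1)) - 1) (Nat.sub_le d m')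
  have hPpos : 0 < ∏ i ∈ Finset.range (d - m'), (Fintype.card F ^ (2 * (i + 1)) - 1) := by
    apply Finset.prod_pos
    intro i _
    have : 1 < Fintype.card F ^ (2 * (i + 1)) := Nat.one_lt_pow (by omega) hq1
    omega
  rw [← hsplit] at hcard
  have hcard2 : Fintype.card F ^ (d ^ 2) *
        ∏ i ∈ Finset.Ico (d - m') d, (Fintype.card F ^ (2 * (i + 1)) - 1) =
      Nat.card {W : Submodule F (Fin d ⊕ Fin d → F) // Module.finrank F ↥W = 2 * m' ∧
        (∀ u ∈ W, u ≠ 0 → ∃ v ∈ W, Cfsg.sympForm d F u v ≠ 0)} *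
      ((Fintype.card F ^ (m' ^ 2) *
        ∏ i ∈ Finset.range m', (Fintype.card F ^ (2 * (i + 1)) - 1)) *
        Fintype.card F ^ ((d - m') ^ 2)) := by
    exact cancel_aux _ _ _ _ _ _ hPpos hcard
  have h2 : r ∣ Fintype.card F ^ (d ^ 2) *
        ∏ i ∈ Finset.Ico (d - m') d, (Fintype.card F ^ (2 * (i + 1)) - 1) := by
    rw [hcard2]
    exact Dvd.dvd.mul_right hdiv _
  have h3 : r ∣ ∏ i ∈ Finset.Ico (d - m') d, (Fintype.card F ^ (2 * (i + 1)) - 1) := by
    rcases (Nat.Prime.dvd_mul hr).mp h2 with h | h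
    · exact absurd (hr.dvd_of_dvd_pow h) hq
    · exact h
  obtain ⟨i, hi, hdvd⟩ := (Nat.Prime.prime hr).exists_mem_finset_dvd h3
  rw [Finset.mem_Ico] at hi
  have hpow : ((Fintype.card F : ℕ) : ZMod r) ^ (2 * (i + 1)) = 1 := by
    have h4 : ((Fintype.card F ^ (2 * (i + 1)) - 1 : ℕ) : ZMod r) = 0 :=
      (ZMod.natCast_eq_zero_iff _ _).mpr hdvd
    have hle : 1 ≤ Fintype.card F ^ (2 * (i + 1)) := Nat.one_le_pow _ _ Fintype.card_pos
    rw [Nat.cast_sub hle, sub_eq_zero] at h4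
    push_cast at h4
    exact h4
  have hord := orderOf_dvd_of_pow_eq_one hpow
  refine ⟨i + 1, by omega, by omega, ?_⟩
  unfold cc
  split_ifs with hev
  · exact hord
  · have hodd : Odd (orderOf ((Fintype.card F : ℕ) : ZMod r)) := Nat.not_even_iff_odd.mp hev
    have hcop : Nat.Coprime (orderOf ((Fintype.card F : ℕ) : ZMod r)) 2 :=
      Nat.Coprime.symm (Nat.coprime_two_left.mpr hodd)
    have h5 : orderOf ((Fintype.card F : ℕ) : ZMod r) ∣ i + 1 := hcop.dvd_of_dvd_mul_left hord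
    exact Nat.mul_dvd_mul_left 2 h5

example : Cfsg.Agent.H42.Spn.StNdTrans.{u} → Cfsg.Agent.H42.Spn.StStabSplit.{u} →
    Cfsg.Agent.H42.Spn.StIsomCard.{u} → Cfsg.Agent.H42.Spn.StNdCnt.{u} := ndCnt

end Cfsg.Agent.H32.Spn
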