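import Mathlib
import Cfsg.Agent.H97.SuLDefs

/-!
# helper32: piece SuL-HEIS of S2334/S2335 (helper97's project)

An occurring nontrivial character of the root group of `e` has an eigenspace of dimension at
least `q ^ m` (Heisenberg orbit of a character of the maximal abelian subgroup `A`).
-/

set_option autoImplicit false

namespace Cfsg.Agent.H32.SuL

open Module Cfsg.Agent.H17 Cfsg.Agent.H97.SuL

universe u

theorem heis (hASub : StASub.{u}) (hAMove : StAMove.{u}) (hFSep : StFSep.{u})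
    (hFormEmb : StFormEmb.{u}) (hRInd : StRInd.{u}) (hREig : StREig.{u}) (hZMult : StZMult.{u})
    (hEnumM : StEnumM.{u}) : StHeis.{u} := by
  intro F _ _ q hF m e hPl hee V _ _ _ ρ lam v hv hvU hlam
  classical
  obtain ⟨w, hew⟩ := hPl
  have hembe : ∀ x : Fin m → F, Cfsg.hermForm (m + 2) F q (emb m x) e = 0 := by
    intro x
    rw [hew]
    unfold emb
    rw [hFormEmb hF m x 0 0 w, hermForm_zero_right _ hF, hermForm_zero_left, add_zero]
  have hembemb : ∀ x y : Fin m → F,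
      Cfsg.hermForm (m + 2) F q (emb m x) (emb m y) = Cfsg.hermForm m F q x y := by
    intro x y
    unfold emb
    rw [hFormEmb hF m x y 0 0, hermForm_zero_left, add_zero]
  have hone : IsE e 0 (0 : F) (1 : ↥(Cfsg.SU (m + 2) F q)) := by
    intro z
    rw [suAct_one, hermForm_zero_right _ hF]
    simp
  have hcomm : ∀ (b : Fin (m + 2) → F) (d : F) (g' : ↥(Cfsg.SU (m + 2) F q)),
      Cfsg.hermForm (m + 2) F q b e = 0 → IsE e b d g' →
      ∀ (c : F) (g : ↥(Cfsg.SU (m + 2) F q)), IsE e 0 c g → g * g' = g' * g := by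
    intro b d g' hbe hg' c g hg
    have h1 := hAMove hF e 0 b c d g g' 1 hee (hermForm_zero_left _ e) hbe hg hg' (by
      rw [hermForm_zero_left, hermForm_zero_right _ hF, sub_zero]
      exact hone)
    rw [h1, mul_one]
  have hZstab : ∀ (b : Fin (m + 2) → F) (d : F) (g' : ↥(Cfsg.SU (m + 2) F q)),
      Cfsg.hermForm (m + 2) F q b e = 0 → IsE e b d g' →
      ∀ u ∈ zEig ρ e lam, ρ g' u ∈ zEig ρ e lam := by
    intro b d g' hbe hg' u hu c g hc hg
    have h1 := hcomm b d g' hbe hg' c g hg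
    calc ρ g (ρ g' u) = ρ (g * g') u := by rw [map_mul]; rfl
      _ = ρ (g' * g) u := by rw [h1]
      _ = ρ g' (ρ g u) := by rw [map_mul]; rfl
      _ = ρ g' (lam c • u) := by rw [hu c g hc hg]
      _ = lam c • ρ g' u := by rw [map_smul]
  have hinvne : ∀ (g : ↥(Cfsg.SU (m + 2) F q)) (x : V), x ≠ 0 → ρ g x ≠ 0 := by
    intro g x hx h0
    apply hx
    have h1 : ρ g⁻¹ (ρ g x) = x := by
      rw [← Module.End.mul_apply, ← map_mul, inv_mul_cancel, map_one, Module.End.one_apply]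
    rw [← h1, h0, map_zero]
  obtain ⟨A, hAcomm, hAin, hAout⟩ := hASub hF m e ⟨w, hew⟩ hee
  have hUne : zEig ρ e lam ≠ ⊥ := by
    intro h
    rw [h] at hvU
    exact hv ((Submodule.mem_bot ℂ).mp hvU)
  have hAstab : ∀ a ∈ A, ∀ x ∈ zEig ρ e lam, ρ a x ∈ zEig ρ e lam := by
    intro a ha x hx
    obtain ⟨y, c, hy, hE⟩ := hAout a ha
    exact hZstab (emb m y) c a (hembe y) hE x hx
  obtain ⟨v₁, hv₁U, hv₁, χ, hχ⟩ := hREig ρ A hAcomm (zEig ρ e lam) hUne hAstab
  obtain ⟨hlam0, hlammul⟩ := hZMult hF e hee ρ lam v hv hvU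
  obtain ⟨ω, hω⟩ : ∃ ω : F, ω ^ q ≠ ω := by
    by_contra hcon
    push Not at hcon
    exact frobHom_ne_id hF (RingHom.ext hcon)
  obtain ⟨f, hfinj, hfq⟩ := hEnumM hF m
  have hbe : ∀ j, Cfsg.hermForm (m + 2) F q (ω • emb m (f j)) e = 0 := by
    intro j
    rw [hermForm_smul_left, hembe, mul_zero]
  have hex : ∀ j, ∃ (cj : F) (gj : ↥(Cfsg.SU (m + 2) F q)), IsE e (ω • emb m (f j)) cj gj := by
    intro j
    have hfix : (Cfsg.hermForm (m + 2) F q (ω • emb m (f j)) (ω • emb m (f j))) ^ q =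
        Cfsg.hermForm (m + 2) F q (ω • emb m (f j)) (ω • emb m (f j)) := hermForm_conj _ hF _ _
    obtain ⟨μ, hμ⟩ := exists_trace_neg hF _ hfix
    obtain ⟨E, hE⟩ := ex_E hF e (ω • emb m (f j)) μ hee (hbe j) hμ
    exact ⟨μ, E, hE⟩
  choose cc gg hgg using hex
  have hvj : ∀ j, ρ (gg j) v₁ ∈ zEig ρ e lam :=
    fun j => hZstab _ _ _ (hbe j) (hgg j) v₁ hv₁U
  have hvj0 : ∀ j, ρ (gg j) v₁ ≠ 0 := fun j => hinvne _ _ hv₁
  have hkey : ∀ (j : Fin (q ^ m)) (a : ↥(Cfsg.SU (m + 2) F q)) (x : Fin m → F) (c : F),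
      (∀ i, x i ^ q = x i) → IsE e (emb m x) c a → a ∈ A →
      ρ a (ρ (gg j) v₁) = (χ a * lam ((ω ^ q - ω) * ∑ i, x i * f j i)) • ρ (gg j) v₁ := by
    intro j a x c hx hE haA
    obtain ⟨δ, hδ⟩ : ∃ δ : F, δ = Cfsg.hermForm (m + 2) F q (emb m x) (ω • emb m (f j)) -
        Cfsg.hermForm (m + 2) F q (ω • emb m (f j)) (emb m x) := ⟨_, rfl⟩
    have hδK : δ ^ q = -δ := by
      rw [hδ, frob_sub hF, hermForm_conj _ hF, hermForm_conj _ hF]
      ring
    obtain ⟨z, hz⟩ := ex_E hF e 0 δ hee (hermForm_zero_left _ e) (by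
      rw [hδK, hermForm_zero_left]
      ring)
    have hmove := hAMove hF e (emb m x) (ω • emb m (f j)) c (cc j) a (gg j) z hee (hembe x)
      (hbe j) hE (hgg j) (by rw [← hδ]; exact hz)
    have hδval : δ = (ω ^ q - ω) * ∑ i, x i * f j i := by
      rw [hδ, hermForm_smul_right, hermForm_smul_left, hembemb, hembemb]
      unfold Cfsg.hermForm
      have e1 : ∑ i, x i * f j i ^ q = ∑ i, x i * f j i :=
        Finset.sum_congr rfl (fun i _ => by rw [hfq])
      have e2 : ∑ i, f j i * x i ^ q = ∑ i, x i * f j i :=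
        Finset.sum_congr rfl (fun i _ => by rw [hx, mul_comm])
      rw [e1, e2]
      ring
    calc ρ a (ρ (gg j) v₁) = ρ (a * gg j) v₁ := by rw [map_mul]; rfl
      _ = ρ (gg j * a * z) v₁ := by rw [hmove]
      _ = ρ (gg j) (ρ a (ρ z v₁)) := by rw [map_mul, map_mul]; rfl
      _ = ρ (gg j) (ρ a (lam δ • v₁)) := by rw [hv₁U δ z hδK hz]
      _ = (χ a * lam δ) • ρ (gg j) v₁ := by
        rw [map_smul, hχ a haA, smul_smul, map_smul, mul_comm (lam δ)]
      _ = _ := by rw [hδval]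
  have hEig : ∀ (j : Fin (q ^ m)) (a : ↥A), ∃ s : ℂ,
      ρ (a : ↥(Cfsg.SU (m + 2) F q)) (ρ (gg j) v₁) = s • ρ (gg j) v₁ := by
    intro j a
    obtain ⟨x, c, hx, hE⟩ := hAout a.1 a.2
    exact ⟨_, hkey j a.1 x c hx hE a.2⟩
  choose μ hμ using hEig
  have hμinj : Function.Injective μ := by
    intro j j' hjj
    by_contra hne
    have hfne : f j ≠ f j' := fun h => hne (hfinj h)
    obtain ⟨x, hx, hsep⟩ := hFSep hF m lam hlam0 hlammul hlam ω hω (f j) (f j') (hfq j) (hfq j')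
      hfne
    have hfix : (Cfsg.hermForm (m + 2) F q (emb m x) (emb m x)) ^ q =
        Cfsg.hermForm (m + 2) F q (emb m x) (emb m x) := hermForm_conj _ hF _ _
    obtain ⟨c, hc⟩ := exists_trace_neg hF _ hfix
    obtain ⟨a, ha⟩ := ex_E hF e (emb m x) c hee (hembe x) hc
    have haA : a ∈ A := hAin x c a hx ha
    have h1 := hkey j a x c hx ha haA
    have h2 := hkey j' a x c hx ha haA
    have h1' : ρ a (ρ (gg j) v₁) = μ j ⟨a, haA⟩ • ρ (gg j) v₁ := hμ j ⟨a, haA⟩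
    have h2' : ρ a (ρ (gg j') v₁) = μ j' ⟨a, haA⟩ • ρ (gg j') v₁ := hμ j' ⟨a, haA⟩
    rw [h1] at h1'
    rw [h2] at h2'
    have h3 : χ a * lam ((ω ^ q - ω) * ∑ i, x i * f j i) = μ j ⟨a, haA⟩ :=
      smul_left_injective ℂ (hvj0 j) h1'
    have h4 : χ a * lam ((ω ^ q - ω) * ∑ i, x i * f j' i) = μ j' ⟨a, haA⟩ :=
      smul_left_injective ℂ (hvj0 j') h2'
    have hχ0 : χ a ≠ 0 := by
      intro h0
      have h5 := hχ a haA
      rw [h0, zero_smul] at h5
      exact hinvne a v₁ hv₁ h5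
    apply hsep
    have h6 : μ j ⟨a, haA⟩ = μ j' ⟨a, haA⟩ := by rw [hjj]
    rw [← h3, ← h4] at h6
    exact mul_left_cancel₀ hχ0 h6
  have hR := hRInd (fun a : ↥A => ρ (a : ↥(Cfsg.SU (m + 2) F q))) μ hμinj
    (fun j => Submodule.span ℂ {ρ (gg j) v₁})
    (by
      intro j
      rw [Submodule.span_le]
      intro y hy
      rw [Set.mem_singleton_iff] at hy
      rw [hy]
      exact fun a => hμ j a)
    (zEig ρ e lam)
    (by
      intro j
      rw [Submodule.span_le]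
      intro y hy
      rw [Set.mem_singleton_iff] at hy
      rw [hy]
      exact hvj j)
  have h1 : ∀ j, finrank ℂ (Submodule.span ℂ {ρ (gg j) v₁}) = 1 :=
    fun j => finrank_span_singleton (hvj0 j)
  simp only [h1, Finset.sum_const, Finset.card_univ, Fintype.card_fin, smul_eq_mul,
    mul_one] at hR
  exact hR

example (hASub : StASub.{u}) (hAMove : StAMove.{u}) (hFSep : StFSep.{u})
    (hFormEmb : StFormEmb.{u}) (hRInd : StRInd.{u}) (hREig : StREig.{u}) (hZMult : StZMult.{u})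
    (hEnumM : StEnumM.{u}) : Cfsg.Agent.H97.SuL.StHeis.{u} :=
  heis hASub hAMove hFSep hFormEmb hRInd hREig hZMult hEnumM

end Cfsg.Agent.H32.SuL
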