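import Mathlib
import Cfsg.Agent.H97.SuLDefs

/-!
# helper32: piece SuL-STI of S2334/S2335 (helper97's project)

Step (I): `dim V ≥ dim C_V(Z) + (q - 1) q ^ m` — all `q - 1` nontrivial characters of the root
group `Z` of `e` occur (torus), and each eigenspace has dimension at least `q ^ m` (HEIS).
-/

set_option autoImplicit false

namespace Cfsg.Agent.H32.SuL

open Module Cfsg.Agent.H17 Cfsg.Agent.H97.SuL

universe u

theorem stI (hZChar : StZChar.{u}) (hTor1 : StTor1.{u}) (hZMove : StZMove.{u})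
    (hZMult : StZMult.{u}) (hZInj : StZInj.{u}) (hEnum : StEnum.{u}) (hHeis : StHeis.{u})
    (hRInd : StRInd.{u}) : StI.{u} := by
  intro F _ _ q hF m hm e hPl he0 hee V _ _ _ ρ hNT
  classical
  have hq := two_le_of_card_sq hF
  obtain ⟨c₁, g₁, hc₁, hg₁, hρ₁⟩ := hNT
  have hex : ∃ x : V, ρ g₁ x ≠ x := by
    by_contra hcon
    push Not at hcon
    exact hρ₁ (LinearMap.ext hcon)
  obtain ⟨x₁, hx₁⟩ := hex
  obtain ⟨lam, v, hv, -, hvU, c₀, hc₀, hlamc₀⟩ := hZChar hF e hee ρ ⊤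
    (fun _ _ _ _ _ _ => Submodule.mem_top) ⟨c₁, g₁, hc₁, hg₁, x₁, Submodule.mem_top, hx₁⟩
  obtain ⟨hlam0, hlammul⟩ := hZMult hF e hee ρ lam v hv hvU
  obtain ⟨f, hfinj, hf⟩ := hEnum hF
  have htor : ∀ i : Fin (q - 1), ∃ (t : ↥(Cfsg.SU (m + 2) F q)) (s : F),
      s ≠ 0 ∧ s ^ (q + 1) = (f i)⁻¹ ∧ suAct t e = s • e := by
    intro i
    exact hTor1 hF (by omega) e he0 hee (f i)⁻¹ (by rw [inv_pow, (hf i).1])
      (inv_ne_zero (hf i).2)
  choose t s hs0 hsN hts using htor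
  have hinvne : ∀ (g : ↥(Cfsg.SU (m + 2) F q)) (x : V), x ≠ 0 → ρ g x ≠ 0 := by
    intro g x hx h0
    apply hx
    have h1 : ρ g⁻¹ (ρ g x) = x := by
      rw [← Module.End.mul_apply, ← map_mul, inv_mul_cancel, map_one, Module.End.one_apply]
    rw [← h1, h0, map_zero]
  have hmove : ∀ i, ρ (t i) v ∈ zEig ρ e (fun c => lam (f i * c)) := by
    intro i
    have h1 := hZMove hF e ρ lam v (t i) (s i) (hs0 i) (hts i) hvU
    rw [hsN i, inv_inv] at h1
    exact h1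
  have hheis : ∀ i, q ^ m ≤ finrank ℂ (zEig ρ e (fun c => lam (f i * c))) := by
    intro i
    refine hHeis hF m e hPl hee ρ _ (ρ (t i) v) (hinvne _ _ hv) (hmove i)
      ⟨(f i)⁻¹ * c₀, ?_, ?_⟩
    · rw [mul_pow, inv_pow, (hf i).1, hc₀]
      ring
    · show lam (f i * ((f i)⁻¹ * c₀)) ≠ 1
      rw [← mul_assoc, mul_inv_cancel₀ (hf i).2, one_mul]
      exact hlamc₀
  -- the index type of the root group
  have hB : ∀ c : F, c ^ q = -c →
      ∃ p : {p : F × ↥(Cfsg.SU (m + 2) F q) // p.1 ^ q = -p.1 ∧ IsE e 0 p.1 p.2}, p.1.1 = c := by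
    intro c hc
    obtain ⟨z, hz⟩ := ex_E hF e 0 c hee (hermForm_zero_left _ e) (by
      rw [hc, hermForm_zero_left]
      ring)
    exact ⟨⟨(c, z), hc, hz⟩, rfl⟩
  obtain ⟨μ, hμ⟩ : ∃ μ : Option (Fin (q - 1)) →
      {p : F × ↥(Cfsg.SU (m + 2) F q) // p.1 ^ q = -p.1 ∧ IsE e 0 p.1 p.2} → ℂ,
      (∀ p, μ none p = 1) ∧ ∀ i p, μ (some i) p = lam (f i * p.1.1) :=
    ⟨fun o p => o.elim 1 (fun i => lam (f i * p.1.1)), fun _ => rfl, fun _ _ => rfl⟩
  obtain ⟨U, hU⟩ : ∃ U : Option (Fin (q - 1)) → Submodule ℂ V,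
      U none = zEig ρ e (fun _ => 1) ∧ ∀ i, U (some i) = zEig ρ e (fun c => lam (f i * c)) :=
    ⟨fun o => o.elim (zEig ρ e (fun _ => 1)) (fun i => zEig ρ e (fun c => lam (f i * c))),
      rfl, fun _ => rfl⟩
  have hμinj : Function.Injective μ := by
    intro o o' hoo
    rcases o with _ | i <;> rcases o' with _ | i'
    · rfl
    · exfalso
      obtain ⟨c, hc, hne⟩ := hZInj hF lam hlam0 hlammul ⟨c₀, hc₀, hlamc₀⟩ (f i') 0 (hf i').1
        (zero_pow (by omega)) (hf i').2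
      obtain ⟨p, hp⟩ := hB c hc
      have h1 := congrFun hoo p
      rw [hμ.1, hμ.2, hp] at h1
      apply hne
      rw [zero_mul, hlam0, ← h1]
    · exfalso
      obtain ⟨c, hc, hne⟩ := hZInj hF lam hlam0 hlammul ⟨c₀, hc₀, hlamc₀⟩ (f i) 0 (hf i).1
        (zero_pow (by omega)) (hf i).2
      obtain ⟨p, hp⟩ := hB c hc
      have h1 := congrFun hoo p
      rw [hμ.1, hμ.2, hp] at h1
      apply hne
      rw [zero_mul, hlam0, h1]
    · by_contra hii
      have hii' : i ≠ i' := fun h => hii (by rw [h])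
      obtain ⟨c, hc, hne⟩ := hZInj hF lam hlam0 hlammul ⟨c₀, hc₀, hlamc₀⟩ (f i) (f i') (hf i).1
        (hf i').1 (fun h => hii' (hfinj h))
      obtain ⟨p, hp⟩ := hB c hc
      have h1 := congrFun hoo p
      rw [hμ.2, hμ.2, hp] at h1
      exact hne h1
  have hUeig : ∀ o, U o ≤ Cfsg.Agent.H44.eigSub
      (fun p : {p : F × ↥(Cfsg.SU (m + 2) F q) // p.1 ^ q = -p.1 ∧ IsE e 0 p.1 p.2} =>
        ρ p.1.2) (μ o) := by
    intro o x hx p
    rcases o with _ | i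
    · rw [hU.1] at hx
      rw [hμ.1]
      exact hx p.1.1 p.1.2 p.2.1 p.2.2
    · rw [hU.2] at hx
      rw [hμ.2]
      exact hx p.1.1 p.1.2 p.2.1 p.2.2
  have hR := hRInd (fun p : {p : F × ↥(Cfsg.SU (m + 2) F q) // p.1 ^ q = -p.1 ∧ IsE e 0 p.1 p.2} =>
    ρ p.1.2) μ hμinj U hUeig ⊤ (fun _ => le_top)
  rw [Fintype.sum_option, finrank_top, hU.1] at hR
  have h2 : (q - 1) * q ^ m ≤ ∑ i : Fin (q - 1), finrank ℂ (U (some i)) := by
    calc (q - 1) * q ^ m = ∑ _i : Fin (q - 1), q ^ m := by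
          rw [Finset.sum_const, Finset.card_univ, Fintype.card_fin, smul_eq_mul]
      _ ≤ _ := Finset.sum_le_sum (fun i _ => by rw [hU.2]; exact hheis i)
  omega

example (hZChar : StZChar.{u}) (hTor1 : StTor1.{u}) (hZMove : StZMove.{u})
    (hZMult : StZMult.{u}) (hZInj : StZInj.{u}) (hEnum : StEnum.{u}) (hHeis : StHeis.{u})
    (hRInd : StRInd.{u}) : Cfsg.Agent.H97.SuL.StI.{u} :=
  stI hZChar hTor1 hZMove hZMult hZInj hEnum hHeis hRInd

end Cfsg.Agent.H32.SuL
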