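import Mathlib
import Cfsg.Agent.H78.SvDefs

set_option autoImplicit false

/-!
# S2425-FIX: the permutation character on the cosets of a parabolic subgroup counts the stable
flags (helper32, for helper78)
-/

namespace Cfsg.Agent.H32.Sv

open Cfsg.Agent.H78.Sv

open scoped MatrixGroups

section

variable {F : Type*} [Field F] {n : ℕ}

/-- The standard partial flag member `⟨e_j | j ≤ s⟩`. -/
def stdE (F : Type*) [Field F] {n : ℕ} (s : Fin n) : Submodule F (Fin n → F) :=
  Submodule.span F ((fun j : Fin n => (Pi.single j (1 : F) : Fin n → F)) '' {j | j ≤ s})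

theorem mem_stdE (s : Fin n) (v : Fin n → F) : v ∈ stdE F s ↔ ∀ i : Fin n, s < i → v i = 0 := by
  constructor
  · intro hv
    unfold stdE at hv
    induction hv using Submodule.span_induction with
    | mem x hx =>
      obtain ⟨j, hj, rfl⟩ := hx
      intro i hi
      have hij : i ≠ j := by
        rintro rfl
        exact absurd hi (not_lt.mpr hj)
      show (Pi.single j (1 : F) : Fin n → F) i = 0
      rw [Pi.single_apply, if_neg hij]
    | zero => intro i _; rfl
    | add x y _ _ hx hy =>
      intro i hi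
      rw [Pi.add_apply, hx i hi, hy i hi, add_zero]
    | smul c x _ hx =>
      intro i hi
      rw [Pi.smul_apply, hx i hi, smul_zero]
  · intro hv
    have h1 : v = ∑ j : Fin n, v j • (Pi.single j (1 : F) : Fin n → F) := by
      funext i
      rw [Finset.sum_apply]
      simp [Pi.single_apply]
    rw [h1]
    apply Submodule.sum_mem
    intro j _
    by_cases hj : j ≤ s
    · exact Submodule.smul_mem _ _ (Submodule.subset_span ⟨j, hj, rfl⟩)
    · rw [hv j (not_le.mp hj), zero_smul]
      exact Submodule.zero_mem _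

theorem toLin'_single_one (g : Matrix (Fin n) (Fin n) F) (j : Fin n) :
    Matrix.toLin' g (Pi.single j 1) = fun i => g i j := by
  rw [Matrix.toLin'_apply, Matrix.mulVec_single_one]
  rfl

/-- The span of the first columns of `g` is the image of the standard flag. -/
theorem span_cols_eq_map (g : GL (Fin n) F) (s : Fin n) :
    Submodule.span F ((fun j : Fin n => fun i : Fin n => (g : Matrix (Fin n) (Fin n) F) i j) ''
      {j | j ≤ s}) = (stdE F s).map (Matrix.toLin' (g : Matrix (Fin n) (Fin n) F)) := by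
  unfold stdE
  rw [Submodule.map_span, Set.image_image]
  congr 2
  funext j
  exact (toLin'_single_one _ j).symm

theorem toLin'_GL_injective (g : GL (Fin n) F) :
    Function.Injective (Matrix.toLin' (g : Matrix (Fin n) (Fin n) F)) := by
  intro v w h
  have h1 := congrArg (Matrix.toLin' ((g⁻¹ : GL (Fin n) F) : Matrix (Fin n) (Fin n) F)) h
  rw [← LinearMap.comp_apply, ← LinearMap.comp_apply, ← Matrix.toLin'_mul, ← Units.val_mul,
    inv_mul_cancel, Units.val_one, Matrix.toLin'_one] at h1
  exact h1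

theorem map_eq_of_map_le (g : GL (Fin n) F) (W : Submodule F (Fin n → F))
    (h : W.map (Matrix.toLin' (g : Matrix (Fin n) (Fin n) F)) ≤ W) :
    W.map (Matrix.toLin' (g : Matrix (Fin n) (Fin n) F)) = W := by
  apply Submodule.eq_of_le_of_finrank_eq h
  exact (Submodule.equivMapOfInjective _ (toLin'_GL_injective g) W).finrank_eq.symm

theorem finrank_stdE (s : Fin n) : Module.finrank F ↥(stdE F s) = s.val + 1 := by
  classical
  have hli : LinearIndependent F (fun j : {j : Fin n // j ≤ s} =>
      (Pi.single (j : Fin n) (1 : F) : Fin n → F)) := by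
    have h0 := (Pi.basisFun F (Fin n)).linearIndependent
    have h1 := h0.comp (Subtype.val : {j : Fin n // j ≤ s} → Fin n) Subtype.val_injective
    convert h1 using 1
    funext j
    simp [Function.comp]
  have h2 := finrank_span_eq_card hli
  have h3 : Set.range (fun j : {j : Fin n // j ≤ s} =>
      (Pi.single (j : Fin n) (1 : F) : Fin n → F)) =
      (fun j : Fin n => (Pi.single j (1 : F) : Fin n → F)) '' {j | j ≤ s} := by
    ext v
    constructor
    · rintro ⟨⟨j, hj⟩, rfl⟩
      exact ⟨j, hj, rfl⟩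
    · rintro ⟨j, hj, rfl⟩
      exact ⟨⟨j, hj⟩, rfl⟩
  rw [h3] at h2
  unfold stdE
  rw [h2, Fintype.card_subtype]
  have h4 : Finset.univ.filter (fun j : Fin n => j ≤ s) = Finset.Iic s := by
    ext j
    simp
  rw [h4, Fin.card_Iic]

theorem mem_P_iff (S : Finset (Fin n)) (P : Subgroup (GL (Fin n) F))
    (hP : ∀ g : GL (Fin n) F, g ∈ P ↔ ∀ s ∈ S, ∀ i j : Fin n, j ≤ s → s < i →
      (g : Matrix (Fin n) (Fin n) F) i j = 0) (g : GL (Fin n) F) :
    g ∈ P ↔ ∀ s ∈ S, (stdE F s).map (Matrix.toLin' (g : Matrix (Fin n) (Fin n) F)) ≤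
      stdE F s := by
  rw [hP]
  constructor
  · intro h s hs
    rw [← span_cols_eq_map, Submodule.span_le]
    rintro _ ⟨j, hj, rfl⟩
    rw [SetLike.mem_coe, mem_stdE]
    intro i hi
    exact h s hs i j hj hi
  · intro h s hs i j hj hi
    have h1 : Matrix.toLin' (g : Matrix (Fin n) (Fin n) F) (Pi.single j 1) ∈ stdE F s :=
      h s hs (Submodule.mem_map_of_mem (Submodule.subset_span ⟨j, hj, rfl⟩))
    rw [toLin'_single_one, mem_stdE] at h1
    exact h1 i hi

theorem map_eq_iff_mem (S : Finset (Fin n)) (P : Subgroup (GL (Fin n) F))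
    (hP : ∀ g : GL (Fin n) F, g ∈ P ↔ ∀ s ∈ S, ∀ i j : Fin n, j ≤ s → s < i →
      (g : Matrix (Fin n) (Fin n) F) i j = 0) (g h : GL (Fin n) F) :
    (∀ s : ↥S, (stdE F s.1).map (Matrix.toLin' (g : Matrix (Fin n) (Fin n) F)) =
      (stdE F s.1).map (Matrix.toLin' (h : Matrix (Fin n) (Fin n) F))) ↔ g⁻¹ * h ∈ P := by
  rw [mem_P_iff S P hP]
  have key : ∀ s : Fin n, (stdE F s).map (Matrix.toLin' (h : Matrix (Fin n) (Fin n) F)) =
      ((stdE F s).map (Matrix.toLin' ((g⁻¹ * h : GL (Fin n) F) : Matrix (Fin n) (Fin n) F))).map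
        (Matrix.toLin' (g : Matrix (Fin n) (Fin n) F)) := by
    intro s
    rw [← Submodule.map_comp, ← Matrix.toLin'_mul, ← Units.val_mul, mul_inv_cancel_left]
  constructor
  · intro hh s hs
    have h1 := hh ⟨s, hs⟩
    rw [key s] at h1
    have h2 := Submodule.map_injective_of_injective (toLin'_GL_injective g) h1
    exact le_of_eq h2.symm
  · intro hh s
    rw [key s.1, map_eq_of_map_le _ _ (hh s.1 s.2)]

end

theorem fix_count {F : Type*} [Field F] [Finite F] {n : ℕ} (S : Finset (Fin n))
    (P : Subgroup (GL (Fin n) F))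
    (hP : ∀ g : GL (Fin n) F, g ∈ P ↔ ∀ s ∈ S, ∀ i j : Fin n, j ≤ s → s < i →
      (g : Matrix (Fin n) (Fin n) F) i j = 0)
    (htrans : ∀ W : ↥S → Submodule F (Fin n → F),
      (∀ s : ↥S, Module.finrank F ↥(W s) = s.1.val + 1) → Monotone W →
      ∃ g : GL (Fin n) F, ∀ s : ↥S, W s = Submodule.span F
        ((fun j : Fin n => fun i : Fin n => (g : Matrix (Fin n) (Fin n) F) i j) '' {j | j ≤ s.1}))
    (x : GL (Fin n) F) :
    Cfsg.fixedPointCharacter P x =
      (Nat.card (Flags (Matrix.toLin' (x : Matrix (Fin n) (Fin n) F)) S) : ℂ) := by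
  classical
  unfold Cfsg.fixedPointCharacter
  congr 1
  -- the map `g ↦ g • E`
  have hcoset : ∀ g h : GL (Fin n) F,
      ((g : GL (Fin n) F ⧸ P) = (h : GL (Fin n) F ⧸ P)) ↔
      ∀ s : ↥S, (stdE F s.1).map (Matrix.toLin' (g : Matrix (Fin n) (Fin n) F)) =
        (stdE F s.1).map (Matrix.toLin' (h : Matrix (Fin n) (Fin n) F)) := by
    intro g h
    rw [map_eq_iff_mem S P hP, QuotientGroup.eq]
  have hmul : ∀ (g : GL (Fin n) F) (s : Fin n),
      (stdE F s).map (Matrix.toLin' ((x * g : GL (Fin n) F) : Matrix (Fin n) (Fin n) F)) =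
      ((stdE F s).map (Matrix.toLin' (g : Matrix (Fin n) (Fin n) F))).map
        (Matrix.toLin' (x : Matrix (Fin n) (Fin n) F)) := by
    intro g s
    rw [← Submodule.map_comp, ← Matrix.toLin'_mul, ← Units.val_mul]
  have hfixed : ∀ g : GL (Fin n) F,
      (x • (g : GL (Fin n) F ⧸ P) = (g : GL (Fin n) F ⧸ P)) ↔
      ∀ s : ↥S, (stdE F s.1).map (Matrix.toLin' (g : Matrix (Fin n) (Fin n) F)) ∈
        Module.End.invtSubmodule (Matrix.toLin' (x : Matrix (Fin n) (Fin n) F)) := by
    intro g
    rw [MulAction.Quotient.smul_mk, smul_eq_mul, hcoset]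
    constructor
    · intro h s
      rw [Module.End.mem_invtSubmodule, ← Submodule.map_le_iff_le_comap, ← hmul, h s]
    · intro h s
      rw [hmul]
      apply map_eq_of_map_le
      rw [Submodule.map_le_iff_le_comap, ← Module.End.mem_invtSubmodule]
      exact h s
  let f : MulAction.fixedBy (GL (Fin n) F ⧸ P) x →
      Flags (Matrix.toLin' (x : Matrix (Fin n) (Fin n) F)) S := fun q =>
    Subtype.mk (fun s : ↥S =>
        (⟨(stdE F s.1).map (Matrix.toLin' ((q.1.out : GL (Fin n) F) :
            Matrix (Fin n) (Fin n) F)),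
          (hfixed q.1.out).mp (by
            rw [QuotientGroup.out_eq']
            exact q.2) s⟩ :
          ↥(Module.End.invtSubmodule (Matrix.toLin' (x : Matrix (Fin n) (Fin n) F)))))
      ⟨fun s => by
        show Module.finrank F ↥((stdE F s.1).map (Matrix.toLin' ((q.1.out : GL (Fin n) F) :
            Matrix (Fin n) (Fin n) F))) = s.1.val + 1
        rw [← finrank_stdE (F := F) s.1]
        exact (Submodule.equivMapOfInjective _ (toLin'_GL_injective q.1.out)
          (stdE F s.1)).finrank_eq.symm,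
      fun s s' hss' => by
        show (stdE F s.1).map (Matrix.toLin' ((q.1.out : GL (Fin n) F) :
            Matrix (Fin n) (Fin n) F)) ≤ (stdE F s'.1).map (Matrix.toLin' ((q.1.out :
            GL (Fin n) F) : Matrix (Fin n) (Fin n) F))
        apply Submodule.map_mono
        apply Submodule.span_mono
        apply Set.image_mono
        intro j hj
        have h1 : j ≤ s.1 := hj
        have h2 : s.1 ≤ s'.1 := hss'
        exact le_trans h1 h2⟩
  have hf : ∀ (q : MulAction.fixedBy (GL (Fin n) F ⧸ P) x) (s : ↥S),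
      (((f q).1 s : ↥(Module.End.invtSubmodule (Matrix.toLin'
        (x : Matrix (Fin n) (Fin n) F)))) : Submodule F (Fin n → F)) =
      (stdE F s.1).map (Matrix.toLin' ((q.1.out : GL (Fin n) F) :
        Matrix (Fin n) (Fin n) F)) := fun q s => rfl
  apply Nat.card_eq_of_bijective f
  constructor
  · intro q q' hqq'
    apply Subtype.ext
    rw [← QuotientGroup.out_eq' q.1, ← QuotientGroup.out_eq' q'.1, hcoset]
    intro s
    rw [← hf q s, ← hf q' s, hqq']
  · intro W
    obtain ⟨W, hWdim, hWmono⟩ := W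
    obtain ⟨g, hg⟩ := htrans (fun s => (W s).1) hWdim (fun s s' h => hWmono h)
    have hg' : ∀ s : ↥S, (W s).1 =
        (stdE F s.1).map (Matrix.toLin' (g : Matrix (Fin n) (Fin n) F)) := by
      intro s
      rw [← span_cols_eq_map]
      exact hg s
    have hq : (g : GL (Fin n) F ⧸ P) ∈ MulAction.fixedBy (GL (Fin n) F ⧸ P) x := by
      rw [MulAction.mem_fixedBy, hfixed]
      intro s
      rw [← hg' s]
      exact (W s).2
    refine ⟨⟨(g : GL (Fin n) F ⧸ P), hq⟩, ?_⟩
    apply Subtype.ext
    funext s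
    apply Subtype.ext
    rw [hf, hg' s]
    have h1 : ((((g : GL (Fin n) F ⧸ P)).out : GL (Fin n) F) : GL (Fin n) F ⧸ P) =
        (g : GL (Fin n) F ⧸ P) := QuotientGroup.out_eq' _
    exact (hcoset _ _).mp h1 s

end Cfsg.Agent.H32.Sv
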