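import Mathlib
import Cfsg.Agent.H78.SvDefs

set_option autoImplicit false

/-!
# S2425-TRANS: every partial flag has an adapted basis (helper32, for helper78)
-/

namespace Cfsg.Agent.H32.Sv

open Cfsg.Agent.H78.Sv

open scoped MatrixGroups

/-- The inductive construction of an adapted family of vectors. -/
theorem exists_adapted_aux {F : Type*} [Field F] {n : ℕ} (S : Finset (Fin n))
    (W : ↥S → Submodule F (Fin n → F)) (hdim : ∀ s : ↥S, Module.finrank F ↥(W s) = s.1.val + 1)
    (hmono : Monotone W) (k : ℕ) (hk : k ≤ n) :
    ∃ b : Fin n → (Fin n → F),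
      Module.finrank F ↥(Submodule.span F (b '' {j : Fin n | j.val < k})) = k ∧
      ∀ s : ↥S, (s.1.val < k → W s = Submodule.span F (b '' {j : Fin n | j ≤ s.1})) ∧
        (k ≤ s.1.val → Submodule.span F (b '' {j : Fin n | j.val < k}) ≤ W s) := by
  classical
  induction k with
  | zero =>
    refine ⟨fun _ => 0, ?_, ?_⟩
    · have h0 : {j : Fin n | j.val < 0} = ∅ := by
        ext j; simp
      rw [h0, Set.image_empty, Submodule.span_empty, finrank_bot]
    · intro s
      refine ⟨fun h => absurd h (Nat.not_lt_zero _), fun _ => ?_⟩
      have h0 : {j : Fin n | j.val < 0} = ∅ := by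
        ext j; simp
      rw [h0, Set.image_empty, Submodule.span_empty]
      exact bot_le
  | succ k ih =>
    obtain ⟨b, hbdim, hb⟩ := ih (by omega)
    have hkn : k < n := by omega
    set U := Submodule.span F (b '' {j : Fin n | j.val < k}) with hU
    -- choose the new vector
    have hv : ∃ v : Fin n → F, v ∉ U ∧ ∀ s : ↥S, k ≤ s.1.val → v ∈ W s := by
      by_cases hex : ∃ s : ↥S, k ≤ s.1.val
      · obtain ⟨s₀, hs₀⟩ := hex
        obtain ⟨s', hs'mem, hs'min⟩ := Finset.exists_min_image
          (Finset.univ.filter (fun s : ↥S => k ≤ s.1.val)) (fun s => s.1.val)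
          ⟨s₀, by simp [hs₀]⟩
        have hs'k : k ≤ s'.1.val := by simpa using hs'mem
        have hUle : U ≤ W s' := (hb s').2 hs'k
        have hUlt : U < W s' := by
          refine lt_of_le_of_ne hUle ?_
          intro heq
          have h1 := hdim s'
          rw [← heq, hbdim] at h1
          omega
        obtain ⟨v, hvW, hvU⟩ := SetLike.exists_of_lt hUlt
        refine ⟨v, hvU, ?_⟩
        intro s hs
        have hle : s' ≤ s := by
          have := hs'min s (by simp [hs])
          exact Subtype.mk_le_mk.mpr (Fin.le_def.mpr this)
        exact hmono hle hvW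
      · have hUtop : U ≠ ⊤ := by
          intro heq
          have h1 : Module.finrank F ↥U = n := by
            rw [heq, finrank_top, Module.finrank_fintype_fun_eq_card, Fintype.card_fin]
          rw [hbdim] at h1
          omega
        obtain ⟨v, -, hvU⟩ := SetLike.exists_of_lt (lt_top_iff_ne_top.mpr hUtop)
        exact ⟨v, hvU, fun s hs => absurd ⟨s, hs⟩ hex⟩
    obtain ⟨v, hvU, hvW⟩ := hv
    have hv0 : v ≠ 0 := by
      rintro rfl
      exact hvU (Submodule.zero_mem _)
    set b' : Fin n → (Fin n → F) := Function.update b ⟨k, hkn⟩ v with hb'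
    have hb'k : b' ⟨k, hkn⟩ = v := Function.update_self _ _ _
    have hb'ne : ∀ j : Fin n, j.val ≠ k → b' j = b j := by
      intro j hj
      apply Function.update_of_ne
      intro h
      exact hj (by rw [h])
    have himg1 : b' '' {j : Fin n | j.val < k} = b '' {j : Fin n | j.val < k} := by
      apply Set.image_congr
      intro j hj
      exact hb'ne j (Nat.ne_of_lt hj)
    have hset : {j : Fin n | j.val < k + 1} = insert (⟨k, hkn⟩ : Fin n) {j : Fin n | j.val < k} := by
      ext j
      simp only [Set.mem_setOf_eq, Set.mem_insert_iff, Fin.ext_iff]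
      omega
    have himg2 : b' '' {j : Fin n | j.val < k + 1} = insert v (b '' {j : Fin n | j.val < k}) := by
      rw [hset, Set.image_insert_eq, hb'k, himg1]
    have hspan : Submodule.span F (b' '' {j : Fin n | j.val < k + 1}) = (F ∙ v) ⊔ U := by
      rw [himg2, Submodule.span_insert]
    have hdisj : U ⊓ (F ∙ v) = ⊥ := by
      have := (Submodule.disjoint_span_singleton' (s := U) hv0).mpr hvU
      exact disjoint_iff.mp this
    have hfin : Module.finrank F ↥((F ∙ v) ⊔ U) = k + 1 := by
      have h1 := Submodule.finrank_sup_add_finrank_inf_eq U (F ∙ v)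
      rw [hdisj, finrank_bot, add_zero, finrank_span_singleton hv0, hbdim] at h1
      rw [sup_comm]
      exact h1
    refine ⟨b', ?_, ?_⟩
    · rw [hspan]; exact hfin
    · intro s
      constructor
      · intro hs
        by_cases hsk : s.1.val < k
        · rw [(hb s).1 hsk]
          congr 1
          symm
          apply Set.image_congr
          intro j hj
          have hj' : j.val ≤ s.1.val := Fin.le_def.mp hj
          exact hb'ne j (by omega)
        · have hsk' : s.1.val = k := by omega
          have hset' : {j : Fin n | j ≤ s.1} = {j : Fin n | j.val < k + 1} := by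
            ext j
            simp only [Set.mem_setOf_eq, Fin.le_def]
            omega
          rw [hset', hspan]
          symm
          apply Submodule.eq_of_le_of_finrank_eq
          · apply sup_le
            · rw [Submodule.span_singleton_le_iff_mem]
              exact hvW s (by omega)
            · exact (hb s).2 (by omega)
          · rw [hfin, hdim s, hsk']
      · intro hs
        rw [hspan]
        apply sup_le
        · rw [Submodule.span_singleton_le_iff_mem]
          exact hvW s (by omega)
        · exact (hb s).2 (by omega)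

theorem exists_adapted {F : Type*} [Field F] {n : ℕ} (S : Finset (Fin n))
    (W : ↥S → Submodule F (Fin n → F)) (hdim : ∀ s : ↥S, Module.finrank F ↥(W s) = s.1.val + 1)
    (hmono : Monotone W) :
    ∃ g : GL (Fin n) F, ∀ s : ↥S, W s = Submodule.span F
      ((fun j : Fin n => fun i : Fin n => (g : Matrix (Fin n) (Fin n) F) i j) '' {j | j ≤ s.1}) := by
  classical
  obtain ⟨b, hbdim, hb⟩ := exists_adapted_aux S W hdim hmono n le_rfl
  have huniv : {j : Fin n | j.val < n} = Set.univ := by
    ext j; simp
  rw [huniv, Set.image_univ] at hbdim
  have htop : Submodule.span F (Set.range b) = ⊤ := by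
    apply Submodule.eq_top_of_finrank_eq
    rw [hbdim, Module.finrank_fintype_fun_eq_card, Fintype.card_fin]
  have hli : LinearIndependent F b := by
    apply linearIndependent_of_top_le_span_of_card_eq_finrank (le_of_eq htop.symm)
    rw [Module.finrank_fintype_fun_eq_card]
  have hcol : (Matrix.of (fun i j : Fin n => b j i)).col = b := by
    funext j i
    rfl
  have hunit : IsUnit (Matrix.of (fun i j : Fin n => b j i)) := by
    rw [← Matrix.linearIndependent_cols_iff_isUnit, hcol]
    exact hli
  refine ⟨hunit.unit, ?_⟩
  intro s
  have h1 : (fun j : Fin n => fun i : Fin n =>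
      ((hunit.unit : GL (Fin n) F) : Matrix (Fin n) (Fin n) F) i j) = b := by
    funext j i
    rfl
  rw [h1]
  exact (hb s).1 s.1.isLt

end Cfsg.Agent.H32.Sv
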