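import Mathlib
import Cfsg.Prelude.Def_OddOrderLocal
import Cfsg.Agent.H32.Basic

set_option autoImplicit false

namespace Cfsg.Agent.H32

open Classical in
/-- For a TI-subgroup `H`, the number of non-identity elements of `G` conjugate into `H` is
`[G : N_G(H)] * (|H| - 1)`. -/
theorem ti_card_conj {G : Type*} [Group G] [Fintype G] (H : Subgroup G)
    (hTI : Cfsg.IsTISubset (H : Set G)) :
    (Finset.univ.filter (fun g : G => g ≠ 1 ∧ ∃ x : G, x * g * x⁻¹ ∈ H)).card =
      (Subgroup.normalizer (H : Set G)).index * (Nat.card H - 1) := by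
  set N := Subgroup.normalizer (H : Set G) with hN
  set D := Finset.univ.filter (fun g : G => g ≠ 1 ∧ ∃ x : G, x * g * x⁻¹ ∈ H) with hD
  have h1 : ∀ x : G, (Finset.univ.filter (fun g : G => g ≠ 1 ∧ x * g * x⁻¹ ∈ H)).card =
      Nat.card H - 1 := by
    intro x
    have e1 : (Finset.univ.filter (fun g : G => g ≠ 1 ∧ x * g * x⁻¹ ∈ H)).card =
        (Finset.univ.filter (fun h : G => h ≠ 1 ∧ h ∈ H)).card := by
      apply Finset.card_bij (fun g _ => x * g * x⁻¹)
      · intro g hg
        simp only [Finset.mem_filter, Finset.mem_univ, true_and] at hg ⊢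
        refine ⟨?_, hg.2⟩
        intro h
        apply hg.1
        have : g = x⁻¹ * (x * g * x⁻¹) * x := by group
        rw [this, h]; group
      · intro a _ b _ hab
        exact conj_injective hab
      · intro h hh
        simp only [Finset.mem_filter, Finset.mem_univ, true_and] at hh
        refine ⟨x⁻¹ * h * x, ?_, by group⟩
        simp only [Finset.mem_filter, Finset.mem_univ, true_and]
        refine ⟨?_, ?_⟩
        · intro h'
          apply hh.1
          have : h = x * (x⁻¹ * h * x) * x⁻¹ := by group
          rw [this, h']; group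
        · have : x * (x⁻¹ * h * x) * x⁻¹ = h := by group
          rw [this]; exact hh.2
    rw [e1]
    have e2 : (Finset.univ.filter (fun h : G => h ≠ 1 ∧ h ∈ H)) =
        (Finset.univ.filter (fun h : G => h ∈ H)).erase 1 := by
      ext h
      simp only [Finset.mem_filter, Finset.mem_univ, true_and, Finset.mem_erase]
    rw [e2, Finset.card_erase_of_mem (by simp [H.one_mem])]
    congr 1
    rw [Nat.card_eq_fintype_card, Fintype.card_subtype]
  have h2 : ∀ g ∈ D, (Finset.univ.filter (fun x : G => x * g * x⁻¹ ∈ H)).card = Nat.card N := by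
    intro g hg
    simp only [hD, Finset.mem_filter, Finset.mem_univ, true_and] at hg
    obtain ⟨hg1, x₀, hx₀⟩ := hg
    have hne : x₀ * g * x₀⁻¹ ≠ 1 := by
      intro h
      apply hg1
      have : g = x₀⁻¹ * (x₀ * g * x₀⁻¹) * x₀ := by group
      rw [this, h]; group
    have e1 : (Finset.univ.filter (fun x : G => x * g * x⁻¹ ∈ H)).card =
        (Finset.univ.filter (fun y : G => y ∈ N)).card := by
      apply Finset.card_bij (fun x _ => x * x₀⁻¹)
      · intro x hx
        simp only [Finset.mem_filter, Finset.mem_univ, true_and] at hx ⊢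
        by_contra hn
        apply hne
        apply hTI (x * x₀⁻¹) hn (x₀ * g * x₀⁻¹) hx₀
        have : x * x₀⁻¹ * (x₀ * g * x₀⁻¹) * (x * x₀⁻¹)⁻¹ = x * g * x⁻¹ := by group
        rw [this]; exact hx
      · intro a _ b _ hab
        exact mul_right_cancel hab
      · intro y hy
        simp only [Finset.mem_filter, Finset.mem_univ, true_and] at hy
        refine ⟨y * x₀, ?_, by group⟩
        simp only [Finset.mem_filter, Finset.mem_univ, true_and]
        have : y * x₀ * g * (y * x₀)⁻¹ = y * (x₀ * g * x₀⁻¹) * y⁻¹ := by group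
        rw [this]
        exact (Subgroup.mem_set_normalizer_iff.mp hy _).mp hx₀
    rw [e1, Nat.card_eq_fintype_card, Fintype.card_subtype]
  have h3 : ∀ g : G, g ≠ 1 → g ∉ D →
      (Finset.univ.filter (fun x : G => x * g * x⁻¹ ∈ H)).card = 0 := by
    intro g hg1 hgD
    rw [Finset.card_eq_zero, Finset.filter_eq_empty_iff]
    intro x _ hx
    apply hgD
    simp only [hD, Finset.mem_filter, Finset.mem_univ, true_and]
    exact ⟨hg1, x, hx⟩
  -- double counting
  have hdc : ∑ x : G, (Finset.univ.filter (fun g : G => g ≠ 1 ∧ x * g * x⁻¹ ∈ H)).card =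
      ∑ g : G, if g ≠ 1 then (Finset.univ.filter (fun x : G => x * g * x⁻¹ ∈ H)).card else 0 := by
    simp_rw [Finset.card_filter]
    rw [Finset.sum_comm]
    apply Finset.sum_congr rfl
    intro g _
    by_cases hg : g = 1
    · simp [hg]
    · simp [hg]
  have hL : ∑ x : G, (Finset.univ.filter (fun g : G => g ≠ 1 ∧ x * g * x⁻¹ ∈ H)).card =
      Nat.card G * (Nat.card H - 1) := by
    rw [Finset.sum_congr rfl (fun x _ => h1 x)]
    simp only [Finset.sum_const, Finset.card_univ, smul_eq_mul, Nat.card_eq_fintype_card]
  have hR : (∑ g : G, if g ≠ 1 then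
      (Finset.univ.filter (fun x : G => x * g * x⁻¹ ∈ H)).card else 0) = D.card * Nat.card N := by
    have : ∀ g : G, (if g ≠ 1 then (Finset.univ.filter (fun x : G => x * g * x⁻¹ ∈ H)).card
        else 0) = if g ∈ D then Nat.card N else 0 := by
      intro g
      by_cases hgD : g ∈ D
      · have hg1 : g ≠ 1 := by
          simp only [hD, Finset.mem_filter, Finset.mem_univ, true_and] at hgD
          exact hgD.1
        simp only [hg1, ne_eq, not_false_eq_true, if_true, hgD]
        exact h2 g hgD
      · by_cases hg1 : g = 1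
        · subst hg1
          simp [hgD]
        · simp only [ne_eq, hg1, not_false_eq_true, if_true, hgD, if_false]
          exact h3 g hg1 hgD
    rw [Finset.sum_congr rfl (fun g _ => this g), Finset.sum_ite_mem, Finset.univ_inter,
      Finset.sum_const, smul_eq_mul]
  have hmain : D.card * Nat.card N = N.index * (Nat.card H - 1) * Nat.card N := by
    rw [← hR, ← hdc, hL, ← Subgroup.card_mul_index N]
    ring
  have hNpos : 0 < Nat.card N := Nat.card_pos
  exact Nat.eq_of_mul_eq_mul_right hNpos hmain

end Cfsg.Agent.H32
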