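import Mathlib
import Cfsg.Agent.H90.TRDefs
import Cfsg.Agent.H86.GrpLemmas

set_option autoImplicit false

/-! S5156-G1 (team project of helper90): a normal subgroup of a finite group with
`C_G(O_p(G)) ≤ O_p(G)` has the same property. -/

namespace Cfsg.Agent.H32.TR

open Cfsg

universe u

theorem g1 : Cfsg.Agent.H90.TR.G1Stmt.{u} := by
  intro G _ _ p _ N hN hC
  have hQn : (pCore p G).Normal := Cfsg.Agent.H86.pCore_normal p G
  have hQp : IsPGroup p (pCore p G) := Cfsg.Agent.H86.pCore_isPGroup p G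
  have hR₀n : (pCore p N).Normal := Cfsg.Agent.H86.pCore_normal p N
  -- `O_p(G) ∩ N` inside `N` lies in `O_p(N)`
  have hQN : (pCore p G).subgroupOf N ≤ pCore p N := by
    apply Cfsg.Agent.H86.le_pCore
    · infer_instance
    · exact hQp.comap_subtype
  -- the centralizer of `O_p(N)` in `N` is a normal `p`-subgroup of `N`
  have hXn : (Subgroup.centralizer ((pCore p N : Subgroup N) : Set N)).Normal := inferInstance
  apply Cfsg.Agent.H86.le_pCore hXn
  obtain ⟨a, ha⟩ := hQp.exists_card_eq
  rintro ⟨x, hx⟩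
  -- the element `x ^ |Q|` of `G` centralizes `Q`
  have hxc : ((x : N) : G) ^ Nat.card (pCore p G) ∈
      Subgroup.centralizer ((pCore p G : Subgroup G) : Set G) := by
    rw [Subgroup.mem_centralizer_iff]
    intro q hq
    set z : G := q * (x : G) * q⁻¹ * (x : G)⁻¹ with hz
    have hzQ : z ∈ pCore p G := by
      have h1 : (x : G) * q⁻¹ * (x : G)⁻¹ ∈ pCore p G :=
        hQn.conj_mem _ ((pCore p G).inv_mem hq) _
      have h2 : z = q * ((x : G) * q⁻¹ * (x : G)⁻¹) := by
        rw [hz]; group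
      rw [h2]
      exact (pCore p G).mul_mem hq h1
    have hzN : z ∈ N := by
      have h1 : q * (x : G) * q⁻¹ ∈ N := hN.conj_mem _ x.2 _
      exact N.mul_mem h1 (N.inv_mem x.2)
    have hzR : (⟨z, hzN⟩ : N) ∈ pCore p N := hQN (Subgroup.mem_subgroupOf.mpr hzQ)
    have hcomm : (⟨z, hzN⟩ : N) * x = x * ⟨z, hzN⟩ :=
      (Subgroup.mem_centralizer_iff.mp hx) _ hzR
    have hcomm' : z * (x : G) = (x : G) * z := by
      have := congrArg (Subtype.val : N → G) hcomm
      simpa using this
    have hconj : q * (x : G) * q⁻¹ = z * (x : G) := by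
      rw [hz]; group
    have hpow : q * (x : G) ^ Nat.card (pCore p G) * q⁻¹ =
        z ^ Nat.card (pCore p G) * (x : G) ^ Nat.card (pCore p G) := by
      rw [← conj_pow, hconj, (show Commute z (x : G) from hcomm').mul_pow]
    have hz1 : z ^ Nat.card (pCore p G) = 1 := by
      have h2 : ((⟨z, hzQ⟩ : pCore p G) ^ Nat.card (pCore p G) : pCore p G) = 1 :=
        pow_card_eq_one'
      have h3 : (((⟨z, hzQ⟩ : pCore p G) ^ Nat.card (pCore p G) : pCore p G) : G) =
          z ^ Nat.card (pCore p G) := rfl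
      rw [← h3, h2]
      rfl
    rw [hz1, one_mul] at hpow
    have := congrArg (fun t => t * q) hpow
    simpa using this
  have hxQ := hC hxc
  obtain ⟨b, hb⟩ := hQp ⟨_, hxQ⟩
  refine ⟨a + b, ?_⟩
  apply Subtype.ext
  apply Subtype.ext
  have h2 := congrArg (Subtype.val : pCore p G → G) hb
  simp only [Subgroup.coe_pow, Subgroup.coe_one] at h2 ⊢
  rw [ha] at h2
  rw [pow_add, pow_mul]
  exact h2

end Cfsg.Agent.H32.TR
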