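import Mathlib
import Cfsg.Agent.H90.TRDefs
import Cfsg.Agent.H86.GrpLemmas
import Cfsg.Agent.H14.PSolv
import Cfsg.Agent.H80.PSolvable
import Cfsg.Agent.H80.SolvPSolv

set_option autoImplicit false

/-! S5156-G2 (team project of helper90): an extension of a `p`-solvable group by a `p`-solvable
group is `p`-solvable. -/

namespace Cfsg.Agent.H32.TR

open Cfsg

universe u

theorem g2_aux (p : ℕ) [Fact p.Prime] (n : ℕ) :
    ∀ (G : Type u) [Group G] [Finite G] (N : Subgroup G) [N.Normal],
      Nat.card N = n → IsPSolvable p N → IsPSolvable p (G ⧸ N) → IsPSolvable p G := by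
  induction n using Nat.strong_induction_on with
  | _ n ih =>
    intro G _ _ N hN hn hNs hQs
    by_cases hbot : N = ⊥
    · subst hbot
      exact Cfsg.Agent.H14.isPSolvable_of_surjective p
        (QuotientGroup.quotientBot (G := G)).toMonoidHom
        (QuotientGroup.quotientBot (G := G)).surjective hQs
    · have hex : ∃ N₀ : Subgroup G, N₀.Normal ∧ N₀ ≤ N ∧ N₀ ≠ ⊥ ∧
          ((∃ m : ℕ, Nat.card N₀ = p ^ m) ∨ (Nat.card N₀).Coprime p) := by
        by_cases hpp : pPrimeCore p N = ⊥
        · have hcent := Cfsg.Agent.H80.centralizer_pCore_le p hNs hpp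
          refine ⟨(pCore p N).map N.subtype, Cfsg.Agent.H14.pCore_subgroup_normal p N,
            Subgroup.map_subtype_le _, ?_, Or.inl ?_⟩
          · intro h
            have h1 : pCore p N = ⊥ := by
              rwa [Subgroup.map_eq_bot_iff_of_injective _ N.subtype_injective] at h
            rw [h1] at hcent
            apply hbot
            rw [Subgroup.eq_bot_iff_forall]
            intro x hx
            have h2 : (⟨x, hx⟩ : N) ∈ Subgroup.centralizer (((⊥ : Subgroup N) : Subgroup N) : Set N) := by
              rw [Subgroup.mem_centralizer_iff]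
              intro y hy
              have hy1 : y = 1 := Subgroup.mem_bot.mp hy
              rw [hy1, one_mul, mul_one]
            have h3 := Subgroup.mem_bot.mp (hcent h2)
            exact congrArg Subtype.val h3
          · rw [Subgroup.card_map_of_injective N.subtype_injective]
            exact (Cfsg.Agent.H86.pCore_isPGroup p N).exists_card_eq
        · refine ⟨(pPrimeCore p N).map N.subtype,
            Cfsg.Agent.H14.pPrimeCore_subgroup_normal p N, Subgroup.map_subtype_le _, ?_,
            Or.inr ?_⟩
          · intro h
            apply hpp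
            rwa [Subgroup.map_eq_bot_iff_of_injective _ N.subtype_injective] at h
          · rw [Subgroup.card_map_of_injective N.subtype_injective]
            exact Cfsg.Agent.H80.pPrimeCore_coprime p N
      obtain ⟨N₀, hN₀n, hN₀N, hN₀bot, hN₀c⟩ := hex
      haveI := hN₀n
      have hNbn : (N.map (QuotientGroup.mk' N₀)).Normal :=
        Subgroup.Normal.map hN _ (QuotientGroup.mk'_surjective N₀)
      have hNbs : IsPSolvable p (N.map (QuotientGroup.mk' N₀)) :=
        Cfsg.Agent.H14.isPSolvable_of_surjective p ((QuotientGroup.mk' N₀).subgroupMap N)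
          ((QuotientGroup.mk' N₀).subgroupMap_surjective N) hNs
      have hcard : Nat.card (N.map (QuotientGroup.mk' N₀)) < n := by
        rw [← hn]
        have hle : Nat.card (N.map (QuotientGroup.mk' N₀)) ≤ Nat.card N :=
          Nat.card_le_card_of_surjective _ ((QuotientGroup.mk' N₀).subgroupMap_surjective N)
        refine lt_of_le_of_ne hle (fun heq => ?_)
        have hbij := (Nat.bijective_iff_surjective_and_card
          ((QuotientGroup.mk' N₀).subgroupMap N)).mpr
          ⟨(QuotientGroup.mk' N₀).subgroupMap_surjective N, heq.symm⟩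
        apply hN₀bot
        rw [Subgroup.eq_bot_iff_forall]
        intro x hx
        have h1 : (QuotientGroup.mk' N₀).subgroupMap N ⟨x, hN₀N hx⟩ =
            (QuotientGroup.mk' N₀).subgroupMap N 1 := by
          apply Subtype.ext
          rw [map_one]
          show (QuotientGroup.mk' N₀) x = 1
          exact (QuotientGroup.eq_one_iff x).mpr hx
        have h2 := hbij.1 h1
        exact congrArg Subtype.val h2
      have hle : N ≤ (N.map (QuotientGroup.mk' N₀)).comap (QuotientGroup.mk' N₀) :=
        Subgroup.le_comap_map _ N
      have hQ2 : IsPSolvable p ((G ⧸ N₀) ⧸ N.map (QuotientGroup.mk' N₀)) :=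
        Cfsg.Agent.H14.isPSolvable_of_surjective p
          (QuotientGroup.map N (N.map (QuotientGroup.mk' N₀)) (QuotientGroup.mk' N₀) hle)
          (QuotientGroup.map_surjective_of_surjective N _ _
            ((QuotientGroup.mk_surjective).comp (QuotientGroup.mk'_surjective N₀)) hle) hQs
      have h3 := ih (Nat.card (N.map (QuotientGroup.mk' N₀))) hcard (G ⧸ N₀)
        (N.map (QuotientGroup.mk' N₀)) rfl hNbs hQ2
      exact Cfsg.Agent.H80.isPSolvable_of_normal p N₀ hN₀c h3

theorem g2 : Cfsg.Agent.H90.TR.G2Stmt.{u} := by
  intro G _ _ p _ N _ hNs hQs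
  exact g2_aux p (Nat.card N) G N rfl hNs hQs

end Cfsg.Agent.H32.TR
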