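import Mathlib
import Cfsg.Agent.H42.TiDefs
import Cfsg.Agent.H42.SpdEx

/-!
# helper32: piece SPI-MODADD of S5955 (helper42's project)

Orthogonal sums of models (as `H42.Spd.model_add`, with the kernels of `aeval g φ` carried
along).
-/

set_option autoImplicit false

namespace Cfsg.Agent.H32.Ti

open Cfsg.Agent.H45 Cfsg.Agent.H42.Spd Cfsg.Agent.H42.Spn Cfsg.Agent.H42.Ti Module Matrix
  Polynomial

universe u

/-- The kernel of a product map. -/
theorem ker_prodMap {F : Type*} [Field F] {V₁ V₂ : Type*} [AddCommGroup V₁] [Module F V₁]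
    [AddCommGroup V₂] [Module F V₂] (f₁ : Module.End F V₁) (f₂ : Module.End F V₂) :
    LinearMap.ker (f₁.prodMap f₂) = (LinearMap.ker f₁).prod (LinearMap.ker f₂) := by
  ext ⟨x, y⟩
  simp only [LinearMap.mem_ker, LinearMap.prodMap_apply, Submodule.mem_prod, Prod.mk_eq_zero]

/-- The dimension of a product of subspaces. -/
theorem finrank_prod_sub {F : Type*} [Field F] {V₁ V₂ : Type*} [AddCommGroup V₁] [Module F V₁]
    [AddCommGroup V₂] [Module F V₂] [FiniteDimensional F V₁] [FiniteDimensional F V₂]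
    (K₁ : Submodule F V₁) (K₂ : Submodule F V₂) :
    Module.finrank F ↥(K₁.prod K₂) = Module.finrank F ↥K₁ + Module.finrank F ↥K₂ := by
  rw [← Module.finrank_prod]
  exact LinearEquiv.finrank_eq
    { toFun := fun x => (⟨x.1.1, x.2.1⟩, ⟨x.1.2, x.2.2⟩)
      invFun := fun y => ⟨(y.1.1, y.2.1), ⟨y.1.2, y.2.2⟩⟩
      map_add' := fun _ _ => rfl
      map_smul' := fun _ _ => rfl
      left_inv := fun _ => rfl
      right_inv := fun _ => rfl }

/-- Polynomials of a product map. -/
theorem aeval_prodMap {F : Type*} [Field F] {V₁ V₂ : Type*} [AddCommGroup V₁] [Module F V₁]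
    [AddCommGroup V₂] [Module F V₂] (f₁ : Module.End F V₁) (f₂ : Module.End F V₂) (φ : F[X]) :
    aeval (f₁.prodMap f₂) φ = (aeval f₁ φ).prodMap (aeval f₂ φ) := by
  have h := Polynomial.aeval_algHom_apply (LinearMap.prodMapAlgHom F V₁ V₂) (f₁, f₂) φ
  rw [Polynomial.aeval_prod_apply] at h
  exact h

theorem tiModAdd : StTiModAdd.{u} := by
  intro F _ _ p _ _ r hr hrp Φs n₁ k₁ n₂ k₂ a₁ a₂ h₁ h₂
  have hp : p.Prime := Fact.out
  have hpr : ¬ p ∣ r := fun h => hrp ((Nat.prime_dvd_prime_iff_eq hp hr).mp h).symm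
  obtain ⟨V₁, _, _, _, B₁, g₁, hd₁, hg₁, hn₁, hk₁, ha₁⟩ := h₁
  obtain ⟨V₂, _, _, _, B₂, g₂, hd₂, hg₂, hn₂, hk₂, ha₂⟩ := h₂
  let B : (V₁ × V₂) →ₗ[F] (V₁ × V₂) →ₗ[F] F :=
    LinearMap.mk₂'ₛₗ (RingHom.id F) (RingHom.id F) (fun x y => B₁ x.1 y.1 + B₂ x.2 y.2)
      (by
        intro x x' y
        simp only [Prod.fst_add, Prod.snd_add, map_add, LinearMap.add_apply]
        abel)
      (by
        intro c x y
        simp only [Prod.smul_fst, Prod.smul_snd, map_smul, LinearMap.smul_apply, smul_add,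
          RingHom.id_apply])
      (by
        intro x y y'
        simp only [Prod.fst_add, Prod.snd_add, map_add]
        abel)
      (by
        intro c x y
        simp only [Prod.smul_fst, Prod.smul_snd, LinearMap.map_smulₛₗ, smul_add])
  have hB : ∀ x y, B x y = B₁ x.1 y.1 + B₂ x.2 y.2 := fun x y => rfl
  have hgr : (g₁.prodMap g₂) ^ r = 1 := by
    rw [prodMap_pow', hg₁, hg₂, LinearMap.prodMap_one]
  refine ⟨V₁ × V₂, inferInstance, inferInstance, inferInstance, B, g₁.prodMap g₂,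
    ⟨?_, ?_, ?_, ?_, ?_⟩, hgr, ?_, ?_, ?_⟩
  · intro x y
    rw [hB, hB, hd₁.herm, hd₂.herm, map_add, mul_add]
  · intro x hx
    apply Prod.ext
    · apply hd₁.nondeg
      intro y
      have := hx (y, 0)
      rw [hB] at this
      simpa using this
    · apply hd₂.nondeg
      intro y
      have := hx (0, y)
      rw [hB] at this
      simpa using this
  · intro h x
    rw [hB, hd₁.alt h, hd₂.alt h, add_zero]
  · intro x y
    rw [hB, hB]
    simp only [LinearMap.prodMap_apply]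
    rw [hd₁.isom, hd₂.isom]
  · exact isSemisimple_of_pow_eq_one p _ _ hpr hgr
  · rw [Module.finrank_prod, hn₁, hn₂]
  · have h1 : g₁.prodMap g₂ - 1 = (g₁ - 1).prodMap (g₂ - 1) := by
      apply LinearMap.ext
      rintro ⟨x, y⟩
      simp only [LinearMap.sub_apply, LinearMap.prodMap_apply, Module.End.one_apply,
        Prod.mk_sub_mk]
    rw [h1, ker_prodMap, finrank_prod_sub, hk₁, hk₂]
  · intro φ hφ
    rw [aeval_prodMap, ker_prodMap, finrank_prod_sub, ha₁ φ hφ, ha₂ φ hφ]

example : Cfsg.Agent.H42.Ti.StTiModAdd.{u} := tiModAdd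

end Cfsg.Agent.H32.Ti
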