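import Mathlib
import Cfsg.Agent.H42.TiDefs
import Cfsg.Agent.H42.SpdEx
import Cfsg.Agent.Lib.Helper96.SpnUEx

/-!
# helper32: piece SPI-TRANSPORT of S5955 (helper42's project)

A model of dimension `2 d` gives a symplectic matrix with the same kernel dimensions
(as `H42.Spd.exists_sp_of_model`, with the kernels of `aeval g φ` carried along).
-/

set_option autoImplicit false

namespace Cfsg.Agent.H32.Ti

open Cfsg.Agent.H45 Cfsg.Agent.H42.Spd Cfsg.Agent.H42.Spn Cfsg.Agent.H42.Ti Module Matrix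
  Polynomial

universe u

theorem tiTransport : StTiTransport.{u} := by
  classical
  intro F _ _ p _ _ r hr hrp Φs d k a h
  have hp : p.Prime := Fact.out
  have hpr : ¬ p ∣ r := fun h => hrp ((Nat.prime_dvd_prime_iff_eq hp hr).mp h).symm
  obtain ⟨V, _, _, _, B, g, hd, hgr, hn, hk, ha⟩ := h
  have hstd : Good (RingHom.id F) (-1) (stdB d F) (1 : Module.End F (Fin d ⊕ Fin d → F)) :=
    stdB_good d p r hpr 1 (fun x y => rfl) (one_pow r)
  have hfr : Module.finrank F V = Module.finrank F (Fin d ⊕ Fin d → F) := by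
    rw [hn, Module.finrank_fintype_fun_eq_card, Fintype.card_sum, Fintype.card_fin]
    ring
  obtain ⟨e, _, hiso⟩ := isoConj_of_charpoly_eq (RingHom.id F) (fun a => rfl) (-1) _ B
    (stdB d F) 1 1 rfl hd.one hstd
    (by rw [LinearMap.charpoly_one, LinearMap.charpoly_one, hfr])
  obtain ⟨g', hg'⟩ : ∃ g' : Module.End F (Fin d ⊕ Fin d → F), g' = e.conj g := ⟨_, rfl⟩
  have hg'iso : ∀ x y, stdB d F (g' x) (g' y) = stdB d F x y := by
    intro x y
    rw [hg', LinearEquiv.conj_apply_apply, LinearEquiv.conj_apply_apply, hiso, hd.isom, ← hiso,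
      e.apply_symm_apply, e.apply_symm_apply]
  have hg'r : g' ^ r = 1 := by
    have h1 : e.conj (g ^ r) = (e.conj g) ^ r := map_pow e.conjRingEquiv g r
    rw [hg', ← h1, hgr]
    exact LinearEquiv.conj_id e
  have h2 : ∀ z, g' z = LinearMap.toMatrix' g' *ᵥ z := by
    intro z
    rw [← Matrix.toLin'_apply, Matrix.toLin'_toMatrix']
  have hmem : LinearMap.toMatrix' g' ∈ Matrix.symplecticGroup (Fin d) F := by
    rw [SymplecticGroup.mem_iff']
    apply (Matrix.toLinearMap₂' F (S₁ := F) (S₂ := F) (N₂ := F) (n := Fin d ⊕ Fin d)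
      (m := Fin d ⊕ Fin d)).injective
    apply LinearMap.ext
    intro x
    apply LinearMap.ext
    intro y
    have h1 := hg'iso x y
    unfold stdB at h1
    rw [Matrix.toLinearMap₂'_apply', Matrix.toLinearMap₂'_apply'] at h1
    rw [h2, h2] at h1
    rw [Matrix.toLinearMap₂'_apply', Matrix.toLinearMap₂'_apply', ← h1, form_mulVec]
  refine ⟨⟨LinearMap.toMatrix' g', hmem⟩, ?_, ?_, ?_⟩
  · apply Subtype.ext
    rw [SubmonoidClass.coe_pow]
    apply Matrix.toLin'.injective
    rw [Matrix.toLin'_pow, Matrix.toLin'_toMatrix', hg'r]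
    show (1 : Module.End F (Fin d ⊕ Fin d → F)) =
      Matrix.toLin' (1 : Matrix (Fin d ⊕ Fin d) (Fin d ⊕ Fin d) F)
    rw [Matrix.toLin'_one]
    rfl
  · show Module.finrank F ↥(LinearMap.ker (Matrix.toLin' (LinearMap.toMatrix' g') - 1)) = k
    rw [Matrix.toLin'_toMatrix', ← hk]
    have h1 : g' - 1 = e.conj (g - 1) := by
      rw [hg']
      have h3 : e.conj (g - 1) = e.conj g - e.conj 1 := map_sub e.conjRingEquiv g 1
      have h4 : e.conj (1 : Module.End F V) = 1 := LinearEquiv.conj_id e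
      rw [h3, h4]
    rw [h1, Cfsg.Agent.Lib.Helper96.Spn.ker_conj]
    exact LinearEquiv.finrank_eq
      (Submodule.equivMapOfInjective e.toLinearMap e.injective (LinearMap.ker (g - 1))).symm
  · intro φ hφ
    show Module.finrank F
      ↥(LinearMap.ker (aeval (Matrix.toLin' (LinearMap.toMatrix' g')) φ)) = a φ
    rw [Matrix.toLin'_toMatrix', ← ha φ hφ]
    have h1 : aeval g' φ = e.conj (aeval g φ) := by
      rw [hg']
      exact Polynomial.aeval_algHom_apply (e.conjAlgEquiv F) g φ
    rw [h1, Cfsg.Agent.Lib.Helper96.Spn.ker_conj]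
    exact LinearEquiv.finrank_eq
      (Submodule.equivMapOfInjective e.toLinearMap e.injective
        (LinearMap.ker (aeval g φ))).symm

example : Cfsg.Agent.H42.Ti.StTiTransport.{u} := tiTransport

end Cfsg.Agent.H32.Ti
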