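import Mathlib
import Cfsg.Agent.H77.TqDefs

set_option autoImplicit false
open scoped MatrixGroups
open scoped Matrix

/-!
# S5978-CENTORD (piece of the S5978 team project, for helper77), helper32

`N(K) ∩ O(Q)` contains a subgroup of the order of `O_d(q²)` (`d = m + 1`; minus type for `d`
even).
-/

namespace Cfsg.Agent.H32.Tq

open Module Cfsg.Agent.H77.Tq

universe u

/-- An invertible matrix commuting with a subalgebra normalizes it. -/
theorem mem_subalgebraNormalizer_of_comm {F : Type u} [Field F] {ι : Type} [Fintype ι]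
    [DecidableEq ι] (K : Subalgebra F (Matrix ι ι F)) (g : GL ι F)
    (hc : ∀ a ∈ K, (g : Matrix ι ι F) * a = a * (g : Matrix ι ι F)) :
    g ∈ Cfsg.Geo.subalgebraNormalizer K := by
  intro k
  have h1 : (g : Matrix ι ι F) * ((g⁻¹ : GL ι F) : Matrix ι ι F) = 1 := by
    rw [← Units.val_mul, mul_inv_cancel, Units.val_one]
  have h2 : ((g⁻¹ : GL ι F) : Matrix ι ι F) * (g : Matrix ι ι F) = 1 := by
    rw [← Units.val_mul, inv_mul_cancel, Units.val_one]
  constructor
  · intro hk
    have : (g : Matrix ι ι F) * k * ((g⁻¹ : GL ι F) : Matrix ι ι F) = k := by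
      rw [hc k hk, mul_assoc, h1, mul_one]
    rw [this]; exact hk
  · intro hk
    have h3 := hc _ hk
    have h4 : (g : Matrix ι ι F) * ((g : Matrix ι ι F) * k * ((g⁻¹ : GL ι F) : Matrix ι ι F)) =
        (g : Matrix ι ι F) * k := by
      rw [h3, mul_assoc, h2, mul_one]
    have e : (g : Matrix ι ι F) * k * ((g⁻¹ : GL ι F) : Matrix ι ι F) = k := by
      calc (g : Matrix ι ι F) * k * ((g⁻¹ : GL ι F) : Matrix ι ι F)
          = ((g⁻¹ : GL ι F) : Matrix ι ι F) * ((g : Matrix ι ι F) *
              ((g : Matrix ι ι F) * k * ((g⁻¹ : GL ι F) : Matrix ι ι F))) := by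
            rw [← mul_assoc ((g⁻¹ : GL ι F) : Matrix ι ι F), h2, one_mul]
        _ = k := by rw [h4, ← mul_assoc, h2, one_mul]
    rw [e] at hk; exact hk

theorem centOrd (hS : StStruct.{u}) (hLift : StLift.{u}) (hDisc : StDisc.{u})
    (hOO : StOrdDiagOdd.{u}) (hOE : StOrdDiagEven.{u}) : StCentOrd.{u} := by
  classical
  intro F _ _ m a b K hab hKO
  obtain ⟨n, L, _, _, _, ψ, φ, α, hKC, hns⟩ := hS F (MI m) (Cfsg.Agent.H49.QMin m F a b) K hKO
  have hdim := hKC.dim
  have hn : n = m + 1 := by
    simp only [MI, Fintype.card_sum, Fintype.card_fin] at hdim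
    omega
  subst hn
  obtain ⟨Φ, hΦinj, hΦiso, hΦcomm, -⟩ :=
    hLift F (MI m) (Cfsg.Agent.H49.QMin m F a b) K L (m + 1) ψ φ α hKO hKC
  refine ⟨Φ.range, ?_, ?_, ?_⟩
  · rintro _ ⟨Y, rfl⟩
    exact hΦiso Y
  · rintro _ ⟨Y, rfl⟩
    exact mem_subalgebraNormalizer_of_comm K (Φ Y) (hΦcomm Y)
  · have hcard : Nat.card ↥Φ.range = Nat.card
        ↥(Cfsg.isometryGroup L (fun w : Fin (m + 1) → L => ∑ l, α l * w l ^ 2)) :=
      Nat.card_congr (MonoidHom.ofInjective hΦinj).symm.toEquiv
    rw [hcard]
    have h2L : (2 : L) ≠ 0 := by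
      intro h
      apply hKO.two
      apply (algebraMap F L).injective
      rw [map_ofNat, map_zero]
      exact h
    have hq : Fintype.card L = Fintype.card F ^ 2 := hKC.card
    by_cases hev : Even (m + 1)
    · rw [if_pos hev]
      have hmodd : Odd m := by
        rcases Nat.even_or_odd m with h | h
        · exact absurd hev (Nat.not_even_iff_odd.mpr (h.add_one))
        · exact h
      have hneg1 : IsSquare (-1 : L) := by
        rw [FiniteField.isSquare_neg_one_iff, hq, Nat.pow_mod]
        have : Fintype.card F % 4 < 4 := Nat.mod_lt _ (by norm_num)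
        interval_cases (Fintype.card F % 4) <;> norm_num
      have hlast : IsSquare (α (Fin.last m)) := by
        rw [hDisc F m a b K L (m + 1) ψ φ α hKO.two hab hKC hns (Fin.last m) (by simp)]
        rw [Even.neg_one_pow hev]
        exact IsSquare.one
      have hχ : quadraticChar L ((-1 : L) ^ ((m + 1) / 2) * ∏ l, α l) = -1 := by
        rw [map_mul, map_pow, map_prod, Fin.prod_univ_castSucc]
        have h1 : quadraticChar L (-1) = 1 :=
          (quadraticChar_one_iff_isSquare (neg_ne_zero.mpr one_ne_zero)).mpr hneg1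
        have h2 : ∀ i : Fin m, quadraticChar L (α i.castSucc) = -1 := fun i =>
          quadraticChar_neg_one_iff_not_isSquare.mpr (hns i.castSucc (by simp))
        have h3 : quadraticChar L (α (Fin.last m)) = 1 :=
          (quadraticChar_one_iff_isSquare (hKC.ne _)).mpr hlast
        rw [h1, one_pow, one_mul, h3, mul_one, Finset.prod_congr rfl (fun i _ => h2 i),
          Finset.prod_const, Finset.card_univ, Fintype.card_fin]
        exact Odd.neg_one_pow hmodd
      have hnsq : ¬ IsSquare ((-1 : L) ^ ((m + 1) / 2) * ∏ l, α l) :=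
        quadraticChar_neg_one_iff_not_isSquare.mp hχ
      rw [hOE L (m + 1) α h2L hKC.ne hev (Nat.succ_pos m) hnsq, hq]
    · rw [if_neg hev]
      have hodd : Odd (m + 1) := Nat.not_even_iff_odd.mp hev
      rw [hOO L (m + 1) α h2L hKC.ne hodd, hq]
      have hhalf : (m + 1) / 2 = m / 2 := by
        obtain ⟨k, hk⟩ := hodd
        omega
      rw [hhalf]

end Cfsg.Agent.H32.Tq
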