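import Mathlib
import Cfsg.Agent.H77.TqDefs
import Cfsg.Agent.H45.OmInvol
import Cfsg.Agent.H32.TqCentOrd

set_option autoImplicit false
open scoped MatrixGroups
open scoped Matrix

/-!
# S5978-AMODEL (piece of the S5978 team project, for helper77), helper32

`N(K) ∩ Ω` contains involutions with `rank (y - 1) = 2 j`, `0 < 2 j < |ι|`.
-/

namespace Cfsg.Agent.H32.Tq

open Module Cfsg.Agent.H77.Tq

universe u

/-- Lists of pairs: length. -/
theorem flatPair_length {A V : Type*} (ls : List A) (f g : A → V) :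
    (ls.flatMap (fun a => [f a, g a])).length = 2 * ls.length := by
  induction ls with
  | nil => simp
  | cons a ls ih =>
    rw [List.flatMap_cons, List.length_append, ih]
    simp
    ring

/-- Lists of pairs: the product of the values is a square if each pair has a square product. -/
theorem flatPair_isSquare {A V F : Type*} [CommMonoid F] (ls : List A) (f g : A → V) (Q : V → F)
    (h : ∀ a ∈ ls, IsSquare (Q (f a) * Q (g a))) :
    IsSquare ((ls.flatMap (fun a => [f a, g a])).map Q).prod := by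
  induction ls with
  | nil => simp
  | cons a ls ih =>
    rw [List.flatMap_cons, List.map_append, List.prod_append]
    apply IsSquare.mul
    · simpa using h a List.mem_cons_self
    · exact ih (fun b hb => h b (List.mem_cons_of_mem _ hb))

/-- In a quadratic extension, two trace-orthogonal non-isotropic elements span. -/
theorem exists_pair_coord {F : Type u} [Field F] [Fintype F] {L : Type u} [Field L] [Fintype L]
    [Algebra F L] (hcard : Fintype.card L = Fintype.card F ^ 2) (ν c₁ c₂ : L)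
    (h12 : Algebra.trace F L (ν * c₁ * c₂) = 0) (h11 : Algebra.trace F L (ν * c₁ * c₁) ≠ 0)
    (h22 : Algebra.trace F L (ν * c₂ * c₂) ≠ 0) (d : L) :
    ∃ s t : F, d = s • c₁ + t • c₂ := by
  have hfr : Module.finrank F L = 2 := by
    have h1 : Fintype.card L = Fintype.card F ^ Module.finrank F L := Module.card_eq_pow_finrank
    rw [hcard] at h1
    exact (Nat.pow_right_injective (Fintype.one_lt_card : 1 < Fintype.card F)) h1.symm
  have hli : LinearIndependent F ![c₁, c₂] := by
    rw [LinearIndependent.pair_iff]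
    intro s t hst
    have e1 : Algebra.trace F L (ν * c₁ * (s • c₁ + t • c₂)) =
        s * Algebra.trace F L (ν * c₁ * c₁) + t * Algebra.trace F L (ν * c₁ * c₂) := by
      rw [mul_add, mul_smul_comm, mul_smul_comm, map_add, map_smul, map_smul, smul_eq_mul,
        smul_eq_mul]
    have e2 : Algebra.trace F L (ν * c₂ * (s • c₁ + t • c₂)) =
        s * Algebra.trace F L (ν * c₁ * c₂) + t * Algebra.trace F L (ν * c₂ * c₂) := by
      rw [mul_add, mul_smul_comm, mul_smul_comm, map_add, map_smul, map_smul, smul_eq_mul,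
        smul_eq_mul]
      have : ν * c₂ * c₁ = ν * c₁ * c₂ := by ring
      rw [this]
    rw [hst, mul_zero, map_zero, h12, mul_zero, add_zero] at e1
    rw [hst, mul_zero, map_zero, h12, mul_zero, zero_add] at e2
    exact ⟨(mul_eq_zero.mp e1.symm).resolve_right h11, (mul_eq_zero.mp e2.symm).resolve_right h22⟩
  have hspan := hli.span_eq_top_of_card_eq_finrank' (by simp [hfr])
  have hd : d ∈ Submodule.span F (Set.range ![c₁, c₂]) := by rw [hspan]; exact Submodule.mem_top
  rw [Matrix.range_cons_cons_empty, Submodule.mem_span_pair] at hd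
  obtain ⟨s, t, hst⟩ := hd
  exact ⟨s, t, hst.symm⟩

theorem aModel (hS : StStruct.{u}) (_hLift : StLift.{u}) (hPlane : StPlane.{u}) :
    StAModel.{u} := by
  classical
  intro F _ _ ι _ _ Q K hKO j hj1 hj2
  obtain ⟨n, L, _, _, _, ψ, φ, α, hKC, hns⟩ := hS F ι Q K hKO
  have h2 := hKO.two
  have hdim := hKC.dim
  have hjn : j ≤ n := by omega
  have hjn' : j + 1 ≤ n := by omega
  -- plane data
  have hpl : ∀ l : Fin j, ∃ c₁ c₂ : L,
      Algebra.trace F L (α (Fin.castLE hjn l) * c₁ * c₂) = 0 ∧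
      Algebra.trace F L (α (Fin.castLE hjn l) * c₁ * c₁) ≠ 0 ∧
      Algebra.trace F L (α (Fin.castLE hjn l) * c₂ * c₂) ≠ 0 ∧
      IsSquare (Algebra.trace F L (α (Fin.castLE hjn l) * c₁ * c₁) *
        Algebra.trace F L (α (Fin.castLE hjn l) * c₂ * c₂)) := fun l =>
    hPlane F L h2 hKC.card (α (Fin.castLE hjn l))
      (hns (Fin.castLE hjn l) (by simp only [Fin.val_castLE]; omega))
  choose c₁ c₂ h12 h11 h22 hsq using hpl
  -- the polar form on coordinate vectors
  have hpol : ∀ (l : Fin n) (c : L) (w : Fin n → L),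
      QuadraticMap.polar (⇑Q) (φ (Pi.single l c)) (φ w) = Algebra.trace F L (α l * c * w l) := by
    intro l c w
    rw [hKC.form]
    congr 1
    rw [Finset.sum_eq_single l]
    · rw [Pi.single_eq_same]
    · intro k _ hk
      rw [Pi.single_eq_of_ne hk, mul_zero, zero_mul]
    · intro h
      exact absurd (Finset.mem_univ l) h
  have hQv : ∀ (l : Fin n) (c : L), Algebra.trace F L (α l * c * c) ≠ 0 →
      Q (φ (Pi.single l c)) ≠ 0 := by
    intro l c hne h0
    apply hne
    have := Cfsg.Agent.H49.polar_self' Q (φ (Pi.single l c))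
    rw [hpol, Pi.single_eq_same, h0, mul_zero] at this
    exact this
  -- the vectors
  obtain ⟨v₁, hv₁⟩ : ∃ v₁ : Fin j → (ι → F), ∀ l, v₁ l = φ (Pi.single (Fin.castLE hjn l) (c₁ l)) :=
    ⟨_, fun _ => rfl⟩
  obtain ⟨v₂, hv₂⟩ : ∃ v₂ : Fin j → (ι → F), ∀ l, v₂ l = φ (Pi.single (Fin.castLE hjn l) (c₂ l)) :=
    ⟨_, fun _ => rfl⟩
  obtain ⟨vs, hvsdef⟩ : ∃ vs : List (ι → F),
      vs = (List.finRange j).flatMap (fun l => [v₁ l, v₂ l]) := ⟨_, rfl⟩
  have hmem : ∀ v, v ∈ vs ↔ ∃ l : Fin j, v = v₁ l ∨ v = v₂ l := by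
    intro v
    rw [hvsdef, List.mem_flatMap]
    constructor
    · rintro ⟨l, -, hv⟩
      refine ⟨l, ?_⟩
      simpa using hv
    · rintro ⟨l, hv⟩
      refine ⟨l, List.mem_finRange l, ?_⟩
      simpa using hv
  have hvs : ∀ v ∈ vs, Q v ≠ 0 := by
    intro v hv
    obtain ⟨l, rfl | rfl⟩ := (hmem v).mp hv
    · rw [hv₁]; exact hQv _ _ (h11 l)
    · rw [hv₂]; exact hQv _ _ (h22 l)
  have hpw : vs.Pairwise (fun u w => QuadraticMap.polar (⇑Q) u w = 0) := by
    rw [hvsdef, List.pairwise_flatMap]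
    constructor
    · intro l _
      rw [List.pairwise_pair, hv₁, hv₂, hpol, Pi.single_eq_same]
      exact h12 l
    · refine (List.nodup_finRange j).imp ?_
      intro l l' hne x hx y hy
      have hne' : Fin.castLE hjn l' ≠ Fin.castLE hjn l := fun h =>
        hne (Fin.castLE_injective hjn h).symm
      have key : ∀ c c' : L, QuadraticMap.polar (⇑Q) (φ (Pi.single (Fin.castLE hjn l) c))
          (φ (Pi.single (Fin.castLE hjn l') c')) = 0 := by
        intro c c'
        rw [hpol, Pi.single_eq_of_ne hne'.symm, mul_zero, map_zero]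
      simp only [List.mem_cons, List.not_mem_nil, or_false] at hx hy
      rcases hx with rfl | rfl <;> rcases hy with rfl | rfl <;>
        simp only [hv₁, hv₂] <;> exact key _ _
  have hlen : vs.length = 2 * j := by
    rw [hvsdef, flatPair_length, List.length_finRange]
  have hsqprod : IsSquare (vs.map (⇑Q)).prod := by
    rw [hvsdef]
    apply flatPair_isSquare
    intro l _
    have e1 := Cfsg.Agent.H49.polar_self' Q (v₁ l)
    have e2 := Cfsg.Agent.H49.polar_self' Q (v₂ l)
    rw [hv₁, hpol, Pi.single_eq_same] at e1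
    rw [hv₂, hpol, Pi.single_eq_same] at e2
    obtain ⟨r, hr⟩ := hsq l
    refine ⟨r * (2 : F)⁻¹, ?_⟩
    rw [hv₁, hv₂]
    have h4 : (2 : F) * 2 ≠ 0 := mul_ne_zero h2 h2
    field_simp
    rw [e1, e2] at hr
    linear_combination hr
  -- the product of reflections
  obtain ⟨D, hD⟩ : ∃ D : Matrix ι ι F,
      D = (vs.map (fun v => Cfsg.reflectionMatrix (⇑Q) v)).prod := ⟨_, rfl⟩
  obtain ⟨g, hgc, hgD⟩ := (Cfsg.Agent.H49.exists_mem_commutator_iff_of_prod_refl (⇑Q) Q rfl h2 D vs
    hvs hD).mpr ⟨by rw [hlen]; exact even_two_mul j, hsqprod⟩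
  -- action of `D` on coordinate vectors
  have hDneg : ∀ x ∈ vs, D *ᵥ x = -x := fun x hx => by
    rw [hD]; exact Cfsg.Agent.H45.prod_refl_neg Q vs hpw hvs x hx
  have hC : ∀ (l : Fin n) (d : L),
      D *ᵥ φ (Pi.single l d) = φ (Pi.single l (if (l : ℕ) < j then -d else d)) := by
    intro l d
    by_cases hl : (l : ℕ) < j
    · rw [if_pos hl]
      obtain ⟨l₀, rfl⟩ : ∃ l₀ : Fin j, Fin.castLE hjn l₀ = l := ⟨⟨l, hl⟩, by ext; rfl⟩
      obtain ⟨s, t, hst⟩ := exists_pair_coord hKC.card (α (Fin.castLE hjn l₀)) (c₁ l₀) (c₂ l₀)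
        (h12 l₀) (h11 l₀) (h22 l₀) d
      have e : φ (Pi.single (Fin.castLE hjn l₀) d) = s • v₁ l₀ + t • v₂ l₀ := by
        rw [hst, Pi.single_add, Pi.single_smul, Pi.single_smul, map_add, map_smul, map_smul,
          hv₁, hv₂]
      rw [Pi.single_neg, map_neg, e, Matrix.mulVec_add, Matrix.mulVec_smul, Matrix.mulVec_smul,
        hDneg _ ((hmem _).mpr ⟨l₀, Or.inl rfl⟩), hDneg _ ((hmem _).mpr ⟨l₀, Or.inr rfl⟩)]
      module
    · rw [if_neg hl, hD]
      apply Cfsg.Agent.H45.prod_refl_fix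
      intro w hw
      have hne : ∀ l₀ : Fin j, Fin.castLE hjn l₀ ≠ l := by
        intro l₀ h
        apply hl
        rw [← h]
        simp
      obtain ⟨l₀, rfl | rfl⟩ := (hmem w).mp hw
      · rw [hv₁, hpol, Pi.single_eq_of_ne (hne l₀), mul_zero, map_zero]
      · rw [hv₂, hpol, Pi.single_eq_of_ne (hne l₀), mul_zero, map_zero]
  have hA : ∀ w : Fin n → L,
      D *ᵥ φ w = φ (fun l => if (l : ℕ) < j then -w l else w l) := by
    intro w
    have e1 : w = ∑ l, Pi.single l (w l) := (Finset.univ_sum_single w).symm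
    have e2 : (fun l : Fin n => if (l : ℕ) < j then -w l else w l) =
        ∑ l : Fin n, Pi.single l (if (l : ℕ) < j then -w l else w l) :=
      (Finset.univ_sum_single (fun l : Fin n => if (l : ℕ) < j then -w l else w l)).symm
    rw [e2, map_sum]
    conv_lhs => rw [e1]
    rw [map_sum, Matrix.mulVec_sum]
    exact Finset.sum_congr rfl (fun l _ => hC l (w l))
  -- `D` commutes with `K`
  have hcomm : ∀ a ∈ K, ((g : GL ι F) : Matrix ι ι F) * a = a * ((g : GL ι F) : Matrix ι ι F) := by
    intro a ha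
    obtain ⟨c, rfl⟩ := hKC.surj a ha
    rw [hgD]
    apply Matrix.toLin'.injective
    apply LinearMap.ext
    intro x
    obtain ⟨w, rfl⟩ := φ.surjective x
    rw [Matrix.toLin'_apply, Matrix.toLin'_apply, ← Matrix.mulVec_mulVec, ← Matrix.mulVec_mulVec,
      ← hKC.smul, hA, hA, ← hKC.smul]
    congr 1
    funext l
    simp only [Pi.smul_apply, smul_eq_mul]
    split_ifs
    · rw [mul_neg]
    · rfl
  refine ⟨(g : GL ι F), ⟨g, hgc, rfl⟩, mem_subalgebraNormalizer_of_comm K _ hcomm, ?_, ?_⟩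
  · rw [hgD, hD, ← Cfsg.Agent.H49.coe_prod_reflG]
    have := Cfsg.Agent.H45.prod_reflG_sq Q vs hpw
    have h3 := congrArg (fun t : ↥(Cfsg.isometryGroup F (⇑Q)) => ((t : GL ι F) : Matrix ι ι F)) this
    simpa using h3
  · rw [hgD, hD, Matrix.rank, ← Matrix.toLin'_apply',
      Cfsg.Agent.H45.finrank_range_prod_refl Q h2 vs hpw hvs, hlen]

end Cfsg.Agent.H32.Tq
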