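import Mathlib
import Cfsg.Agent.H81.TypePDefs
import Cfsg.Agent.H32.Dual
import Cfsg.Agent.H32.SNC2

/-!
# helper32: piece S1511-VALS of helper81's project (Peterfalvi (4.3))

With `DiffInd`, the family `χ` satisfies `χ ω w = ω w` for all `w ∈ W` outside `W₂`, and every
class function orthogonal to all `χ ω` vanishes there: Fourier inversion on the dual of
`W = W₁ × W₂`.
-/

set_option autoImplicit false

namespace Cfsg.Agent.H32.TyP

open Cfsg Cfsg.Agent.H4 Cfsg.Agent.H32 Cfsg.Agent.H81.TyP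

universe u

theorem vals : StmtVals.{u} := by
  intro L _ _ W₁ W₂ hW χ hχ hDI
  classical
  have : Fintype ↥(W₁ ⊔ W₂) := Fintype.ofFinite _
  have : Fintype (↥(W₁ ⊔ W₂) →* ℂˣ) := Fintype.ofFinite _
  have hcomm : ∀ a b : ↥(W₁ ⊔ W₂), a * b = b * a := by
    intro a b
    exact Subtype.ext (snc_comm W₁ W₂ hW a.2 b.2)
  have hcard : (Nat.card ↥(W₁ ⊔ W₂) : ℂ) ≠ 0 := by
    have : 0 < Nat.card ↥(W₁ ⊔ W₂) := Nat.card_pos
    exact_mod_cast this.ne'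
  set H₁ : Subgroup ↥(W₁ ⊔ W₂) := W₁.subgroupOf (W₁ ⊔ W₂) with hH₁
  set H₂ : Subgroup ↥(W₁ ⊔ W₂) := W₂.subgroupOf (W₁ ⊔ W₂) with hH₂
  set SA := Finset.univ.filter (fun φ : ↥(W₁ ⊔ W₂) →* ℂˣ => ∀ y ∈ H₂, φ y = 1) with hSA
  set SB := Finset.univ.filter (fun ψ : ↥(W₁ ⊔ W₂) →* ℂˣ => ∀ y ∈ H₁, ψ y = 1) with hSB
  have hmemA : ∀ φ ∈ SA, ∀ y : ↥(W₁ ⊔ W₂), (y : L) ∈ W₂ → φ y = 1 := by
    intro φ hφ y hy
    rw [hSA, Finset.mem_filter] at hφ
    exact hφ.2 y (Subgroup.mem_subgroupOf.mpr hy)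
  have hmemB : ∀ ψ ∈ SB, ∀ y : ↥(W₁ ⊔ W₂), (y : L) ∈ W₁ → ψ y = 1 := by
    intro ψ hψ y hy
    rw [hSB, Finset.mem_filter] at hψ
    exact hψ.2 y (Subgroup.mem_subgroupOf.mpr hy)
  have hA : (SA.card : ℂ) ≠ 0 := by
    have : (1 : ↥(W₁ ⊔ W₂) →* ℂˣ) ∈ SA := by
      rw [hSA, Finset.mem_filter]
      exact ⟨Finset.mem_univ _, fun _ _ => rfl⟩
    have hpos : 0 < SA.card := Finset.card_pos.mpr ⟨1, this⟩
    exact_mod_cast hpos.ne'
  have hB : (SB.card : ℂ) ≠ 0 := by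
    have : (1 : ↥(W₁ ⊔ W₂) →* ℂˣ) ∈ SB := by
      rw [hSB, Finset.mem_filter]
      exact ⟨Finset.mem_univ _, fun _ _ => rfl⟩
    have hpos : 0 < SB.card := Finset.card_pos.mpr ⟨1, this⟩
    exact_mod_cast hpos.ne'
  have hn : ∀ ω, classInner (χ ω) (χ ω) = 1 := fun ω => by rw [hχ.orthonormal, if_pos rfl]
  have ho : ∀ ω ω', ω ≠ ω' → classInner (χ ω) (χ ω') = 0 :=
    fun ω ω' h => by rw [hχ.orthonormal, if_neg h]
  have hclass : ∀ ω, IsClassFunction L (χ ω) := by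
    intro ω
    rcases hχ.irr_or_neg ω with h | h
    · exact isClassFunction_of_isCharacter (isCharacter_of_isIrrCharacter h)
    · have h1 := isClassFunction_of_isCharacter (isCharacter_of_isIrrCharacter h)
      intro g x
      have h2 := h1 g x
      simp only [Pi.neg_apply, neg_inj] at h2
      exact h2
  -- the inner sum through `DiffInd` and Frobenius reciprocity
  have key : ∀ θ : L → ℂ, IsClassFunction L θ → ∀ φ ∈ SA, ∀ ψ ∈ SB,
      ∑ x : ↥(W₁ ⊔ W₂), ((φ x : ℂ) * (ψ x : ℂ) - (ψ x : ℂ)) * (starRingEnd ℂ) (θ x) =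
        (Nat.card ↥(W₁ ⊔ W₂) : ℂ) * (classInner (χ (φ * ψ)) θ - classInner (χ ψ) θ) := by
    intro θ hθ φ hφ ψ hψ
    have h1 := hDI (φ * ψ) ψ (fun y hy => by
      rw [MonoidHom.mul_apply, hmemA φ hφ y hy, one_mul])
    have h0 : classInner (indFun (W₁ ⊔ W₂)
        (fun w => (((φ * ψ) w : ℂˣ) : ℂ) - (ψ w : ℂ))) θ =
        classInner (χ (φ * ψ)) θ - classInner (χ ψ) θ := by
      rw [h1, classInner_sub_left]
    rw [frobenius_reciprocity _ _ _ hθ] at h0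
    have h2 : classInner (fun w : ↥(W₁ ⊔ W₂) => (((φ * ψ) w : ℂˣ) : ℂ) - (ψ w : ℂ))
        (fun h : ↥(W₁ ⊔ W₂) => θ h) = (Nat.card ↥(W₁ ⊔ W₂) : ℂ)⁻¹ *
        ∑ x : ↥(W₁ ⊔ W₂), ((((φ * ψ) x : ℂˣ) : ℂ) - (ψ x : ℂ)) * (starRingEnd ℂ) (θ x) := rfl
    rw [h2, inv_mul_eq_iff_eq_mul₀ hcard] at h0
    rw [← h0]
    apply Finset.sum_congr rfl
    intro x _
    rw [MonoidHom.mul_apply, Units.val_mul]
  -- the general inversion formula at `w ∉ W₂`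
  have inv : ∀ (w : ↥(W₁ ⊔ W₂)), (w : L) ∉ W₂ → ∀ θ : ↥(W₁ ⊔ W₂) → ℂ,
      ∑ φ ∈ SA, ∑ ψ ∈ SB, (starRingEnd ℂ) (φ w : ℂ) * (starRingEnd ℂ) (ψ w : ℂ) *
        ∑ x : ↥(W₁ ⊔ W₂), ((φ x : ℂ) * (ψ x : ℂ) - (ψ x : ℂ)) * (starRingEnd ℂ) (θ x) =
      (SA.card : ℂ) * (SB.card : ℂ) * (starRingEnd ℂ) (θ w) := by
    intro w hw₂ θ
    have hwH₂ : w ∉ H₂ := fun h => hw₂ (Subgroup.mem_subgroupOf.mp h)
    have hLHS : ∑ φ ∈ SA, ∑ ψ ∈ SB, (starRingEnd ℂ) (φ w : ℂ) * (starRingEnd ℂ) (ψ w : ℂ) *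
        ∑ x : ↥(W₁ ⊔ W₂), ((φ x : ℂ) * (ψ x : ℂ) - (ψ x : ℂ)) * (starRingEnd ℂ) (θ x) =
        ∑ x : ↥(W₁ ⊔ W₂), (∑ φ ∈ SA, (starRingEnd ℂ) (φ w : ℂ) * ((φ x : ℂ) - 1)) *
          (∑ ψ ∈ SB, (starRingEnd ℂ) (ψ w : ℂ) * (ψ x : ℂ)) * (starRingEnd ℂ) (θ x) := by
      calc ∑ φ ∈ SA, ∑ ψ ∈ SB, (starRingEnd ℂ) (φ w : ℂ) * (starRingEnd ℂ) (ψ w : ℂ) *
            ∑ x : ↥(W₁ ⊔ W₂), ((φ x : ℂ) * (ψ x : ℂ) - (ψ x : ℂ)) * (starRingEnd ℂ) (θ x)
          = ∑ φ ∈ SA, ∑ ψ ∈ SB, ∑ x : ↥(W₁ ⊔ W₂),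
              ((starRingEnd ℂ) (φ w : ℂ) * ((φ x : ℂ) - 1)) *
              ((starRingEnd ℂ) (ψ w : ℂ) * (ψ x : ℂ)) * (starRingEnd ℂ) (θ x) := by
            apply Finset.sum_congr rfl
            intro φ _
            apply Finset.sum_congr rfl
            intro ψ _
            rw [Finset.mul_sum]
            apply Finset.sum_congr rfl
            intro x _
            ring
        _ = ∑ φ ∈ SA, ∑ x : ↥(W₁ ⊔ W₂), ∑ ψ ∈ SB,
              ((starRingEnd ℂ) (φ w : ℂ) * ((φ x : ℂ) - 1)) *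
              ((starRingEnd ℂ) (ψ w : ℂ) * (ψ x : ℂ)) * (starRingEnd ℂ) (θ x) := by
            apply Finset.sum_congr rfl
            intro φ _
            exact Finset.sum_comm
        _ = ∑ x : ↥(W₁ ⊔ W₂), ∑ φ ∈ SA, ∑ ψ ∈ SB,
              ((starRingEnd ℂ) (φ w : ℂ) * ((φ x : ℂ) - 1)) *
              ((starRingEnd ℂ) (ψ w : ℂ) * (ψ x : ℂ)) * (starRingEnd ℂ) (θ x) :=
            Finset.sum_comm
        _ = _ := by
            apply Finset.sum_congr rfl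
            intro x _
            rw [Finset.sum_mul_sum, Finset.sum_mul]
            apply Finset.sum_congr rfl
            intro φ _
            rw [Finset.sum_mul]
    rw [hLHS]
    have hP : ∀ x : ↥(W₁ ⊔ W₂), ∑ φ ∈ SA, (starRingEnd ℂ) (φ w : ℂ) * ((φ x : ℂ) - 1) =
        if w⁻¹ * x ∈ H₂ then (SA.card : ℂ) else 0 := by
      intro x
      have h1 := sum_dual_conj_one_sub hcomm H₂ hwH₂ x
      have h2 : ∑ φ ∈ SA, (starRingEnd ℂ) (φ w : ℂ) * ((φ x : ℂ) - 1) =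
          -∑ φ ∈ SA, (starRingEnd ℂ) (φ w : ℂ) * (1 - (φ x : ℂ)) := by
        rw [← Finset.sum_neg_distrib]
        apply Finset.sum_congr rfl
        intro φ _
        ring
      rw [h2, h1]
      split_ifs
      · rw [neg_neg]
      · rw [neg_zero]
    have hQ : ∀ x : ↥(W₁ ⊔ W₂), ∑ ψ ∈ SB, (starRingEnd ℂ) (ψ w : ℂ) * (ψ x : ℂ) =
        if w⁻¹ * x ∈ H₁ then (SB.card : ℂ) else 0 := by
      intro x
      have h1 : ∀ ψ : ↥(W₁ ⊔ W₂) →* ℂˣ, (starRingEnd ℂ) (ψ w : ℂ) * (ψ x : ℂ) =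
          ((ψ (w⁻¹ * x) : ℂˣ) : ℂ) := by
        intro ψ
        rw [unitsHom_conj, MonoidHom.inv_apply, ← map_inv, ← Units.val_mul, ← map_mul]
      rw [Finset.sum_congr rfl (fun ψ _ => h1 ψ)]
      split_ifs with h
      · have h2 : ∀ ψ ∈ SB, ((ψ (w⁻¹ * x) : ℂˣ) : ℂ) = 1 := by
          intro ψ hψ
          rw [hSB, Finset.mem_filter] at hψ
          rw [hψ.2 _ h, Units.val_one]
        rw [Finset.sum_congr rfl h2, Finset.sum_const, nsmul_eq_mul, mul_one]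
      · exact sum_dual_eq_zero hcomm H₁ h
    rw [Finset.sum_congr rfl (fun x _ => by rw [hP x, hQ x])]
    rw [Finset.sum_eq_single w]
    · have h1 : w⁻¹ * w ∈ H₁ := by rw [inv_mul_cancel]; exact H₁.one_mem
      have h2 : w⁻¹ * w ∈ H₂ := by rw [inv_mul_cancel]; exact H₂.one_mem
      rw [if_pos h1, if_pos h2]
    · intro x _ hx
      by_cases h2 : w⁻¹ * x ∈ H₂
      · by_cases h1 : w⁻¹ * x ∈ H₁
        · exfalso
          apply hx
          have hinf := hW.2.2.1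
          have hmem : ((w⁻¹ * x : ↥(W₁ ⊔ W₂)) : L) ∈ W₁ ⊓ W₂ :=
            ⟨Subgroup.mem_subgroupOf.mp h1, Subgroup.mem_subgroupOf.mp h2⟩
          rw [hinf, Subgroup.mem_bot] at hmem
          have h5 : w⁻¹ * x = 1 := Subtype.ext hmem
          exact (inv_mul_eq_one.mp h5).symm
        · rw [if_neg h1, mul_zero, zero_mul]
      · rw [if_neg h2, zero_mul, zero_mul]
    · intro h
      exact absurd (Finset.mem_univ w) h
  -- the identity for `θ = χ ω`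
  have main : ∀ (w : ↥(W₁ ⊔ W₂)), (w : L) ∉ W₂ → ∀ ω : ↥(W₁ ⊔ W₂) →* ℂˣ,
      (SA.card : ℂ) * (SB.card : ℂ) * (starRingEnd ℂ) (χ ω w) =
        (Nat.card ↥(W₁ ⊔ W₂) : ℂ) * (starRingEnd ℂ) (ω w : ℂ) := by
    intro w hw₂ ω
    have hwH₂ : w ∉ H₂ := fun h => hw₂ (Subgroup.mem_subgroupOf.mp h)
    have hA0 : ∑ φ ∈ SA, (starRingEnd ℂ) (φ w : ℂ) = 0 := by
      rw [← map_sum, sum_dual_eq_zero hcomm H₂ hwH₂, map_zero]
    have hc : ∀ ω', classInner (χ ω') (χ ω) = if ω' = ω then 1 else 0 := by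
      intro ω'
      split_ifs with h
      · rw [h]
        exact hn ω
      · exact ho ω' ω h
    rw [← inv w hw₂ (fun x => χ ω x)]
    obtain ⟨φ₀, ψ₀, hφ₀, hψ₀, hω⟩ := snc_decomp W₁ W₂ hW ω
    have hφ₀S : φ₀ ∈ SA := by
      rw [hSA, Finset.mem_filter]
      exact ⟨Finset.mem_univ _, fun y hy => hφ₀ y (Subgroup.mem_subgroupOf.mp hy)⟩
    have hψ₀S : ψ₀ ∈ SB := by
      rw [hSB, Finset.mem_filter]
      exact ⟨Finset.mem_univ _, fun y hy => hψ₀ y (Subgroup.mem_subgroupOf.mp hy)⟩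
    calc ∑ φ ∈ SA, ∑ ψ ∈ SB, (starRingEnd ℂ) (φ w : ℂ) * (starRingEnd ℂ) (ψ w : ℂ) *
          ∑ x : ↥(W₁ ⊔ W₂), ((φ x : ℂ) * (ψ x : ℂ) - (ψ x : ℂ)) * (starRingEnd ℂ) (χ ω x)
        = ∑ φ ∈ SA, ∑ ψ ∈ SB, ((Nat.card ↥(W₁ ⊔ W₂) : ℂ) *
            ((starRingEnd ℂ) (φ w : ℂ) * (starRingEnd ℂ) (ψ w : ℂ) *
              (if φ * ψ = ω then (1 : ℂ) else 0)) -
            (starRingEnd ℂ) (φ w : ℂ) * ((Nat.card ↥(W₁ ⊔ W₂) : ℂ) *
              ((starRingEnd ℂ) (ψ w : ℂ) * (if ψ = ω then (1 : ℂ) else 0)))) := by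
          apply Finset.sum_congr rfl
          intro φ hφ
          apply Finset.sum_congr rfl
          intro ψ hψ
          rw [key (χ ω) (hclass ω) φ hφ ψ hψ, hc, hc]
          ring
      _ = (Nat.card ↥(W₁ ⊔ W₂) : ℂ) * ∑ φ ∈ SA, ∑ ψ ∈ SB,
            (starRingEnd ℂ) (φ w : ℂ) * (starRingEnd ℂ) (ψ w : ℂ) *
            (if φ * ψ = ω then (1 : ℂ) else 0) := by
          have h1 : ∀ φ ∈ SA, ∑ ψ ∈ SB, ((Nat.card ↥(W₁ ⊔ W₂) : ℂ) *
              ((starRingEnd ℂ) (φ w : ℂ) * (starRingEnd ℂ) (ψ w : ℂ) *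
                (if φ * ψ = ω then (1 : ℂ) else 0)) -
              (starRingEnd ℂ) (φ w : ℂ) * ((Nat.card ↥(W₁ ⊔ W₂) : ℂ) *
                ((starRingEnd ℂ) (ψ w : ℂ) * (if ψ = ω then (1 : ℂ) else 0)))) =
              (Nat.card ↥(W₁ ⊔ W₂) : ℂ) * ∑ ψ ∈ SB,
                (starRingEnd ℂ) (φ w : ℂ) * (starRingEnd ℂ) (ψ w : ℂ) *
                (if φ * ψ = ω then (1 : ℂ) else 0) -
              (starRingEnd ℂ) (φ w : ℂ) * ∑ ψ ∈ SB, ((Nat.card ↥(W₁ ⊔ W₂) : ℂ) *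
                ((starRingEnd ℂ) (ψ w : ℂ) * (if ψ = ω then (1 : ℂ) else 0))) := by
            intro φ _
            rw [Finset.sum_sub_distrib, ← Finset.mul_sum, ← Finset.mul_sum]
          rw [Finset.sum_congr rfl h1, Finset.sum_sub_distrib, ← Finset.mul_sum,
            ← Finset.sum_mul, hA0, zero_mul, sub_zero]
      _ = (Nat.card ↥(W₁ ⊔ W₂) : ℂ) * (starRingEnd ℂ) (ω w : ℂ) := by
          congr 1
          rw [Finset.sum_eq_single φ₀]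
          · rw [Finset.sum_eq_single ψ₀]
            · rw [if_pos hω.symm, mul_one, hω, MonoidHom.mul_apply, Units.val_mul, map_mul]
            · intro ψ hψ hne
              rw [if_neg, mul_zero]
              intro h
              exact hne (snc_mul_eq_mul W₁ W₂ φ₀ φ₀ ψ ψ₀ hφ₀ hφ₀ (hmemB ψ hψ) hψ₀
                (h.trans hω)).2
            · intro h
              exact absurd hψ₀S h
          · intro φ hφ hne
            apply Finset.sum_eq_zero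
            intro ψ hψ
            rw [if_neg, mul_zero]
            intro h
            exact hne (snc_mul_eq_mul W₁ W₂ φ φ₀ ψ ψ₀ (hmemA φ hφ) hφ₀ (hmemB ψ hψ) hψ₀
              (h.trans hω)).1
          · intro h
            exact absurd hφ₀S h
  constructor
  · -- (e')
    intro ω w hw₂
    have h1 := main w hw₂ 1
    have h2 : χ 1 (w : L) = 1 := by
      rw [hχ.map_one]
    rw [h2] at h1
    simp only [map_one, mul_one, MonoidHom.one_apply, Units.val_one] at h1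
    have h3 := main w hw₂ ω
    rw [h1] at h3
    have h4 := mul_left_cancel₀ hcard h3
    exact (starRingEnd ℂ).injective h4
  · -- (f')
    intro θ hθ horth w hw₂
    have horth' : ∀ ω, classInner (χ ω) θ = 0 := by
      intro ω
      rw [← classInner_conj_symm, horth ω, map_zero]
    have h1 := inv w hw₂ (fun x => θ x)
    have h2 : ∑ φ ∈ SA, ∑ ψ ∈ SB, (starRingEnd ℂ) (φ w : ℂ) * (starRingEnd ℂ) (ψ w : ℂ) *
        ∑ x : ↥(W₁ ⊔ W₂), ((φ x : ℂ) * (ψ x : ℂ) - (ψ x : ℂ)) * (starRingEnd ℂ) (θ x) = 0 := by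
      apply Finset.sum_eq_zero
      intro φ hφ
      apply Finset.sum_eq_zero
      intro ψ hψ
      rw [key θ hθ φ hφ ψ hψ, horth', horth', sub_zero, mul_zero, mul_zero]
    rw [h2] at h1
    have h3 : (starRingEnd ℂ) (θ w) = 0 := by
      rcases mul_eq_zero.mp h1.symm with h | h
      · exact absurd h (mul_ne_zero hA hB)
      · exact h
    simpa using h3

example : Cfsg.Agent.H81.TyP.StmtVals.{u} := vals

end Cfsg.Agent.H32.TyP
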