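import Mathlib
import Cfsg.Agent.H42.UtDefs
import Cfsg.Agent.H42.UnBase
import Cfsg.Agent.H45.IsoConj
import Cfsg.Agent.H32.TiAnti

/-!
# helper32: piece UT-ANTI of S5953 (helper42's project)

Two orthogonal nondegenerate invariant subspaces `L₁`, `L₂` of dimension `deg φ` inside
`ker φ(T)`, `φ` irreducible, hermitian case: an anti-isometry `e : L₁ ≃ L₂` commuting with `T`
(helper45's `isoConj_of_charpoly_eq` for `B` on `L₁` and `-B` on `L₂`) has a totally isotropic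
graph.
-/

set_option autoImplicit false

namespace Cfsg.Agent.H32.Ut

open Cfsg.Agent.H45 Cfsg.Agent.H42.Spd Cfsg.Agent.H42.Un Cfsg.Agent.H42.Ti Cfsg.Agent.H42.Ut
  Module Polynomial

universe u v

theorem utAnti : StUtAnti.{u, v} := by
  intro F _ _ σ V _ _ _ B T hI hss φ hφ L₁ L₂ hL₁ hL₂ hL₁φ hL₂φ hperp hfr₁ hfr₂
  have hd := hI.good hss
  have hgood₁ : Good σ 1 (B.domRestrict₁₂ L₁ L₁) (T.restrict hL₁.1) := by
    refine ⟨fun x y => hd.herm x y, ?_, fun h => absurd h hI.sigma_ne, fun x y => hd.isom x y,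
      hd.ss.restrict _⟩
    intro x hx
    have h1 : (x : V) ∈ L₁ ⊓ perp B L₁ := ⟨x.2, fun u hu => hd.refl (hx ⟨u, hu⟩)⟩
    rw [hL₁.2] at h1
    exact Subtype.ext ((Submodule.mem_bot F).mp h1)
  have hgood₂ : Good σ 1 (-(B.domRestrict₁₂ L₂ L₂)) (T.restrict hL₂.1) := by
    refine ⟨?_, ?_, fun h => absurd h hI.sigma_ne, ?_, hd.ss.restrict _⟩
    · intro x y
      show -(B (y : V) (x : V)) = 1 * σ (-(B (x : V) (y : V)))
      rw [hd.herm (x : V) (y : V)]
      simp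
    · intro x hx
      have h1 : (x : V) ∈ L₂ ⊓ perp B L₂ := by
        refine ⟨x.2, fun u hu => hd.refl ?_⟩
        have h2 : -(B (x : V) u) = 0 := hx ⟨u, hu⟩
        exact neg_eq_zero.mp h2
      rw [hL₂.2] at h1
      exact Subtype.ext ((Submodule.mem_bot F).mp h1)
    · intro x y
      show -(B (T (x : V)) (T (y : V))) = -(B (x : V) (y : V))
      rw [hd.isom]
  have hchar : (T.restrict hL₁.1).charpoly = (T.restrict hL₂.1).charpoly := by
    rw [Cfsg.Agent.H32.Ti.charpoly_restrict_eq T φ hφ L₁ hL₁.1 hL₁φ hfr₁,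
      Cfsg.Agent.H32.Ti.charpoly_restrict_eq T φ hφ L₂ hL₂.1 hL₂φ hfr₂]
  obtain ⟨e, hcomm, he⟩ := isoConj_of_charpoly_eq σ hI.invol 1
    φ.natDegree (B.domRestrict₁₂ L₁ L₁) (-(B.domRestrict₁₂ L₂ L₂)) (T.restrict hL₁.1)
    (T.restrict hL₂.1) hfr₁ hgood₁ hgood₂ hchar
  have he' : ∀ x y : ↥L₁, B (e x : V) (e y : V) = -B (x : V) (y : V) := by
    intro x y
    have h1 : -(B (e x : V) (e y : V)) = B (x : V) (y : V) := he x y
    rw [← h1, neg_neg]
  have hcomm' : ∀ x : ↥L₁, (e (T.restrict hL₁.1 x) : V) = T (e x : V) := by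
    intro x
    rw [hcomm x]
    rfl
  let f : ↥L₁ →ₗ[F] V := L₁.subtype + L₂.subtype ∘ₗ (e : ↥L₁ →ₗ[F] ↥L₂)
  have hf : ∀ x : ↥L₁, f x = (x : V) + (e x : V) := fun x => rfl
  have hinj : Function.Injective f := by
    rw [injective_iff_map_eq_zero]
    intro x hx
    rw [hf] at hx
    have h1 : (x : V) = -(e x : V) := eq_neg_of_add_eq_zero_left hx
    have h2 : (x : V) ∈ L₁ ⊓ perp B L₁ := by
      refine ⟨x.2, ?_⟩
      rw [h1]
      exact Submodule.neg_mem _ (hperp (e x).2)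
    rw [hL₁.2] at h2
    exact Subtype.ext ((Submodule.mem_bot F).mp h2)
  refine ⟨LinearMap.range f, ?_, ?_, ?_, ?_⟩
  · rintro _ ⟨x, rfl⟩
    rw [hf]
    exact Submodule.add_mem_sup x.2 (e x).2
  · rw [Module.End.mem_invtSubmodule]
    rintro _ ⟨x, rfl⟩
    rw [Submodule.mem_comap]
    refine ⟨T.restrict hL₁.1 x, ?_⟩
    rw [hf, hf, hcomm', map_add]
    rfl
  · rintro _ ⟨x, rfl⟩ _ ⟨y, rfl⟩
    rw [hf, hf]
    simp only [map_add, LinearMap.add_apply]
    have h1 : B (x : V) (e y : V) = 0 := hperp (e y).2 x x.2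
    have h2 : B (e x : V) (y : V) = 0 := hd.refl (hperp (e x).2 y y.2)
    rw [h1, h2, he']
    ring
  · rw [LinearMap.finrank_range_of_inj hinj, hfr₁]

example : Cfsg.Agent.H42.Ut.StUtAnti.{u, v} := utAnti

end Cfsg.Agent.H32.Ut
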