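import Mathlib
import Cfsg.Agent.H42.UtDefs
import Cfsg.Agent.H42.UnBase
import Cfsg.Agent.H17.GUDet
import Cfsg.Agent.Lib.Helper96.SpnUEx

/-!
# helper32: piece UT-TRANSPORT of S5953 (helper42's project)

A hermitian model of dimension `n` (order `r`, `ord_r(q) ≠ 2`) gives an element of `SU_n(q)` with
the same kernel dimensions (as `H14.Un.exists_su_of_umodel`, with the kernels of `aeval g φ`
carried along as in `H32.Ti.tiTransport`).
-/

set_option autoImplicit false

namespace Cfsg.Agent.H32.Ut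

open Cfsg.Agent.H45 Cfsg.Agent.H42.Spd Cfsg.Agent.H42.Un Cfsg.Agent.H42.Ti Cfsg.Agent.H42.Ut
  Module Matrix Polynomial

universe u

theorem utTransport : StUtTransport.{u} := by
  classical
  intro F _ _ p _ _ q σ r hF hσq hr hr2 hrp hord Φs n k a h
  obtain ⟨V, _, _, _, B, g, hd, hgr, hn, hk, ha⟩ := h
  have huiso : UIso B g := by
    refine ⟨sigma_invol hF σ hσq, sigma_nontriv hF σ hσq, ?_, hd.nondeg, hd.isom⟩
    intro x y
    rw [hd.herm, one_mul]
  obtain ⟨e, he⟩ := exists_iso_std hF σ hσq B g huiso n hn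
  obtain ⟨g', hg'⟩ : ∃ g' : Module.End F (Fin n → F), g' = e.conj g := ⟨_, rfl⟩
  have hg'iso : ∀ x y, hermB σ n (g' x) (g' y) = hermB σ n x y := by
    intro x y
    rw [hg', LinearEquiv.conj_apply_apply, LinearEquiv.conj_apply_apply, he, hd.isom, ← he,
      e.apply_symm_apply, e.apply_symm_apply]
  have hg'r : g' ^ r = 1 := by
    have h1 : e.conj (g ^ r) = (e.conj g) ^ r := map_pow e.conjRingEquiv g r
    rw [hg', ← h1, hgr]
    exact LinearEquiv.conj_id e
  obtain ⟨A, hA⟩ : ∃ A : Matrix (Fin n) (Fin n) F, A = LinearMap.toMatrix' g' := ⟨_, rfl⟩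
  have h2 : ∀ z, g' z = A *ᵥ z := by
    intro z
    rw [hA, ← Matrix.toLin'_apply, Matrix.toLin'_toMatrix']
  have hApres : ∀ u v, Cfsg.hermForm n F q (A *ᵥ u) (A *ᵥ v) = Cfsg.hermForm n F q u v := by
    intro u v
    rw [← h2, ← h2, ← hermB_eq_hermForm σ hσq, ← hermB_eq_hermForm σ hσq]
    exact hg'iso u v
  have hAr : A ^ r = 1 := by
    apply Matrix.toLin'.injective
    rw [Matrix.toLin'_pow, hA, Matrix.toLin'_toMatrix', hg'r, Matrix.toLin'_one]
    rfl
  have hdet : A.det = 1 := by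
    have hd1 : A.det ^ r = 1 := by rw [← Matrix.det_pow, hAr, Matrix.det_one]
    have hd2 : A.det ^ (q + 1) = 1 := Cfsg.Agent.H17.gu_det_pow hF n A hApres
    have hcop : Nat.gcd r (q + 1) = 1 := by
      rw [← Nat.coprime_iff_gcd_eq_one]
      rw [Nat.Prime.coprime_iff_not_dvd hr]
      intro hdvd
      apply hord
      haveI : Fact r.Prime := ⟨hr⟩
      have h3 : (q : ZMod r) = -1 := by
        have h4 : ((q + 1 : ℕ) : ZMod r) = 0 := (ZMod.natCast_eq_zero_iff _ _).mpr hdvd
        push_cast at h4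
        exact eq_neg_of_add_eq_zero_left h4
      rw [h3, orderOf_neg_one, ZMod.ringChar_zmod_n, if_neg hr2]
    have h5 : A.det ^ Nat.gcd r (q + 1) = 1 := pow_gcd_eq_one.mpr ⟨hd1, hd2⟩
    rw [hcop, pow_one] at h5
    exact h5
  obtain ⟨x, hx⟩ : ∃ x : Matrix.SpecialLinearGroup (Fin n) F,
      (x : Matrix (Fin n) (Fin n) F) = A := ⟨⟨A, hdet⟩, rfl⟩
  refine ⟨x, (mem_SU_iff n x).mpr (by rw [hx]; exact hApres), ?_, ?_, ?_⟩
  · apply Subtype.ext
    rw [Matrix.SpecialLinearGroup.coe_pow, hx, hAr]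
    rfl
  · rw [hx, hA, Matrix.toLin'_toMatrix', ← hk]
    have h1 : g' - 1 = e.conj (g - 1) := by
      rw [hg']
      have h3 : e.conj (g - 1) = e.conj g - e.conj 1 := map_sub e.conjRingEquiv g 1
      have h4 : e.conj (1 : Module.End F V) = 1 := LinearEquiv.conj_id e
      rw [h3, h4]
    rw [h1, Cfsg.Agent.Lib.Helper96.Spn.ker_conj]
    exact LinearEquiv.finrank_eq
      (Submodule.equivMapOfInjective e.toLinearMap e.injective (LinearMap.ker (g - 1))).symm
  · intro φ hφ
    rw [hx, hA, Matrix.toLin'_toMatrix', ← ha φ hφ]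
    have h1 : aeval g' φ = e.conj (aeval g φ) := by
      rw [hg']
      exact Polynomial.aeval_algHom_apply (e.conjAlgEquiv F) g φ
    rw [h1, Cfsg.Agent.Lib.Helper96.Spn.ker_conj]
    exact LinearEquiv.finrank_eq
      (Submodule.equivMapOfInjective e.toLinearMap e.injective
        (LinearMap.ker (aeval g φ))).symm

example : Cfsg.Agent.H42.Ut.StUtTransport.{u} := utTransport

end Cfsg.Agent.H32.Ut
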