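import Mathlib
import Cfsg.Agent.H74.W2PDefs
import Cfsg.Agent.S4441
import Cfsg.Agent.H4.PSection2

/-!
# S0720 piece BR (helper32, for helper74)

`brauer`: the irreducible constituent `W` of the permutation module lying in the principal
`p`-block has dimension `|N(P) : C(P)|` (via S4441).
-/

set_option autoImplicit false
set_option linter.unusedSectionVars false
set_option linter.unusedVariables false
set_option linter.style.haveILetI false

namespace Cfsg.Agent.H32.W2P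

open Cfsg.Agent.H74.W2P Equiv MulAction

variable {Ω : Type*} [Fintype Ω] [DecidableEq Ω]

/-- the operator `f ↦ f ∘ k⁻¹` on an invariant subspace -/
noncomputable def Tk {G : Subgroup (Perm Ω)} {W : Submodule ℂ (Ω → ℂ)} (hinv : Inv G W) (k : G) :
    W →ₗ[ℂ] W where
  toFun f := ⟨fun ω => (f : Ω → ℂ) ((k⁻¹ : G) • ω),
    hinv ((k⁻¹ : G) : Perm Ω) (k⁻¹ : G).2 f f.2⟩
  map_add' f f' := rfl
  map_smul' c f := rfl

lemma Tk_one {G : Subgroup (Perm Ω)} {W : Submodule ℂ (Ω → ℂ)} (hinv : Inv G W) :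
    Tk hinv (1 : G) = LinearMap.id := by
  refine LinearMap.ext fun f => Subtype.ext (funext fun ω => ?_)
  show (f : Ω → ℂ) (((1 : G)⁻¹ : G) • ω) = (f : Ω → ℂ) ω
  rw [inv_one, one_smul]

lemma Tk_mul {G : Subgroup (Perm Ω)} {W : Submodule ℂ (Ω → ℂ)} (hinv : Inv G W) (a b : G) :
    Tk hinv (a * b) = Tk hinv a * Tk hinv b := by
  refine LinearMap.ext fun f => Subtype.ext (funext fun ω => ?_)
  show (f : Ω → ℂ) (((a * b)⁻¹ : G) • ω) = (f : Ω → ℂ) ((b⁻¹ : G) • ((a⁻¹ : G) • ω))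
  rw [mul_inv_rev, mul_smul]

lemma trace_Tk_conj {G : Subgroup (Perm Ω)} {W : Submodule ℂ (Ω → ℂ)} (hinv : Inv G W)
    (h g : G) : LinearMap.trace ℂ W (Tk hinv (h * g * h⁻¹)) = LinearMap.trace ℂ W (Tk hinv g) := by
  rw [Tk_mul, Tk_mul, LinearMap.trace_mul_cycle, ← Tk_mul, inv_mul_cancel, Tk_one]
  rfl

/-- the matrix of the class sum of `g` on the permutation module -/
noncomputable def clsMat (G : Subgroup (Perm Ω)) [Fintype G] (g : G) : Matrix Ω Ω ℤ :=
  open Classical in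
  fun i j => ∑ k : G, if IsConj g k ∧ (k : Perm Ω) j = i then 1 else 0

lemma clsMat_mulVec (G : Subgroup (Perm Ω)) [Fintype G] (g : G) (f : Ω → ℂ) (i : Ω) :
    ((clsMat G g).map (Int.cast : ℤ → ℂ)).mulVec f i =
      open Classical in ∑ k : G, if IsConj g k then f ((k⁻¹ : G) • i) else 0 := by
  classical
  simp only [Matrix.mulVec, dotProduct, Matrix.map_apply, clsMat, Int.cast_sum, Int.cast_ite,
    Int.cast_one, Int.cast_zero, Finset.sum_mul]
  rw [Finset.sum_comm]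
  apply Finset.sum_congr rfl
  intro k _
  by_cases hk : IsConj g k
  · simp only [hk, true_and, if_true]
    rw [Finset.sum_eq_single ((k⁻¹ : G) • i)]
    · have : (k : Perm Ω) ((k⁻¹ : G) • i) = i := by
        show (k : Perm Ω) (((k⁻¹ : G) : Perm Ω) i) = i
        simp
      rw [if_pos this, one_mul]
    · intro j _ hj
      rw [if_neg, zero_mul]
      intro h
      apply hj
      rw [← h]
      show j = ((k⁻¹ : G) : Perm Ω) ((k : Perm Ω) j)
      simp
    · intro h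
      exact absurd (Finset.mem_univ _) h
  · rw [if_neg hk]
    apply Finset.sum_eq_zero
    intro j _
    rw [if_neg (fun h => hk h.1), zero_mul]

lemma clsMat_cent (G : Subgroup (Perm Ω)) [Fintype G] (g : G) : Cent G (clsMat G g) := by
  classical
  intro h hh i j
  unfold clsMat
  set h' : G := ⟨h, hh⟩ with hh'
  refine Fintype.sum_equiv (MulAut.conj h'⁻¹).toEquiv _ _ (fun k => ?_)
  have key : (IsConj g (h'⁻¹ * k * h') ∧ ((h'⁻¹ * k * h' : G) : Perm Ω) j = i) ↔
      (IsConj g k ∧ (k : Perm Ω) (h j) = h i) := by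
    constructor
    · rintro ⟨h1, h2⟩
      refine ⟨h1.trans (isConj_iff.mpr ⟨h', by group⟩), ?_⟩
      have h3 : (h : Perm Ω)⁻¹ ((k : Perm Ω) (h j)) = i := by
        simpa [Perm.mul_apply, hh'] using h2
      rw [← h3]; simp
    · rintro ⟨h1, h2⟩
      refine ⟨h1.trans (isConj_iff.mpr ⟨h'⁻¹, by group⟩), ?_⟩
      simp [Perm.mul_apply, hh', h2]
  show (if IsConj g k ∧ (k : Perm Ω) (h j) = h i then (1 : ℤ) else 0) =
    if IsConj g ((MulAut.conj h'⁻¹) k) ∧ (((MulAut.conj h'⁻¹) k : G) : Perm Ω) j = i then 1 else 0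
  rw [MulAut.conj_apply, inv_inv]
  exact if_congr key.symm rfl rfl

lemma card_conj_eq_index {H : Type*} [Group H] [Fintype H] (g : H)
    [DecidablePred (fun k : H => IsConj g k)] :
    (Finset.univ.filter (fun k : H => IsConj g k)).card =
      (Subgroup.centralizer ({g} : Set H)).index := by
  classical
  have h1 : (Subgroup.centralizer ({g} : Set H)).index =
      (MulAction.stabilizer (ConjAct H) g).index := by
    rw [Subgroup.centralizer_eq_comap_stabilizer]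
    exact Subgroup.index_comap_of_surjective _ (ConjAct.toConjAct (G := H)).surjective
  rw [h1, MulAction.index_stabilizer, Set.ncard_eq_toFinset_card']
  congr 1
  ext k
  simp only [Finset.mem_filter, Finset.mem_univ, true_and, Set.mem_toFinset,
    ConjAct.mem_orbit_conjAct]
  exact isConj_comm

lemma zeta_pow_self (p : ℕ) (hp : p ≠ 0) : zeta p ^ p = 1 := by
  unfold zeta
  rw [← Complex.exp_nat_mul]
  have : (p : ℂ) * (2 * Real.pi * Complex.I / p) = 2 * Real.pi * Complex.I := by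
    have hp' : (p : ℂ) ≠ 0 := by exact_mod_cast hp
    field_simp
  rw [this, Complex.exp_two_pi_mul_I]

lemma isIntegral_zeta (p : ℕ) (hp : p ≠ 0) : IsIntegral ℤ (zeta p) :=
  IsIntegral.of_pow (Nat.pos_of_ne_zero hp) (by rw [zeta_pow_self p hp]; exact isIntegral_one)

lemma one_sub_zeta_mem {p : ℕ} (hp : p.Prime) (hp2 : p ≠ 2) {M : Ideal Cfsg.AlgInt}
    (hM : Cfsg.IsPModular p M) (h1 : IsIntegral ℤ (1 - zeta p)) :
    (⟨1 - zeta p, h1⟩ : Cfsg.AlgInt) ∈ M := by
  have hprime : M.IsPrime := hM.2.1.isPrime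
  apply Ideal.IsPrime.mem_of_pow_mem hprime p
  set z : Cfsg.AlgInt := ⟨zeta p, isIntegral_zeta p hp.ne_zero⟩ with hz
  have hzp : z ^ p = 1 := by
    apply Subtype.ext
    rw [hz]
    simp [zeta_pow_self p hp.ne_zero]
  have heq : (⟨1 - zeta p, h1⟩ : Cfsg.AlgInt) = 1 + (-z) := by
    apply Subtype.ext
    rw [hz]
    simp [sub_eq_add_neg]
  obtain ⟨r, hr⟩ := exists_add_pow_prime_eq hp (1 : Cfsg.AlgInt) (-z)
  rw [heq, hr, one_pow, (hp.odd_of_ne_two hp2).neg_pow, hzp, add_neg_cancel, zero_add]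
  have : (p : Cfsg.AlgInt) * 1 * -z * r = (p : Cfsg.AlgInt) * (1 * -z * r) := by ring
  rw [this]
  exact Ideal.mul_mem_right _ _ hM.2.2

theorem mem_principalBlock_of_cong {G : Subgroup (Perm Ω)} {p : ℕ} (hp : p.Prime) (hp2 : p ≠ 2)
    {a₀ : Ω} {W : Submodule ℂ (Ω → ℂ)} (hinv : Inv G W) (hne : W ≠ ⊥)
    (hcong : ∀ A : Matrix Ω Ω ℤ, Cent G A → ∃ u : ℂ, IsIntegral ℤ u ∧ ∀ f ∈ W,
      (A.map (Int.cast : ℤ → ℂ)).mulVec f = ((∑ j, (A a₀ j : ℂ)) + (1 - zeta p) * u) • f)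
    (χ : Cfsg.IrrCharacter G)
    (hχ : ∀ (g : G) (T : W →ₗ[ℂ] W),
      (∀ f : W, ((T f : W) : Ω → ℂ) = fun ω => (f : Ω → ℂ) ((g⁻¹ : G) • ω)) →
        (χ : G → ℂ) g = LinearMap.trace ℂ W T)
    (M : Ideal Cfsg.AlgInt) (hM : Cfsg.IsPModular p M) :
    χ ∈ Cfsg.principalBlock M G := by
  classical
  letI : Fintype G := Fintype.ofFinite _
  show ∀ g : G, Cfsg.MemLocalIdeal M
    (Cfsg.centralChar (fun _ : G => (1 : ℂ)) g - Cfsg.centralChar (χ : G → ℂ) g)
  intro g
  have hχk : ∀ k : G, (χ : G → ℂ) k = LinearMap.trace ℂ W (Tk hinv k) :=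
    fun k => hχ k (Tk hinv k) (fun f => rfl)
  have hχ1 : (χ : G → ℂ) 1 = (Module.finrank ℂ W : ℂ) := by
    rw [hχk 1, Tk_one, LinearMap.trace_id]
  have hfin : (Module.finrank ℂ W : ℂ) ≠ 0 := by
    have : Module.finrank ℂ W ≠ 0 := by
      intro h0
      exact hne (Submodule.finrank_eq_zero.mp h0)
    exact_mod_cast this
  obtain ⟨u, hu, hact⟩ := hcong (clsMat G g) (clsMat_cent G g)
  have hrow : (∑ j, (clsMat G g a₀ j : ℂ)) =
      ((Subgroup.centralizer ({g} : Set G)).index : ℂ) := by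
    have h1 := clsMat_mulVec G g (fun _ => (1 : ℂ)) a₀
    simp only [Matrix.mulVec, dotProduct, Matrix.map_apply, mul_one] at h1
    rw [h1, ← card_conj_eq_index g, Finset.sum_ite, Finset.sum_const_zero, add_zero,
      Finset.sum_const, nsmul_eq_mul, mul_one]
  have hcls : ∀ k : G, IsConj g k → (χ : G → ℂ) k = (χ : G → ℂ) g := by
    intro k hk
    obtain ⟨c, hc⟩ := isConj_iff.mp hk
    rw [← hc, hχk, hχk, trace_Tk_conj]
  have hS : (∑ k : G, if IsConj g k then Tk hinv k else 0) =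
      ((∑ j, (clsMat G g a₀ j : ℂ)) + (1 - zeta p) * u) • (LinearMap.id : W →ₗ[ℂ] W) := by
    refine LinearMap.ext fun f => Subtype.ext (funext fun i => ?_)
    have h1 := congrFun (hact f f.2) i
    rw [clsMat_mulVec] at h1
    rw [LinearMap.sum_apply, Submodule.coe_sum, Finset.sum_apply, LinearMap.smul_apply,
      LinearMap.id_apply, Submodule.coe_smul, ← h1]
    apply Finset.sum_congr rfl
    intro k _
    split_ifs with hk
    · rfl
    · rfl
  have htr := congrArg (LinearMap.trace ℂ W) hS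
  rw [map_sum, map_smul, LinearMap.trace_id] at htr
  have h2 : ∑ k : G, LinearMap.trace ℂ W (if IsConj g k then Tk hinv k else 0) =
      ((Subgroup.centralizer ({g} : Set G)).index : ℂ) * (χ : G → ℂ) g := by
    have h3 : ∀ k : G, LinearMap.trace ℂ W (if IsConj g k then Tk hinv k else 0) =
        if IsConj g k then (χ : G → ℂ) g else 0 := by
      intro k
      split_ifs with hk
      · rw [← hχk, hcls k hk]
      · exact map_zero _
    rw [Finset.sum_congr rfl (fun k _ => h3 k), ← card_conj_eq_index g, Finset.sum_ite,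
      Finset.sum_const_zero, add_zero, Finset.sum_const, nsmul_eq_mul]
  rw [h2, hrow, smul_eq_mul] at htr
  have hdiff : Cfsg.centralChar (fun _ : G => (1 : ℂ)) g - Cfsg.centralChar (χ : G → ℂ) g
      = -((1 - zeta p) * u) := by
    unfold Cfsg.centralChar
    rw [hχ1]
    field_simp
    linear_combination (-1 : ℂ) * htr
  rw [hdiff]
  have h1z : IsIntegral ℤ (1 - zeta p) := isIntegral_one.sub (isIntegral_zeta p hp.ne_zero)
  refine ⟨-((⟨1 - zeta p, h1z⟩ : Cfsg.AlgInt) * ⟨u, hu⟩), 1, ?_, ?_, ?_⟩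
  · exact neg_mem (Ideal.mul_mem_right _ _ (one_sub_zeta_mem hp hp2 hM h1z))
  · exact (Ideal.ne_top_iff_one M).mp hM.2.1.ne_top
  · simp

/-- S0720-BR. -/
theorem brauer {G : Subgroup (Perm Ω)} {p : ℕ} {x : Perm Ω} (hyp : Hyp G p x) {a₀ : Ω}
    {W : Submodule ℂ (Ω → ℂ)} {Λ : Finset (ZMod p)} (hW : WData G p x a₀ W Λ)
    (hfr : Module.finrank ℂ W = Λ.card)
    (hχ : ∃ χ : Cfsg.IrrCharacter G, ∀ (g : G) (T : W →ₗ[ℂ] W),
      (∀ f : W, ((T f : W) : Ω → ℂ) = fun ω => (f : Ω → ℂ) ((g⁻¹ : G) • ω)) →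
        (χ : G → ℂ) g = LinearMap.trace ℂ W T)
    (hdvd : (Subgroup.centralizer (Subgroup.zpowers (⟨x, hyp.hxG⟩ : G) : Set G)).relIndex
      (Subgroup.normalizer (Subgroup.zpowers (⟨x, hyp.hxG⟩ : G) : Set G)) ∣ Λ.card)
    (hlt : Λ.card < p - 1) :
    Λ.card = (Subgroup.centralizer (Subgroup.zpowers (⟨x, hyp.hxG⟩ : G) : Set G)).relIndex
      (Subgroup.normalizer (Subgroup.zpowers (⟨x, hyp.hxG⟩ : G) : Set G)) := by
  classical
  obtain ⟨χ, hχ⟩ := hχ
  have hp := hyp.hp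
  haveI : Fact p.Prime := ⟨hp⟩
  letI : Fintype G := Fintype.ofFinite _
  obtain ⟨M, hM⟩ := Cfsg.Agent.H4.exists_isPModular hp
  have hmem := mem_principalBlock_of_cong hp hyp.hp2 hW.inv hW.irr.1 hW.cong χ hχ M hM
  have hχ1 : (χ : G → ℂ) 1 = (Λ.card : ℂ) := by
    rw [hχ 1 (Tk hW.inv 1) (fun f => rfl), Tk_one, LinearMap.trace_id, hfr]
  have hdeg : Cfsg.charDegree (χ : G → ℂ) = Λ.card := by
    unfold Cfsg.charDegree
    rw [hχ1]
    simp
  obtain ⟨x', hx'⟩ : ∃ x' : G, x' = ⟨x, hyp.hxG⟩ := ⟨_, rfl⟩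
  rw [← hx'] at hdvd ⊢
  have hx'ord : orderOf x' = p := by
    rw [hx', Subgroup.orderOf_mk]; exact hyp.hxord
  have hZ : Nat.card (Subgroup.zpowers x') = p := by rw [Nat.card_zpowers, hx'ord]
  obtain ⟨P, hP⟩ := (IsPGroup.of_card (n := 1) (by rw [hZ, pow_one]) :
    IsPGroup p (Subgroup.zpowers x')).exists_le_sylow
  have hPcard : Nat.card P = p := by
    rw [P.card_eq_multiplicity]
    have hG0 : Nat.card G ≠ 0 := Nat.card_pos.ne'
    have h1 : 1 ≤ (Nat.card G).factorization p := by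
      rw [← hp.pow_dvd_iff_le_factorization hG0, pow_one, ← hx'ord]
      exact orderOf_dvd_natCard x'
    have h2 : ¬ 2 ≤ (Nat.card G).factorization p := by
      rw [← hp.pow_dvd_iff_le_factorization hG0]
      exact hyp.hsyl
    have h3 : (Nat.card G).factorization p = 1 := by omega
    rw [h3, pow_one]
  have hPeq : (P : Subgroup G) = Subgroup.zpowers x' :=
    (Subgroup.eq_of_le_of_card_ge hP (by rw [hPcard, hZ])).symm
  obtain ⟨X, Y, hB, -, -, -, εX, ε, hX, hε, hY, -, -⟩ :=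
    Cfsg.Agent.S4441.result p M hM hyp.hp2 P hPcard _ rfl
  rw [hPeq] at hY
  obtain ⟨e, he⟩ : ∃ e : ℕ, e = (Subgroup.centralizer (Subgroup.zpowers x' : Set G)).relIndex
      (Subgroup.normalizer (Subgroup.zpowers x' : Set G)) := ⟨_, rfl⟩
  rw [← he] at hY hdvd ⊢
  have hd1 : 1 ≤ Λ.card := by
    rw [← hfr]
    rcases Nat.eq_zero_or_pos (Module.finrank ℂ W) with h0 | h0
    · exact absurd (Submodule.finrank_eq_zero.mp h0) hW.irr.1
    · exact h0
  have he1 : 1 ≤ e := Nat.pos_of_dvd_of_pos hdvd hd1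
  have hele : e ≤ Λ.card := Nat.le_of_dvd hd1 hdvd
  have hp2' : 2 ≤ p := hp.two_le
  rw [hB] at hmem
  rcases hmem with hmem | hmem
  · obtain ⟨hε1, hcon, -⟩ := hX χ hmem
    rw [hdeg] at hcon
    have hdv := Int.modEq_iff_dvd.mp hcon
    rcases hε1 with h1 | h1
    · rw [h1] at hdv
      have h0 := Int.eq_zero_of_abs_lt_dvd hdv (by rw [abs_lt]; constructor <;> omega)
      omega
    · rw [h1] at hdv
      have h0 := Int.eq_zero_of_abs_lt_dvd hdv (by rw [abs_lt]; constructor <;> omega)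
      omega
  · have hcon := hY χ hmem
    rw [hdeg] at hcon
    have hdv := Int.modEq_iff_dvd.mp hcon
    rcases hε with h1 | h1
    · rw [h1, one_mul] at hdv
      have h0 := Int.eq_zero_of_abs_lt_dvd hdv (by rw [abs_lt]; constructor <;> omega)
      omega
    · rw [h1] at hdv
      exfalso
      obtain ⟨m, hm⟩ := hdvd
      have h3 : (p : ℤ) ∣ ((e * (m + 1) : ℕ) : ℤ) := by
        have h4 : (-1 : ℤ) * (e : ℤ) - (Λ.card : ℤ) = -((e * (m + 1) : ℕ) : ℤ) := by
          rw [hm]; push_cast; ring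
        rw [h4] at hdv
        exact (dvd_neg.mp hdv)
      have h4 : p ∣ e * (m + 1) := Int.natCast_dvd_natCast.mp h3
      have hmle : m ≤ Λ.card := by rw [hm]; exact Nat.le_mul_of_pos_left m he1
      rcases (Nat.Prime.dvd_mul hp).mp h4 with h5 | h5
      · have := Nat.le_of_dvd he1 h5
        omega
      · have := Nat.le_of_dvd (by omega) h5
        omega

example {G : Subgroup (Perm Ω)} {p : ℕ} {x : Perm Ω} (hyp : Hyp G p x) {a₀ : Ω}
    {W : Submodule ℂ (Ω → ℂ)} {Λ : Finset (ZMod p)} (hW : WData G p x a₀ W Λ)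
    (hfr : Module.finrank ℂ W = Λ.card)
    (hχ : ∃ χ : Cfsg.IrrCharacter G, ∀ (g : G) (T : W →ₗ[ℂ] W),
      (∀ f : W, ((T f : W) : Ω → ℂ) = fun ω => (f : Ω → ℂ) ((g⁻¹ : G) • ω)) →
        (χ : G → ℂ) g = LinearMap.trace ℂ W T)
    (hdvd : (Subgroup.centralizer (Subgroup.zpowers (⟨x, hyp.hxG⟩ : G) : Set G)).relIndex
      (Subgroup.normalizer (Subgroup.zpowers (⟨x, hyp.hxG⟩ : G) : Set G)) ∣ Λ.card)
    (hlt : Λ.card < p - 1) :
    Λ.card = (Subgroup.centralizer (Subgroup.zpowers (⟨x, hyp.hxG⟩ : G) : Set G)).relIndex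
      (Subgroup.normalizer (Subgroup.zpowers (⟨x, hyp.hxG⟩ : G) : Set G)) :=
  brauer hyp hW hfr hχ hdvd hlt

end Cfsg.Agent.H32.W2P
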