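import Mathlib
import Cfsg.Agent.H58.KUDefs
import Cfsg.Agent.H54.BG161Tau
import Cfsg.Agent.H58.BG10All2

/-!
# helper32: Z-CASES (for helper58, sub-project Z of S1353/S1354)
-/

set_option autoImplicit false

namespace Cfsg.Agent.H32.KU

open Cfsg Subgroup

universe u

/-- Z-CASES: the primes of `E` lie in `τ₁(M) ∪ τ₂(M) ∪ τ₃(M)`. -/
theorem zCases {G : Type u} [Group G] [Finite G] : Cfsg.Agent.H58.KU.StZCases G := by
  intro hG M E hM hE q hq hqE
  have h50 := Cfsg.Agent.H58.BG10.st1350 hG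
  have h03 := Cfsg.Agent.H58.BG10.st1403 hG
  have h := Cfsg.Agent.H54.BG161.tauCases hG h50 h03 M hM E hE q hq hqE
  rcases h with (h | h) | h
  · exact Or.inl h
  · exact Or.inr (Or.inl h)
  · exact Or.inr (Or.inr h)

example {G : Type u} [Group G] [Finite G] : Cfsg.Agent.H58.KU.StZCases G := zCases

end Cfsg.Agent.H32.KU
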